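import Cfsg.Agent.Lib.H94.TCRuA.Chk
set_option Elab.async false
set_option autoImplicit false
set_option maxRecDepth 100000
set_option linter.all false
namespace H94.TCRuA
open H35.TC
theorem r_20 : allB chkP 9 10240 = true := by decide +kernel
theorem r_21 : allB chkP 9 10752 = true := by decide +kernel
theorem r_22 : allB chkP 9 11264 = true := by decide +kernel
theorem r_23 : allB chkP 9 11776 = true := by decide +kernel
theorem r_24 : allB chkP 9 12288 = true := by decide +kernel
theorem r_25 : allB chkP 9 12800 = true := by decide +kernel
theorem r_26 : allB chkP 9 13312 = true := by decide +kernel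
theorem r_27 : allB chkP 9 13824 = true := by decide +kernel
theorem r_28 : allB chkP 9 14336 = true := by decide +kernel
theorem r_29 : allB chkP 9 14848 = true := by decide +kernel
theorem r_30 : allB chkP 9 15360 = true := by decide +kernel
theorem r_31 : allB chkP 9 15872 = true := by decide +kernel
theorem r_32 : allB chkP 9 16384 = true := by decide +kernel
theorem r_33 : allB chkP 9 16896 = true := by decide +kernel
theorem r_34 : allB chkP 9 17408 = true := by decide +kernel
theorem r_35 : allB chkP 9 17920 = true := by decide +kernel
theorem r_36 : allB chkP 9 18432 = true := by decide +kernel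
theorem r_37 : allB chkP 9 18944 = true := by decide +kernel
theorem r_38 : allB chkP 9 19456 = true := by decide +kernel
theorem r_39 : allB chkP 9 19968 = true := by decide +kernel
end H94.TCRuA
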