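import Cfsg.Agent.Lib.H94.TCRuA.Chk
set_option autoImplicit false
set_option maxRecDepth 100000
set_option linter.all false
namespace H94.TCRuA
open H35.TC
section
variable {G : Type} [Group G] {g : Lt → G} {H : Subgroup G}
/-- the points of the nodes -/
noncomputable def cP (g : Lt → G) (H : Subgroup G) : ℕ → G ⧸ H := cc (fa g) lt P ((1 : G) : G ⧸ H)
theorem dp_b_0_s (hinv : ∀ x, g (inv x) = (g x)⁻¹) (hr : ∀ r ∈ rels, (r.map g).prod = 1) (hH : ∀ r ∈ subs, (r.map g).prod ∈ H)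
    (j u : ℕ) (hu : u < M) (h : dp_b_0 j u = true) : Good (fa g) T MG M (cP g H) Lt.b u := by
  unfold dp_b_0 at h
  rcases brec_true h with h | h
  · exact lF_good (T := T) (x := Lt.b) (by decide) [Lt.b, Lt.b, Lt.gi, Lt.bi, Lt.g] (hole_rel hinv hr (by decide +kernel)) h
  · exact lF_good (T := T) (x := Lt.b) (by decide) [Lt.gi, Lt.bi, Lt.g, Lt.b, Lt.b] (hole_rel hinv hr (by decide +kernel)) h
theorem dp_b_1_s (hinv : ∀ x, g (inv x) = (g x)⁻¹) (hr : ∀ r ∈ rels, (r.map g).prod = 1) (hH : ∀ r ∈ subs, (r.map g).prod ∈ H)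
    (j u : ℕ) (hu : u < M) (h : dp_b_1 j u = true) : Good (fa g) T MG M (cP g H) Lt.b u := by
  unfold dp_b_1 at h
  rcases brec_true h with h | h
  · exact lS_good (T := T) (x := Lt.b) (by decide) hu [Lt.bi] (hole_rel hinv hr (by decide +kernel)) h
  · exact dp_b_0_s hinv hr hH j u hu h
theorem dp_b_2_s (hinv : ∀ x, g (inv x) = (g x)⁻¹) (hr : ∀ r ∈ rels, (r.map g).prod = 1) (hH : ∀ r ∈ subs, (r.map g).prod ∈ H)
    (j u : ℕ) (hu : u < M) (h : dp_b_2 j u = true) : Good (fa g) T MG M (cP g H) Lt.b u := by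
  unfold dp_b_2 at h
  rcases brec_true h with h | h
  · exact lS_good (T := T) (x := Lt.b) (by decide) hu [Lt.n, Lt.bi, Lt.ni] (hole_rel hinv hr (by decide +kernel)) h
  · exact lS_good (T := T) (x := Lt.b) (by decide) hu [Lt.gi, Lt.bi, Lt.g, Lt.b, Lt.b] (hole_rel hinv hr (by decide +kernel)) h
theorem dp_b_3_s (hinv : ∀ x, g (inv x) = (g x)⁻¹) (hr : ∀ r ∈ rels, (r.map g).prod = 1) (hH : ∀ r ∈ subs, (r.map g).prod ∈ H)
    (j u : ℕ) (hu : u < M) (h : dp_b_3 j u = true) : Good (fa g) T MG M (cP g H) Lt.b u := by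
  unfold dp_b_3 at h
  rcases brec_true h with h | h
  · exact lS_good (T := T) (x := Lt.b) (by decide) hu [Lt.ni, Lt.bi, Lt.n] (hole_rel hinv hr (by decide +kernel)) h
  · exact dp_b_2_s hinv hr hH j u hu h
theorem dp_b_4_s (hinv : ∀ x, g (inv x) = (g x)⁻¹) (hr : ∀ r ∈ rels, (r.map g).prod = 1) (hH : ∀ r ∈ subs, (r.map g).prod ∈ H)
    (j u : ℕ) (hu : u < M) (h : dp_b_4 j u = true) : Good (fa g) T MG M (cP g H) Lt.b u := by
  unfold dp_b_4 at h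
  rcases brec_true h with h | h
  · exact lS_good (T := T) (x := Lt.b) (by decide) hu [Lt.g, Lt.bi, Lt.bi, Lt.bi, Lt.gi] (hole_rel hinv hr (by decide +kernel)) h
  · exact dp_b_3_s hinv hr hH j u hu h
theorem dp_b_5_s (hinv : ∀ x, g (inv x) = (g x)⁻¹) (hr : ∀ r ∈ rels, (r.map g).prod = 1) (hH : ∀ r ∈ subs, (r.map g).prod ∈ H)
    (j u : ℕ) (hu : u < M) (h : dp_b_5 j u = true) : Good (fa g) T MG M (cP g H) Lt.b u := by
  unfold dp_b_5 at h
  rcases brec_true h with h | h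
  · exact lF_good (T := T) (x := Lt.b) (by decide) [Lt.b, Lt.gi, Lt.bi, Lt.g, Lt.b] (hole_rel hinv hr (by decide +kernel)) h
  · exact dp_b_4_s hinv hr hH j u hu h
theorem dp_b_6_s (hinv : ∀ x, g (inv x) = (g x)⁻¹) (hr : ∀ r ∈ rels, (r.map g).prod = 1) (hH : ∀ r ∈ subs, (r.map g).prod ∈ H)
    (j u : ℕ) (hu : u < M) (h : dp_b_6 j u = true) : Good (fa g) T MG M (cP g H) Lt.b u := by
  unfold dp_b_6 at h
  rcases brec_true h with h | h
  · exact lF_good (T := T) (x := Lt.b) (by decide) [Lt.f, Lt.g, Lt.fi, Lt.gi, Lt.fi, Lt.bi, Lt.fi, Lt.bi, Lt.bi, Lt.g, Lt.f] (hole_rel hinv hr (by decide +kernel)) h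
  · exact lS_good (T := T) (x := Lt.b) (by decide) hu [Lt.f, Lt.g, Lt.fi, Lt.gi, Lt.fi, Lt.bi, Lt.fi, Lt.bi, Lt.bi, Lt.g, Lt.f] (hole_rel hinv hr (by decide +kernel)) h
theorem dp_b_7_s (hinv : ∀ x, g (inv x) = (g x)⁻¹) (hr : ∀ r ∈ rels, (r.map g).prod = 1) (hH : ∀ r ∈ subs, (r.map g).prod ∈ H)
    (j u : ℕ) (hu : u < M) (h : dp_b_7 j u = true) : Good (fa g) T MG M (cP g H) Lt.b u := by
  unfold dp_b_7 at h
  rcases brec_true h with h | h
  · exact lF_good (T := T) (x := Lt.b) (by decide) [Lt.f, Lt.g, Lt.f, Lt.gi, Lt.fi, Lt.bi, Lt.fi, Lt.gi, Lt.b, Lt.b, Lt.f] (hole_rel hinv hr (by decide +kernel)) h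
  · exact lS_good (T := T) (x := Lt.b) (by decide) hu [Lt.b, Lt.b, Lt.gi, Lt.bi, Lt.g] (hole_rel hinv hr (by decide +kernel)) h
theorem dp_b_8_s (hinv : ∀ x, g (inv x) = (g x)⁻¹) (hr : ∀ r ∈ rels, (r.map g).prod = 1) (hH : ∀ r ∈ subs, (r.map g).prod ∈ H)
    (j u : ℕ) (hu : u < M) (h : dp_b_8 j u = true) : Good (fa g) T MG M (cP g H) Lt.b u := by
  unfold dp_b_8 at h
  rcases brec_true h with h | h
  · exact dp_b_6_s hinv hr hH j u hu h
  · exact dp_b_7_s hinv hr hH j u hu h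
theorem dp_b_9_s (hinv : ∀ x, g (inv x) = (g x)⁻¹) (hr : ∀ r ∈ rels, (r.map g).prod = 1) (hH : ∀ r ∈ subs, (r.map g).prod ∈ H)
    (j u : ℕ) (hu : u < M) (h : dp_b_9 j u = true) : Good (fa g) T MG M (cP g H) Lt.b u := by
  unfold dp_b_9 at h
  rcases brec_true h with h | h
  · exact lS_good (T := T) (x := Lt.b) (by decide) hu [Lt.f, Lt.g, Lt.f, Lt.gi, Lt.fi, Lt.bi, Lt.fi, Lt.gi, Lt.b, Lt.b, Lt.f] (hole_rel hinv hr (by decide +kernel)) h
  · exact lS_good (T := T) (x := Lt.b) (by decide) hu [Lt.gi, Lt.fi, Lt.gi, Lt.f, Lt.bi, Lt.fi, Lt.b, Lt.f, Lt.gi, Lt.bi, Lt.fi] (hole_rel hinv hr (by decide +kernel)) h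
theorem dp_b_10_s (hinv : ∀ x, g (inv x) = (g x)⁻¹) (hr : ∀ r ∈ rels, (r.map g).prod = 1) (hH : ∀ r ∈ subs, (r.map g).prod ∈ H)
    (j u : ℕ) (hu : u < M) (h : dp_b_10 j u = true) : Good (fa g) T MG M (cP g H) Lt.b u := by
  unfold dp_b_10 at h
  rcases brec_true h with h | h
  · exact lS_good (T := T) (x := Lt.b) (by decide) hu [Lt.f, Lt.gi, Lt.bi, Lt.fi, Lt.b, Lt.gi, Lt.fi, Lt.gi, Lt.f, Lt.bi, Lt.fi] (hole_rel hinv hr (by decide +kernel)) h
  · exact lS_good (T := T) (x := Lt.b) (by decide) hu [Lt.fi, Lt.g, Lt.f, Lt.g, Lt.bi, Lt.f, Lt.b, Lt.g, Lt.fi, Lt.bi, Lt.f] (hole_rel hinv hr (by decide +kernel)) h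
theorem dp_b_11_s (hinv : ∀ x, g (inv x) = (g x)⁻¹) (hr : ∀ r ∈ rels, (r.map g).prod = 1) (hH : ∀ r ∈ subs, (r.map g).prod ∈ H)
    (j u : ℕ) (hu : u < M) (h : dp_b_11 j u = true) : Good (fa g) T MG M (cP g H) Lt.b u := by
  unfold dp_b_11 at h
  rcases brec_true h with h | h
  · exact lF_good (T := T) (x := Lt.b) (by decide) [Lt.f, Lt.gi, Lt.bi, Lt.fi, Lt.b, Lt.gi, Lt.fi, Lt.gi, Lt.f, Lt.bi, Lt.fi] (hole_rel hinv hr (by decide +kernel)) h
  · exact dp_b_10_s hinv hr hH j u hu h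
theorem dp_b_12_s (hinv : ∀ x, g (inv x) = (g x)⁻¹) (hr : ∀ r ∈ rels, (r.map g).prod = 1) (hH : ∀ r ∈ subs, (r.map g).prod ∈ H)
    (j u : ℕ) (hu : u < M) (h : dp_b_12 j u = true) : Good (fa g) T MG M (cP g H) Lt.b u := by
  unfold dp_b_12 at h
  rcases brec_true h with h | h
  · exact dp_b_9_s hinv hr hH j u hu h
  · exact dp_b_11_s hinv hr hH j u hu h
theorem dp_b_13_s (hinv : ∀ x, g (inv x) = (g x)⁻¹) (hr : ∀ r ∈ rels, (r.map g).prod = 1) (hH : ∀ r ∈ subs, (r.map g).prod ∈ H)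
    (j u : ℕ) (hu : u < M) (h : dp_b_13 j u = true) : Good (fa g) T MG M (cP g H) Lt.b u := by
  unfold dp_b_13 at h
  rcases brec_true h with h | h
  · exact dp_b_8_s hinv hr hH j u hu h
  · exact dp_b_12_s hinv hr hH j u hu h
theorem dp_b_14_s (hinv : ∀ x, g (inv x) = (g x)⁻¹) (hr : ∀ r ∈ rels, (r.map g).prod = 1) (hH : ∀ r ∈ subs, (r.map g).prod ∈ H)
    (j u : ℕ) (hu : u < M) (h : dp_b_14 j u = true) : Good (fa g) T MG M (cP g H) Lt.b u := by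
  unfold dp_b_14 at h
  rcases brec_true h with h | h
  · exact lS_good (T := T) (x := Lt.b) (by decide) hu [Lt.f, Lt.bi, Lt.fi, Lt.bi, Lt.fi, Lt.bi, Lt.f, Lt.b, Lt.b, Lt.f, Lt.b] (hole_rel hinv hr (by decide +kernel)) h
  · exact lF_good (T := T) (x := Lt.b) (by decide) [Lt.fi, Lt.bi, Lt.bi, Lt.fi, Lt.bi, Lt.bi, Lt.fi, Lt.b, Lt.f, Lt.b, Lt.f] (hole_rel hinv hr (by decide +kernel)) h
theorem dp_b_15_s (hinv : ∀ x, g (inv x) = (g x)⁻¹) (hr : ∀ r ∈ rels, (r.map g).prod = 1) (hH : ∀ r ∈ subs, (r.map g).prod ∈ H)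
    (j u : ℕ) (hu : u < M) (h : dp_b_15 j u = true) : Good (fa g) T MG M (cP g H) Lt.b u := by
  unfold dp_b_15 at h
  rcases brec_true h with h | h
  · exact lS_good (T := T) (x := Lt.b) (by decide) hu [Lt.g, Lt.fi, Lt.bi, Lt.f, Lt.b, Lt.fi, Lt.g, Lt.f, Lt.g, Lt.bi, Lt.f] (hole_rel hinv hr (by decide +kernel)) h
  · exact lS_good (T := T) (x := Lt.b) (by decide) hu [Lt.fi, Lt.bi, Lt.bi, Lt.fi, Lt.bi, Lt.bi, Lt.fi, Lt.b, Lt.f, Lt.b, Lt.f] (hole_rel hinv hr (by decide +kernel)) h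
theorem dp_b_16_s (hinv : ∀ x, g (inv x) = (g x)⁻¹) (hr : ∀ r ∈ rels, (r.map g).prod = 1) (hH : ∀ r ∈ subs, (r.map g).prod ∈ H)
    (j u : ℕ) (hu : u < M) (h : dp_b_16 j u = true) : Good (fa g) T MG M (cP g H) Lt.b u := by
  unfold dp_b_16 at h
  rcases brec_true h with h | h
  · exact dp_b_14_s hinv hr hH j u hu h
  · exact dp_b_15_s hinv hr hH j u hu h
theorem dp_b_17_s (hinv : ∀ x, g (inv x) = (g x)⁻¹) (hr : ∀ r ∈ rels, (r.map g).prod = 1) (hH : ∀ r ∈ subs, (r.map g).prod ∈ H)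
    (j u : ℕ) (hu : u < M) (h : dp_b_17 j u = true) : Good (fa g) T MG M (cP g H) Lt.b u := by
  unfold dp_b_17 at h
  rcases brec_true h with h | h
  · exact lS_good (T := T) (x := Lt.b) (by decide) hu [Lt.b, Lt.f, Lt.bi, Lt.fi, Lt.bi, Lt.fi, Lt.bi, Lt.f, Lt.b, Lt.b, Lt.f] (hole_rel hinv hr (by decide +kernel)) h
  · exact lS_good (T := T) (x := Lt.b) (by decide) hu [Lt.b, Lt.gi, Lt.bi, Lt.g, Lt.b] (hole_rel hinv hr (by decide +kernel)) h
theorem dp_b_18_s (hinv : ∀ x, g (inv x) = (g x)⁻¹) (hr : ∀ r ∈ rels, (r.map g).prod = 1) (hH : ∀ r ∈ subs, (r.map g).prod ∈ H)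
    (j u : ℕ) (hu : u < M) (h : dp_b_18 j u = true) : Good (fa g) T MG M (cP g H) Lt.b u := by
  unfold dp_b_18 at h
  rcases brec_true h with h | h
  · exact lF_good (T := T) (x := Lt.b) (by decide) [Lt.fi, Lt.g, Lt.f, Lt.g, Lt.bi, Lt.f, Lt.b, Lt.g, Lt.fi, Lt.bi, Lt.f] (hole_rel hinv hr (by decide +kernel)) h
  · exact lS_good (T := T) (x := Lt.b) (by decide) hu [Lt.f, Lt.b, Lt.b, Lt.f, Lt.bi, Lt.fi, Lt.bi, Lt.fi, Lt.bi, Lt.f, Lt.b] (hole_rel hinv hr (by decide +kernel)) h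
theorem dp_b_19_s (hinv : ∀ x, g (inv x) = (g x)⁻¹) (hr : ∀ r ∈ rels, (r.map g).prod = 1) (hH : ∀ r ∈ subs, (r.map g).prod ∈ H)
    (j u : ℕ) (hu : u < M) (h : dp_b_19 j u = true) : Good (fa g) T MG M (cP g H) Lt.b u := by
  unfold dp_b_19 at h
  rcases brec_true h with h | h
  · exact dp_b_17_s hinv hr hH j u hu h
  · exact dp_b_18_s hinv hr hH j u hu h
theorem dp_b_20_s (hinv : ∀ x, g (inv x) = (g x)⁻¹) (hr : ∀ r ∈ rels, (r.map g).prod = 1) (hH : ∀ r ∈ subs, (r.map g).prod ∈ H)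
    (j u : ℕ) (hu : u < M) (h : dp_b_20 j u = true) : Good (fa g) T MG M (cP g H) Lt.b u := by
  unfold dp_b_20 at h
  rcases brec_true h with h | h
  · exact dp_b_16_s hinv hr hH j u hu h
  · exact dp_b_19_s hinv hr hH j u hu h
theorem dp_b_21_s (hinv : ∀ x, g (inv x) = (g x)⁻¹) (hr : ∀ r ∈ rels, (r.map g).prod = 1) (hH : ∀ r ∈ subs, (r.map g).prod ∈ H)
    (j u : ℕ) (hu : u < M) (h : dp_b_21 j u = true) : Good (fa g) T MG M (cP g H) Lt.b u := by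
  unfold dp_b_21 at h
  rcases brec_true h with h | h
  · exact lF_good (T := T) (x := Lt.b) (by decide) [Lt.gi, Lt.fi, Lt.gi, Lt.f, Lt.bi, Lt.fi, Lt.b, Lt.f, Lt.gi, Lt.bi, Lt.fi] (hole_rel hinv hr (by decide +kernel)) h
  · exact lF_good (T := T) (x := Lt.b) (by decide) [Lt.f, Lt.b, Lt.f, Lt.b, Lt.fi, Lt.bi, Lt.bi, Lt.fi, Lt.bi, Lt.bi, Lt.fi] (hole_rel hinv hr (by decide +kernel)) h
theorem dp_b_22_s (hinv : ∀ x, g (inv x) = (g x)⁻¹) (hr : ∀ r ∈ rels, (r.map g).prod = 1) (hH : ∀ r ∈ subs, (r.map g).prod ∈ H)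
    (j u : ℕ) (hu : u < M) (h : dp_b_22 j u = true) : Good (fa g) T MG M (cP g H) Lt.b u := by
  unfold dp_b_22 at h
  rcases brec_true h with h | h
  · exact lF_good (T := T) (x := Lt.b) (by decide) [Lt.g, Lt.fi, Lt.bi, Lt.f, Lt.b, Lt.fi, Lt.g, Lt.f, Lt.g, Lt.bi, Lt.f] (hole_rel hinv hr (by decide +kernel)) h
  · exact dp_b_21_s hinv hr hH j u hu h
theorem dp_b_23_s (hinv : ∀ x, g (inv x) = (g x)⁻¹) (hr : ∀ r ∈ rels, (r.map g).prod = 1) (hH : ∀ r ∈ subs, (r.map g).prod ∈ H)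
    (j u : ℕ) (hu : u < M) (h : dp_b_23 j u = true) : Good (fa g) T MG M (cP g H) Lt.b u := by
  unfold dp_b_23 at h
  rcases brec_true h with h | h
  · exact lF_good (T := T) (x := Lt.b) (by decide) [Lt.f, Lt.bi, Lt.fi, Lt.bi, Lt.fi, Lt.bi, Lt.f, Lt.b, Lt.b, Lt.f, Lt.b] (hole_rel hinv hr (by decide +kernel)) h
  · exact lS_good (T := T) (x := Lt.b) (by decide) hu [Lt.b, Lt.f, Lt.b, Lt.b, Lt.f, Lt.bi, Lt.fi, Lt.bi, Lt.fi, Lt.bi, Lt.f] (hole_rel hinv hr (by decide +kernel)) h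
theorem dp_b_24_s (hinv : ∀ x, g (inv x) = (g x)⁻¹) (hr : ∀ r ∈ rels, (r.map g).prod = 1) (hH : ∀ r ∈ subs, (r.map g).prod ∈ H)
    (j u : ℕ) (hu : u < M) (h : dp_b_24 j u = true) : Good (fa g) T MG M (cP g H) Lt.b u := by
  unfold dp_b_24 at h
  rcases brec_true h with h | h
  · exact lF_good (T := T) (x := Lt.b) (by decide) [Lt.b, Lt.f, Lt.bi, Lt.fi, Lt.bi, Lt.fi, Lt.bi, Lt.f, Lt.b, Lt.b, Lt.f] (hole_rel hinv hr (by decide +kernel)) h
  · exact dp_b_23_s hinv hr hH j u hu h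
theorem dp_b_25_s (hinv : ∀ x, g (inv x) = (g x)⁻¹) (hr : ∀ r ∈ rels, (r.map g).prod = 1) (hH : ∀ r ∈ subs, (r.map g).prod ∈ H)
    (j u : ℕ) (hu : u < M) (h : dp_b_25 j u = true) : Good (fa g) T MG M (cP g H) Lt.b u := by
  unfold dp_b_25 at h
  rcases brec_true h with h | h
  · exact dp_b_22_s hinv hr hH j u hu h
  · exact dp_b_24_s hinv hr hH j u hu h
theorem dp_b_26_s (hinv : ∀ x, g (inv x) = (g x)⁻¹) (hr : ∀ r ∈ rels, (r.map g).prod = 1) (hH : ∀ r ∈ subs, (r.map g).prod ∈ H)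
    (j u : ℕ) (hu : u < M) (h : dp_b_26 j u = true) : Good (fa g) T MG M (cP g H) Lt.b u := by
  unfold dp_b_26 at h
  rcases brec_true h with h | h
  · exact lF_good (T := T) (x := Lt.b) (by decide) [Lt.f, Lt.b, Lt.fi, Lt.bi, Lt.bi, Lt.fi, Lt.bi, Lt.bi, Lt.fi, Lt.b, Lt.f] (hole_rel hinv hr (by decide +kernel)) h
  · exact lS_good (T := T) (x := Lt.b) (by decide) hu [Lt.f, Lt.b, Lt.fi, Lt.bi, Lt.bi, Lt.fi, Lt.bi, Lt.bi, Lt.fi, Lt.b, Lt.f] (hole_rel hinv hr (by decide +kernel)) h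
theorem dp_b_27_s (hinv : ∀ x, g (inv x) = (g x)⁻¹) (hr : ∀ r ∈ rels, (r.map g).prod = 1) (hH : ∀ r ∈ subs, (r.map g).prod ∈ H)
    (j u : ℕ) (hu : u < M) (h : dp_b_27 j u = true) : Good (fa g) T MG M (cP g H) Lt.b u := by
  unfold dp_b_27 at h
  rcases brec_true h with h | h
  · exact lS_good (T := T) (x := Lt.b) (by decide) hu [Lt.f, Lt.b, Lt.f, Lt.b, Lt.fi, Lt.bi, Lt.bi, Lt.fi, Lt.bi, Lt.bi, Lt.fi] (hole_rel hinv hr (by decide +kernel)) h
  · exact lF_good (T := T) (x := Lt.b) (by decide) [Lt.b, Lt.f, Lt.b, Lt.b, Lt.f, Lt.bi, Lt.fi, Lt.bi, Lt.fi, Lt.bi, Lt.f] (hole_rel hinv hr (by decide +kernel)) h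
theorem dp_b_28_s (hinv : ∀ x, g (inv x) = (g x)⁻¹) (hr : ∀ r ∈ rels, (r.map g).prod = 1) (hH : ∀ r ∈ subs, (r.map g).prod ∈ H)
    (j u : ℕ) (hu : u < M) (h : dp_b_28 j u = true) : Good (fa g) T MG M (cP g H) Lt.b u := by
  unfold dp_b_28 at h
  rcases brec_true h with h | h
  · exact dp_b_26_s hinv hr hH j u hu h
  · exact dp_b_27_s hinv hr hH j u hu h
theorem dp_b_29_s (hinv : ∀ x, g (inv x) = (g x)⁻¹) (hr : ∀ r ∈ rels, (r.map g).prod = 1) (hH : ∀ r ∈ subs, (r.map g).prod ∈ H)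
    (j u : ℕ) (hu : u < M) (h : dp_b_29 j u = true) : Good (fa g) T MG M (cP g H) Lt.b u := by
  unfold dp_b_29 at h
  rcases brec_true h with h | h
  · exact lF_good (T := T) (x := Lt.b) (by decide) [Lt.f, Lt.b, Lt.b, Lt.f, Lt.bi, Lt.fi, Lt.bi, Lt.fi, Lt.bi, Lt.f, Lt.b] (hole_rel hinv hr (by decide +kernel)) h
  · exact lS_good (T := T) (x := Lt.b) (by decide) hu [Lt.b, Lt.f, Lt.b, Lt.f, Lt.g, Lt.f, Lt.gi, Lt.fi, Lt.bi, Lt.fi, Lt.gi] (hole_rel hinv hr (by decide +kernel)) h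
theorem dp_b_30_s (hinv : ∀ x, g (inv x) = (g x)⁻¹) (hr : ∀ r ∈ rels, (r.map g).prod = 1) (hH : ∀ r ∈ subs, (r.map g).prod ∈ H)
    (j u : ℕ) (hu : u < M) (h : dp_b_30 j u = true) : Good (fa g) T MG M (cP g H) Lt.b u := by
  unfold dp_b_30 at h
  rcases brec_true h with h | h
  · exact lS_good (T := T) (x := Lt.b) (by decide) hu [Lt.f, Lt.b, Lt.f, Lt.g, Lt.f, Lt.gi, Lt.fi, Lt.bi, Lt.fi, Lt.gi, Lt.b] (hole_rel hinv hr (by decide +kernel)) h
  · exact lH_good (T := T) (x := Lt.b) (by decide) [] [] (by rw [show cP g H 0 = _ from cc_zero]; exact sub_rel hinv (hH _ (by decide))) h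
theorem dp_b_31_s (hinv : ∀ x, g (inv x) = (g x)⁻¹) (hr : ∀ r ∈ rels, (r.map g).prod = 1) (hH : ∀ r ∈ subs, (r.map g).prod ∈ H)
    (j u : ℕ) (hu : u < M) (h : dp_b_31 j u = true) : Good (fa g) T MG M (cP g H) Lt.b u := by
  unfold dp_b_31 at h
  rcases brec_true h with h | h
  · exact lF_good (T := T) (x := Lt.b) (by decide) [Lt.b, Lt.f, Lt.b, Lt.f, Lt.g, Lt.f, Lt.gi, Lt.fi, Lt.bi, Lt.fi, Lt.gi] (hole_rel hinv hr (by decide +kernel)) h
  · exact dp_b_30_s hinv hr hH j u hu h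
theorem dp_b_32_s (hinv : ∀ x, g (inv x) = (g x)⁻¹) (hr : ∀ r ∈ rels, (r.map g).prod = 1) (hH : ∀ r ∈ subs, (r.map g).prod ∈ H)
    (j u : ℕ) (hu : u < M) (h : dp_b_32 j u = true) : Good (fa g) T MG M (cP g H) Lt.b u := by
  unfold dp_b_32 at h
  rcases brec_true h with h | h
  · exact lF_good (T := T) (x := Lt.b) (by decide) [Lt.f, Lt.b, Lt.f, Lt.g, Lt.f, Lt.gi, Lt.fi, Lt.bi, Lt.fi, Lt.gi, Lt.b] (hole_rel hinv hr (by decide +kernel)) h
  · exact dp_b_31_s hinv hr hH j u hu h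
theorem dp_b_33_s (hinv : ∀ x, g (inv x) = (g x)⁻¹) (hr : ∀ r ∈ rels, (r.map g).prod = 1) (hH : ∀ r ∈ subs, (r.map g).prod ∈ H)
    (j u : ℕ) (hu : u < M) (h : dp_b_33 j u = true) : Good (fa g) T MG M (cP g H) Lt.b u := by
  unfold dp_b_33 at h
  rcases brec_true h with h | h
  · exact dp_b_29_s hinv hr hH j u hu h
  · exact dp_b_32_s hinv hr hH j u hu h
theorem dp_b_34_s (hinv : ∀ x, g (inv x) = (g x)⁻¹) (hr : ∀ r ∈ rels, (r.map g).prod = 1) (hH : ∀ r ∈ subs, (r.map g).prod ∈ H)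
    (j u : ℕ) (hu : u < M) (h : dp_b_34 j u = true) : Good (fa g) T MG M (cP g H) Lt.b u := by
  unfold dp_b_34 at h
  rcases brec_true h with h | h
  · exact dp_b_28_s hinv hr hH j u hu h
  · exact dp_b_33_s hinv hr hH j u hu h
theorem dp_b_35_s (hinv : ∀ x, g (inv x) = (g x)⁻¹) (hr : ∀ r ∈ rels, (r.map g).prod = 1) (hH : ∀ r ∈ subs, (r.map g).prod ∈ H)
    (j u : ℕ) (hu : u < M) (h : dp_b_35 j u = true) : Good (fa g) T MG M (cP g H) Lt.b u := by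
  unfold dp_b_35 at h
  rcases brec_true h with h | h
  · exact dp_b_25_s hinv hr hH j u hu h
  · exact dp_b_34_s hinv hr hH j u hu h
theorem dp_b_36_s (hinv : ∀ x, g (inv x) = (g x)⁻¹) (hr : ∀ r ∈ rels, (r.map g).prod = 1) (hH : ∀ r ∈ subs, (r.map g).prod ∈ H)
    (j u : ℕ) (hu : u < M) (h : dp_b_36 j u = true) : Good (fa g) T MG M (cP g H) Lt.b u := by
  unfold dp_b_36 at h
  rcases brec_true h with h | h
  · exact dp_b_20_s hinv hr hH j u hu h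
  · exact dp_b_35_s hinv hr hH j u hu h
theorem dp_b_37_s (hinv : ∀ x, g (inv x) = (g x)⁻¹) (hr : ∀ r ∈ rels, (r.map g).prod = 1) (hH : ∀ r ∈ subs, (r.map g).prod ∈ H)
    (j u : ℕ) (hu : u < M) (h : dp_b_37 j u = true) : Good (fa g) T MG M (cP g H) Lt.b u := by
  unfold dp_b_37 at h
  rcases brec_true h with h | h
  · exact dp_b_13_s hinv hr hH j u hu h
  · exact dp_b_36_s hinv hr hH j u hu h
theorem dp_b_38_s (hinv : ∀ x, g (inv x) = (g x)⁻¹) (hr : ∀ r ∈ rels, (r.map g).prod = 1) (hH : ∀ r ∈ subs, (r.map g).prod ∈ H)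
    (j u : ℕ) (hu : u < M) (h : dp_b_38 j u = true) : Good (fa g) T MG M (cP g H) Lt.b u := by
  unfold dp_b_38 at h
  rcases brec_true h with h | h
  · exact dp_b_5_s hinv hr hH j u hu h
  · exact dp_b_37_s hinv hr hH j u hu h
theorem dp_b_39_s (hinv : ∀ x, g (inv x) = (g x)⁻¹) (hr : ∀ r ∈ rels, (r.map g).prod = 1) (hH : ∀ r ∈ subs, (r.map g).prod ∈ H)
    (j u : ℕ) (hu : u < M) (h : dp_b_39 j u = true) : Good (fa g) T MG M (cP g H) Lt.b u := by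
  unfold dp_b_39 at h
  rcases brec_true h with h | h
  · exact dp_b_1_s hinv hr hH j u hu h
  · exact dp_b_38_s hinv hr hH j u hu h
theorem dp_b_40_s (hinv : ∀ x, g (inv x) = (g x)⁻¹) (hr : ∀ r ∈ rels, (r.map g).prod = 1) (hH : ∀ r ∈ subs, (r.map g).prod ∈ H)
    (j u : ℕ) (hu : u < M) (h : dp_b_40 j u = true) : Good (fa g) T MG M (cP g H) Lt.b u := by
  unfold dp_b_40 at h
  rcases brec_true h with h | h
  · rcases brec_true h with h | h
    · exact lF3_good (T := T) (x := Lt.b) (by decide) .ni .bi .n (hole_rel hinv hr (by decide +kernel)) h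
    · exact lF_good (T := T) (x := Lt.b) (by decide) [Lt.g, Lt.bi, Lt.bi, Lt.bi, Lt.gi] (hole_rel hinv hr (by decide +kernel)) h
  · exact dp_b_39_s hinv hr hH j u hu h
theorem snd_b (hinv : ∀ x, g (inv x) = (g x)⁻¹) (hr : ∀ r ∈ rels, (r.map g).prod = 1) (hH : ∀ r ∈ subs, (r.map g).prod ∈ H)
    (j u : ℕ) (hu : u < M) (h : disp_b j u = true) : Good (fa g) T MG M (cP g H) Lt.b u := by
  unfold disp_b at h
  rcases brec_true h with h | h
  · rcases brec_true h with h | h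
    · exact lF1_good (T := T) (x := Lt.b) (by decide) .bi (hole_rel hinv hr (by decide +kernel)) h
    · exact lPar_good (T := T) (x := Lt.b) (x' := Lt.bi) (by decide) rfl (inv_rel hinv _ _ rfl) h
  · rcases brec_true h with h | h
    · rcases brec_true h with h | h
      · exact lDef_good (T := T) (x := Lt.b) (by decide) rfl h
      · exact lF3_good (T := T) (x := Lt.b) (by decide) .n .bi .ni (hole_rel hinv hr (by decide +kernel)) h
    · exact dp_b_40_s hinv hr hH j u hu h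
theorem snc_b (hinv : ∀ x, g (inv x) = (g x)⁻¹) (hr : ∀ r ∈ rels, (r.map g).prod = 1) (hH : ∀ r ∈ subs, (r.map g).prod ∈ H)
    (j u : ℕ) (hu : u < M) (h : chk_b j u = true) : (T Lt.b u < A ∧ Good (fa g) T MG M (cP g H) Lt.b u) ∨ (A ≤ T Lt.b u ∧ MG u < A) := by
  unfold chk_b at h
  cases hb : Nat.ble A (T_b u) with
  | true => rw [hb] at h; exact Or.inr ⟨le_of_ble hb, le_of_ble h⟩
  | false => rw [hb] at h; exact Or.inl ⟨lt_of_ble_false hb, snd_b hinv hr hH j u hu h⟩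
theorem dp_bi_0_s (hinv : ∀ x, g (inv x) = (g x)⁻¹) (hr : ∀ r ∈ rels, (r.map g).prod = 1) (hH : ∀ r ∈ subs, (r.map g).prod ∈ H)
    (j u : ℕ) (hu : u < M) (h : dp_bi_0 j u = true) : Good (fa g) T MG M (cP g H) Lt.bi u := by
  unfold dp_bi_0 at h
  rcases brec_true h with h | h
  · exact lF_good (T := T) (x := Lt.bi) (by decide) [Lt.bi, Lt.bi, Lt.gi, Lt.b, Lt.g] (hole_rel hinv hr (by decide +kernel)) h
  · exact lF_good (T := T) (x := Lt.bi) (by decide) [Lt.gi, Lt.b, Lt.g, Lt.bi, Lt.bi] (hole_rel hinv hr (by decide +kernel)) h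
theorem dp_bi_1_s (hinv : ∀ x, g (inv x) = (g x)⁻¹) (hr : ∀ r ∈ rels, (r.map g).prod = 1) (hH : ∀ r ∈ subs, (r.map g).prod ∈ H)
    (j u : ℕ) (hu : u < M) (h : dp_bi_1 j u = true) : Good (fa g) T MG M (cP g H) Lt.bi u := by
  unfold dp_bi_1 at h
  rcases brec_true h with h | h
  · exact lS_good (T := T) (x := Lt.bi) (by decide) hu [Lt.b] (hole_rel hinv hr (by decide +kernel)) h
  · exact dp_bi_0_s hinv hr hH j u hu h
theorem dp_bi_2_s (hinv : ∀ x, g (inv x) = (g x)⁻¹) (hr : ∀ r ∈ rels, (r.map g).prod = 1) (hH : ∀ r ∈ subs, (r.map g).prod ∈ H)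
    (j u : ℕ) (hu : u < M) (h : dp_bi_2 j u = true) : Good (fa g) T MG M (cP g H) Lt.bi u := by
  unfold dp_bi_2 at h
  rcases brec_true h with h | h
  · exact lS_good (T := T) (x := Lt.bi) (by decide) hu [Lt.g, Lt.b, Lt.b, Lt.b, Lt.gi] (hole_rel hinv hr (by decide +kernel)) h
  · exact lS_good (T := T) (x := Lt.bi) (by decide) hu [Lt.ni, Lt.b, Lt.n] (hole_rel hinv hr (by decide +kernel)) h
theorem dp_bi_3_s (hinv : ∀ x, g (inv x) = (g x)⁻¹) (hr : ∀ r ∈ rels, (r.map g).prod = 1) (hH : ∀ r ∈ subs, (r.map g).prod ∈ H)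
    (j u : ℕ) (hu : u < M) (h : dp_bi_3 j u = true) : Good (fa g) T MG M (cP g H) Lt.bi u := by
  unfold dp_bi_3 at h
  rcases brec_true h with h | h
  · exact lS_good (T := T) (x := Lt.bi) (by decide) hu [Lt.n, Lt.b, Lt.ni] (hole_rel hinv hr (by decide +kernel)) h
  · exact lF_good (T := T) (x := Lt.bi) (by decide) [Lt.f, Lt.b, Lt.g, Lt.fi, Lt.bi, Lt.f, Lt.b, Lt.fi, Lt.g, Lt.f, Lt.g] (hole_rel hinv hr (by decide +kernel)) h
theorem dp_bi_4_s (hinv : ∀ x, g (inv x) = (g x)⁻¹) (hr : ∀ r ∈ rels, (r.map g).prod = 1) (hH : ∀ r ∈ subs, (r.map g).prod ∈ H)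
    (j u : ℕ) (hu : u < M) (h : dp_bi_4 j u = true) : Good (fa g) T MG M (cP g H) Lt.bi u := by
  unfold dp_bi_4 at h
  rcases brec_true h with h | h
  · exact dp_bi_2_s hinv hr hH j u hu h
  · exact dp_bi_3_s hinv hr hH j u hu h
theorem dp_bi_5_s (hinv : ∀ x, g (inv x) = (g x)⁻¹) (hr : ∀ r ∈ rels, (r.map g).prod = 1) (hH : ∀ r ∈ subs, (r.map g).prod ∈ H)
    (j u : ℕ) (hu : u < M) (h : dp_bi_5 j u = true) : Good (fa g) T MG M (cP g H) Lt.bi u := by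
  unfold dp_bi_5 at h
  rcases brec_true h with h | h
  · exact lF_good (T := T) (x := Lt.bi) (by decide) [Lt.bi, Lt.gi, Lt.b, Lt.g, Lt.bi] (hole_rel hinv hr (by decide +kernel)) h
  · exact dp_bi_4_s hinv hr hH j u hu h
theorem dp_bi_6_s (hinv : ∀ x, g (inv x) = (g x)⁻¹) (hr : ∀ r ∈ rels, (r.map g).prod = 1) (hH : ∀ r ∈ subs, (r.map g).prod ∈ H)
    (j u : ℕ) (hu : u < M) (h : dp_bi_6 j u = true) : Good (fa g) T MG M (cP g H) Lt.bi u := by
  unfold dp_bi_6 at h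
  rcases brec_true h with h | h
  · exact lF_good (T := T) (x := Lt.bi) (by decide) [Lt.fi, Lt.gi, Lt.b, Lt.b, Lt.f, Lt.b, Lt.f, Lt.g, Lt.f, Lt.gi, Lt.fi] (hole_rel hinv hr (by decide +kernel)) h
  · exact lS_good (T := T) (x := Lt.bi) (by decide) hu [Lt.bi, Lt.bi, Lt.gi, Lt.b, Lt.g] (hole_rel hinv hr (by decide +kernel)) h
theorem dp_bi_7_s (hinv : ∀ x, g (inv x) = (g x)⁻¹) (hr : ∀ r ∈ rels, (r.map g).prod = 1) (hH : ∀ r ∈ subs, (r.map g).prod ∈ H)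
    (j u : ℕ) (hu : u < M) (h : dp_bi_7 j u = true) : Good (fa g) T MG M (cP g H) Lt.bi u := by
  unfold dp_bi_7 at h
  rcases brec_true h with h | h
  · exact lS_good (T := T) (x := Lt.bi) (by decide) hu [Lt.f, Lt.b, Lt.g, Lt.fi, Lt.bi, Lt.f, Lt.b, Lt.fi, Lt.g, Lt.f, Lt.g] (hole_rel hinv hr (by decide +kernel)) h
  · exact lS_good (T := T) (x := Lt.bi) (by decide) hu [Lt.fi, Lt.gi, Lt.b, Lt.b, Lt.f, Lt.b, Lt.f, Lt.g, Lt.f, Lt.gi, Lt.fi] (hole_rel hinv hr (by decide +kernel)) h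
theorem dp_bi_8_s (hinv : ∀ x, g (inv x) = (g x)⁻¹) (hr : ∀ r ∈ rels, (r.map g).prod = 1) (hH : ∀ r ∈ subs, (r.map g).prod ∈ H)
    (j u : ℕ) (hu : u < M) (h : dp_bi_8 j u = true) : Good (fa g) T MG M (cP g H) Lt.bi u := by
  unfold dp_bi_8 at h
  rcases brec_true h with h | h
  · exact dp_bi_6_s hinv hr hH j u hu h
  · exact dp_bi_7_s hinv hr hH j u hu h
theorem dp_bi_9_s (hinv : ∀ x, g (inv x) = (g x)⁻¹) (hr : ∀ r ∈ rels, (r.map g).prod = 1) (hH : ∀ r ∈ subs, (r.map g).prod ∈ H)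
    (j u : ℕ) (hu : u < M) (h : dp_bi_9 j u = true) : Good (fa g) T MG M (cP g H) Lt.bi u := by
  unfold dp_bi_9 at h
  rcases brec_true h with h | h
  · exact lS_good (T := T) (x := Lt.bi) (by decide) hu [Lt.gi, Lt.b, Lt.g, Lt.bi, Lt.bi] (hole_rel hinv hr (by decide +kernel)) h
  · exact lF_good (T := T) (x := Lt.bi) (by decide) [Lt.fi, Lt.bi, Lt.bi, Lt.g, Lt.f, Lt.b, Lt.f, Lt.g, Lt.fi, Lt.gi, Lt.fi] (hole_rel hinv hr (by decide +kernel)) h
theorem dp_bi_10_s (hinv : ∀ x, g (inv x) = (g x)⁻¹) (hr : ∀ r ∈ rels, (r.map g).prod = 1) (hH : ∀ r ∈ subs, (r.map g).prod ∈ H)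
    (j u : ℕ) (hu : u < M) (h : dp_bi_10 j u = true) : Good (fa g) T MG M (cP g H) Lt.bi u := by
  unfold dp_bi_10 at h
  rcases brec_true h with h | h
  · exact lS_good (T := T) (x := Lt.bi) (by decide) hu [Lt.fi, Lt.b, Lt.f, Lt.gi, Lt.bi, Lt.fi, Lt.b, Lt.gi, Lt.fi, Lt.gi, Lt.f] (hole_rel hinv hr (by decide +kernel)) h
  · exact lS_good (T := T) (x := Lt.bi) (by decide) hu [Lt.fi, Lt.bi, Lt.bi, Lt.g, Lt.f, Lt.b, Lt.f, Lt.g, Lt.fi, Lt.gi, Lt.fi] (hole_rel hinv hr (by decide +kernel)) h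
theorem dp_bi_11_s (hinv : ∀ x, g (inv x) = (g x)⁻¹) (hr : ∀ r ∈ rels, (r.map g).prod = 1) (hH : ∀ r ∈ subs, (r.map g).prod ∈ H)
    (j u : ℕ) (hu : u < M) (h : dp_bi_11 j u = true) : Good (fa g) T MG M (cP g H) Lt.bi u := by
  unfold dp_bi_11 at h
  rcases brec_true h with h | h
  · exact lS_good (T := T) (x := Lt.bi) (by decide) hu [Lt.bi, Lt.gi, Lt.b, Lt.g, Lt.bi] (hole_rel hinv hr (by decide +kernel)) h
  · exact dp_bi_10_s hinv hr hH j u hu h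
theorem dp_bi_12_s (hinv : ∀ x, g (inv x) = (g x)⁻¹) (hr : ∀ r ∈ rels, (r.map g).prod = 1) (hH : ∀ r ∈ subs, (r.map g).prod ∈ H)
    (j u : ℕ) (hu : u < M) (h : dp_bi_12 j u = true) : Good (fa g) T MG M (cP g H) Lt.bi u := by
  unfold dp_bi_12 at h
  rcases brec_true h with h | h
  · exact dp_bi_9_s hinv hr hH j u hu h
  · exact dp_bi_11_s hinv hr hH j u hu h
theorem dp_bi_13_s (hinv : ∀ x, g (inv x) = (g x)⁻¹) (hr : ∀ r ∈ rels, (r.map g).prod = 1) (hH : ∀ r ∈ subs, (r.map g).prod ∈ H)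
    (j u : ℕ) (hu : u < M) (h : dp_bi_13 j u = true) : Good (fa g) T MG M (cP g H) Lt.bi u := by
  unfold dp_bi_13 at h
  rcases brec_true h with h | h
  · exact dp_bi_8_s hinv hr hH j u hu h
  · exact dp_bi_12_s hinv hr hH j u hu h
theorem dp_bi_14_s (hinv : ∀ x, g (inv x) = (g x)⁻¹) (hr : ∀ r ∈ rels, (r.map g).prod = 1) (hH : ∀ r ∈ subs, (r.map g).prod ∈ H)
    (j u : ℕ) (hu : u < M) (h : dp_bi_14 j u = true) : Good (fa g) T MG M (cP g H) Lt.bi u := by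
  unfold dp_bi_14 at h
  rcases brec_true h with h | h
  · exact lF_good (T := T) (x := Lt.bi) (by decide) [Lt.fi, Lt.bi, Lt.fi, Lt.bi, Lt.f, Lt.b, Lt.b, Lt.f, Lt.b, Lt.b, Lt.f] (hole_rel hinv hr (by decide +kernel)) h
  · exact lS_good (T := T) (x := Lt.bi) (by decide) hu [Lt.fi, Lt.bi, Lt.f, Lt.b, Lt.b, Lt.f, Lt.b, Lt.b, Lt.f, Lt.bi, Lt.fi] (hole_rel hinv hr (by decide +kernel)) h
theorem dp_bi_15_s (hinv : ∀ x, g (inv x) = (g x)⁻¹) (hr : ∀ r ∈ rels, (r.map g).prod = 1) (hH : ∀ r ∈ subs, (r.map g).prod ∈ H)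
    (j u : ℕ) (hu : u < M) (h : dp_bi_15 j u = true) : Good (fa g) T MG M (cP g H) Lt.bi u := by
  unfold dp_bi_15 at h
  rcases brec_true h with h | h
  · exact lS_good (T := T) (x := Lt.bi) (by decide) hu [Lt.fi, Lt.bi, Lt.fi, Lt.bi, Lt.f, Lt.b, Lt.b, Lt.f, Lt.b, Lt.b, Lt.f] (hole_rel hinv hr (by decide +kernel)) h
  · exact lS_good (T := T) (x := Lt.bi) (by decide) hu [Lt.bi, Lt.fi, Lt.bi, Lt.bi, Lt.fi, Lt.b, Lt.f, Lt.b, Lt.f, Lt.b, Lt.fi] (hole_rel hinv hr (by decide +kernel)) h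
theorem dp_bi_16_s (hinv : ∀ x, g (inv x) = (g x)⁻¹) (hr : ∀ r ∈ rels, (r.map g).prod = 1) (hH : ∀ r ∈ subs, (r.map g).prod ∈ H)
    (j u : ℕ) (hu : u < M) (h : dp_bi_16 j u = true) : Good (fa g) T MG M (cP g H) Lt.bi u := by
  unfold dp_bi_16 at h
  rcases brec_true h with h | h
  · exact dp_bi_14_s hinv hr hH j u hu h
  · exact dp_bi_15_s hinv hr hH j u hu h
theorem dp_bi_17_s (hinv : ∀ x, g (inv x) = (g x)⁻¹) (hr : ∀ r ∈ rels, (r.map g).prod = 1) (hH : ∀ r ∈ subs, (r.map g).prod ∈ H)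
    (j u : ℕ) (hu : u < M) (h : dp_bi_17 j u = true) : Good (fa g) T MG M (cP g H) Lt.bi u := by
  unfold dp_bi_17 at h
  rcases brec_true h with h | h
  · exact lS_good (T := T) (x := Lt.bi) (by decide) hu [Lt.fi, Lt.b, Lt.gi, Lt.fi, Lt.gi, Lt.f, Lt.bi, Lt.fi, Lt.b, Lt.f, Lt.gi] (hole_rel hinv hr (by decide +kernel)) h
  · exact lS_good (T := T) (x := Lt.bi) (by decide) hu [Lt.fi, Lt.bi, Lt.bi, Lt.fi, Lt.b, Lt.f, Lt.b, Lt.f, Lt.b, Lt.fi, Lt.bi] (hole_rel hinv hr (by decide +kernel)) h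
theorem dp_bi_18_s (hinv : ∀ x, g (inv x) = (g x)⁻¹) (hr : ∀ r ∈ rels, (r.map g).prod = 1) (hH : ∀ r ∈ subs, (r.map g).prod ∈ H)
    (j u : ℕ) (hu : u < M) (h : dp_bi_18 j u = true) : Good (fa g) T MG M (cP g H) Lt.bi u := by
  unfold dp_bi_18 at h
  rcases brec_true h with h | h
  · exact lS_good (T := T) (x := Lt.bi) (by decide) hu [Lt.f, Lt.b, Lt.b, Lt.f, Lt.b, Lt.b, Lt.f, Lt.bi, Lt.fi, Lt.bi, Lt.fi] (hole_rel hinv hr (by decide +kernel)) h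
  · exact lF_good (T := T) (x := Lt.bi) (by decide) [Lt.bi, Lt.fi, Lt.bi, Lt.bi, Lt.fi, Lt.b, Lt.f, Lt.b, Lt.f, Lt.b, Lt.fi] (hole_rel hinv hr (by decide +kernel)) h
theorem dp_bi_19_s (hinv : ∀ x, g (inv x) = (g x)⁻¹) (hr : ∀ r ∈ rels, (r.map g).prod = 1) (hH : ∀ r ∈ subs, (r.map g).prod ∈ H)
    (j u : ℕ) (hu : u < M) (h : dp_bi_19 j u = true) : Good (fa g) T MG M (cP g H) Lt.bi u := by
  unfold dp_bi_19 at h
  rcases brec_true h with h | h
  · exact dp_bi_17_s hinv hr hH j u hu h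
  · exact dp_bi_18_s hinv hr hH j u hu h
theorem dp_bi_20_s (hinv : ∀ x, g (inv x) = (g x)⁻¹) (hr : ∀ r ∈ rels, (r.map g).prod = 1) (hH : ∀ r ∈ subs, (r.map g).prod ∈ H)
    (j u : ℕ) (hu : u < M) (h : dp_bi_20 j u = true) : Good (fa g) T MG M (cP g H) Lt.bi u := by
  unfold dp_bi_20 at h
  rcases brec_true h with h | h
  · exact dp_bi_16_s hinv hr hH j u hu h
  · exact dp_bi_19_s hinv hr hH j u hu h
theorem dp_bi_21_s (hinv : ∀ x, g (inv x) = (g x)⁻¹) (hr : ∀ r ∈ rels, (r.map g).prod = 1) (hH : ∀ r ∈ subs, (r.map g).prod ∈ H)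
    (j u : ℕ) (hu : u < M) (h : dp_bi_21 j u = true) : Good (fa g) T MG M (cP g H) Lt.bi u := by
  unfold dp_bi_21 at h
  rcases brec_true h with h | h
  · exact lF_good (T := T) (x := Lt.bi) (by decide) [Lt.bi, Lt.fi, Lt.b, Lt.f, Lt.b, Lt.f, Lt.b, Lt.fi, Lt.bi, Lt.bi, Lt.fi] (hole_rel hinv hr (by decide +kernel)) h
  · exact lF_good (T := T) (x := Lt.bi) (by decide) [Lt.f, Lt.b, Lt.b, Lt.f, Lt.b, Lt.b, Lt.f, Lt.bi, Lt.fi, Lt.bi, Lt.fi] (hole_rel hinv hr (by decide +kernel)) h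
theorem dp_bi_22_s (hinv : ∀ x, g (inv x) = (g x)⁻¹) (hr : ∀ r ∈ rels, (r.map g).prod = 1) (hH : ∀ r ∈ subs, (r.map g).prod ∈ H)
    (j u : ℕ) (hu : u < M) (h : dp_bi_22 j u = true) : Good (fa g) T MG M (cP g H) Lt.bi u := by
  unfold dp_bi_22 at h
  rcases brec_true h with h | h
  · exact lS_good (T := T) (x := Lt.bi) (by decide) hu [Lt.fi, Lt.b, Lt.f, Lt.b, Lt.f, Lt.b, Lt.fi, Lt.bi, Lt.bi, Lt.fi, Lt.bi] (hole_rel hinv hr (by decide +kernel)) h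
  · exact dp_bi_21_s hinv hr hH j u hu h
theorem dp_bi_23_s (hinv : ∀ x, g (inv x) = (g x)⁻¹) (hr : ∀ r ∈ rels, (r.map g).prod = 1) (hH : ∀ r ∈ subs, (r.map g).prod ∈ H)
    (j u : ℕ) (hu : u < M) (h : dp_bi_23 j u = true) : Good (fa g) T MG M (cP g H) Lt.bi u := by
  unfold dp_bi_23 at h
  rcases brec_true h with h | h
  · exact lF_good (T := T) (x := Lt.bi) (by decide) [Lt.fi, Lt.b, Lt.gi, Lt.fi, Lt.gi, Lt.f, Lt.bi, Lt.fi, Lt.b, Lt.f, Lt.gi] (hole_rel hinv hr (by decide +kernel)) h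
  · exact lF_good (T := T) (x := Lt.bi) (by decide) [Lt.f, Lt.b, Lt.fi, Lt.g, Lt.f, Lt.g, Lt.bi, Lt.f, Lt.b, Lt.g, Lt.fi] (hole_rel hinv hr (by decide +kernel)) h
theorem dp_bi_24_s (hinv : ∀ x, g (inv x) = (g x)⁻¹) (hr : ∀ r ∈ rels, (r.map g).prod = 1) (hH : ∀ r ∈ subs, (r.map g).prod ∈ H)
    (j u : ℕ) (hu : u < M) (h : dp_bi_24 j u = true) : Good (fa g) T MG M (cP g H) Lt.bi u := by
  unfold dp_bi_24 at h
  rcases brec_true h with h | h
  · exact lF_good (T := T) (x := Lt.bi) (by decide) [Lt.fi, Lt.b, Lt.f, Lt.gi, Lt.bi, Lt.fi, Lt.b, Lt.gi, Lt.fi, Lt.gi, Lt.f] (hole_rel hinv hr (by decide +kernel)) h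
  · exact dp_bi_23_s hinv hr hH j u hu h
theorem dp_bi_25_s (hinv : ∀ x, g (inv x) = (g x)⁻¹) (hr : ∀ r ∈ rels, (r.map g).prod = 1) (hH : ∀ r ∈ subs, (r.map g).prod ∈ H)
    (j u : ℕ) (hu : u < M) (h : dp_bi_25 j u = true) : Good (fa g) T MG M (cP g H) Lt.bi u := by
  unfold dp_bi_25 at h
  rcases brec_true h with h | h
  · exact dp_bi_22_s hinv hr hH j u hu h
  · exact dp_bi_24_s hinv hr hH j u hu h
theorem dp_bi_26_s (hinv : ∀ x, g (inv x) = (g x)⁻¹) (hr : ∀ r ∈ rels, (r.map g).prod = 1) (hH : ∀ r ∈ subs, (r.map g).prod ∈ H)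
    (j u : ℕ) (hu : u < M) (h : dp_bi_26 j u = true) : Good (fa g) T MG M (cP g H) Lt.bi u := by
  unfold dp_bi_26 at h
  rcases brec_true h with h | h
  · exact lS_good (T := T) (x := Lt.bi) (by decide) hu [Lt.f, Lt.b, Lt.fi, Lt.g, Lt.f, Lt.g, Lt.bi, Lt.f, Lt.b, Lt.g, Lt.fi] (hole_rel hinv hr (by decide +kernel)) h
  · exact lF_good (T := T) (x := Lt.bi) (by decide) [Lt.fi, Lt.bi, Lt.bi, Lt.fi, Lt.b, Lt.f, Lt.b, Lt.f, Lt.b, Lt.fi, Lt.bi] (hole_rel hinv hr (by decide +kernel)) h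
theorem dp_bi_27_s (hinv : ∀ x, g (inv x) = (g x)⁻¹) (hr : ∀ r ∈ rels, (r.map g).prod = 1) (hH : ∀ r ∈ subs, (r.map g).prod ∈ H)
    (j u : ℕ) (hu : u < M) (h : dp_bi_27 j u = true) : Good (fa g) T MG M (cP g H) Lt.bi u := by
  unfold dp_bi_27 at h
  rcases brec_true h with h | h
  · exact lF_good (T := T) (x := Lt.bi) (by decide) [Lt.fi, Lt.bi, Lt.f, Lt.b, Lt.b, Lt.f, Lt.b, Lt.b, Lt.f, Lt.bi, Lt.fi] (hole_rel hinv hr (by decide +kernel)) h
  · exact dp_bi_26_s hinv hr hH j u hu h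
theorem dp_bi_28_s (hinv : ∀ x, g (inv x) = (g x)⁻¹) (hr : ∀ r ∈ rels, (r.map g).prod = 1) (hH : ∀ r ∈ subs, (r.map g).prod ∈ H)
    (j u : ℕ) (hu : u < M) (h : dp_bi_28 j u = true) : Good (fa g) T MG M (cP g H) Lt.bi u := by
  unfold dp_bi_28 at h
  rcases brec_true h with h | h
  · exact lS_good (T := T) (x := Lt.bi) (by decide) hu [Lt.bi, Lt.fi, Lt.b, Lt.f, Lt.b, Lt.f, Lt.b, Lt.fi, Lt.bi, Lt.bi, Lt.fi] (hole_rel hinv hr (by decide +kernel)) h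
  · exact lS_good (T := T) (x := Lt.bi) (by decide) hu [Lt.bi, Lt.g, Lt.f, Lt.b, Lt.f, Lt.g, Lt.fi, Lt.gi, Lt.fi, Lt.bi, Lt.fi] (hole_rel hinv hr (by decide +kernel)) h
theorem dp_bi_29_s (hinv : ∀ x, g (inv x) = (g x)⁻¹) (hr : ∀ r ∈ rels, (r.map g).prod = 1) (hH : ∀ r ∈ subs, (r.map g).prod ∈ H)
    (j u : ℕ) (hu : u < M) (h : dp_bi_29 j u = true) : Good (fa g) T MG M (cP g H) Lt.bi u := by
  unfold dp_bi_29 at h
  rcases brec_true h with h | h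
  · exact lS_good (T := T) (x := Lt.bi) (by decide) hu [Lt.g, Lt.f, Lt.b, Lt.f, Lt.g, Lt.fi, Lt.gi, Lt.fi, Lt.bi, Lt.fi, Lt.bi] (hole_rel hinv hr (by decide +kernel)) h
  · exact dp_bi_28_s hinv hr hH j u hu h
theorem dp_bi_30_s (hinv : ∀ x, g (inv x) = (g x)⁻¹) (hr : ∀ r ∈ rels, (r.map g).prod = 1) (hH : ∀ r ∈ subs, (r.map g).prod ∈ H)
    (j u : ℕ) (hu : u < M) (h : dp_bi_30 j u = true) : Good (fa g) T MG M (cP g H) Lt.bi u := by
  unfold dp_bi_30 at h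
  rcases brec_true h with h | h
  · exact lF_good (T := T) (x := Lt.bi) (by decide) [Lt.fi, Lt.b, Lt.f, Lt.b, Lt.f, Lt.b, Lt.fi, Lt.bi, Lt.bi, Lt.fi, Lt.bi] (hole_rel hinv hr (by decide +kernel)) h
  · exact lF_good (T := T) (x := Lt.bi) (by decide) [Lt.bi, Lt.g, Lt.f, Lt.b, Lt.f, Lt.g, Lt.fi, Lt.gi, Lt.fi, Lt.bi, Lt.fi] (hole_rel hinv hr (by decide +kernel)) h
theorem dp_bi_31_s (hinv : ∀ x, g (inv x) = (g x)⁻¹) (hr : ∀ r ∈ rels, (r.map g).prod = 1) (hH : ∀ r ∈ subs, (r.map g).prod ∈ H)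
    (j u : ℕ) (hu : u < M) (h : dp_bi_31 j u = true) : Good (fa g) T MG M (cP g H) Lt.bi u := by
  unfold dp_bi_31 at h
  rcases brec_true h with h | h
  · exact lF_good (T := T) (x := Lt.bi) (by decide) [Lt.g, Lt.f, Lt.b, Lt.f, Lt.g, Lt.fi, Lt.gi, Lt.fi, Lt.bi, Lt.fi, Lt.bi] (hole_rel hinv hr (by decide +kernel)) h
  · exact dp_bi_30_s hinv hr hH j u hu h
theorem dp_bi_32_s (hinv : ∀ x, g (inv x) = (g x)⁻¹) (hr : ∀ r ∈ rels, (r.map g).prod = 1) (hH : ∀ r ∈ subs, (r.map g).prod ∈ H)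
    (j u : ℕ) (hu : u < M) (h : dp_bi_32 j u = true) : Good (fa g) T MG M (cP g H) Lt.bi u := by
  unfold dp_bi_32 at h
  rcases brec_true h with h | h
  · exact dp_bi_29_s hinv hr hH j u hu h
  · exact dp_bi_31_s hinv hr hH j u hu h
theorem dp_bi_33_s (hinv : ∀ x, g (inv x) = (g x)⁻¹) (hr : ∀ r ∈ rels, (r.map g).prod = 1) (hH : ∀ r ∈ subs, (r.map g).prod ∈ H)
    (j u : ℕ) (hu : u < M) (h : dp_bi_33 j u = true) : Good (fa g) T MG M (cP g H) Lt.bi u := by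
  unfold dp_bi_33 at h
  rcases brec_true h with h | h
  · exact dp_bi_27_s hinv hr hH j u hu h
  · exact dp_bi_32_s hinv hr hH j u hu h
theorem dp_bi_34_s (hinv : ∀ x, g (inv x) = (g x)⁻¹) (hr : ∀ r ∈ rels, (r.map g).prod = 1) (hH : ∀ r ∈ subs, (r.map g).prod ∈ H)
    (j u : ℕ) (hu : u < M) (h : dp_bi_34 j u = true) : Good (fa g) T MG M (cP g H) Lt.bi u := by
  unfold dp_bi_34 at h
  rcases brec_true h with h | h
  · exact dp_bi_25_s hinv hr hH j u hu h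
  · exact dp_bi_33_s hinv hr hH j u hu h
theorem dp_bi_35_s (hinv : ∀ x, g (inv x) = (g x)⁻¹) (hr : ∀ r ∈ rels, (r.map g).prod = 1) (hH : ∀ r ∈ subs, (r.map g).prod ∈ H)
    (j u : ℕ) (hu : u < M) (h : dp_bi_35 j u = true) : Good (fa g) T MG M (cP g H) Lt.bi u := by
  unfold dp_bi_35 at h
  rcases brec_true h with h | h
  · exact dp_bi_20_s hinv hr hH j u hu h
  · exact dp_bi_34_s hinv hr hH j u hu h
theorem dp_bi_36_s (hinv : ∀ x, g (inv x) = (g x)⁻¹) (hr : ∀ r ∈ rels, (r.map g).prod = 1) (hH : ∀ r ∈ subs, (r.map g).prod ∈ H)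
    (j u : ℕ) (hu : u < M) (h : dp_bi_36 j u = true) : Good (fa g) T MG M (cP g H) Lt.bi u := by
  unfold dp_bi_36 at h
  rcases brec_true h with h | h
  · exact dp_bi_13_s hinv hr hH j u hu h
  · exact dp_bi_35_s hinv hr hH j u hu h
theorem dp_bi_37_s (hinv : ∀ x, g (inv x) = (g x)⁻¹) (hr : ∀ r ∈ rels, (r.map g).prod = 1) (hH : ∀ r ∈ subs, (r.map g).prod ∈ H)
    (j u : ℕ) (hu : u < M) (h : dp_bi_37 j u = true) : Good (fa g) T MG M (cP g H) Lt.bi u := by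
  unfold dp_bi_37 at h
  rcases brec_true h with h | h
  · exact dp_bi_5_s hinv hr hH j u hu h
  · exact dp_bi_36_s hinv hr hH j u hu h
theorem dp_bi_38_s (hinv : ∀ x, g (inv x) = (g x)⁻¹) (hr : ∀ r ∈ rels, (r.map g).prod = 1) (hH : ∀ r ∈ subs, (r.map g).prod ∈ H)
    (j u : ℕ) (hu : u < M) (h : dp_bi_38 j u = true) : Good (fa g) T MG M (cP g H) Lt.bi u := by
  unfold dp_bi_38 at h
  rcases brec_true h with h | h
  · exact dp_bi_1_s hinv hr hH j u hu h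
  · exact dp_bi_37_s hinv hr hH j u hu h
theorem dp_bi_39_s (hinv : ∀ x, g (inv x) = (g x)⁻¹) (hr : ∀ r ∈ rels, (r.map g).prod = 1) (hH : ∀ r ∈ subs, (r.map g).prod ∈ H)
    (j u : ℕ) (hu : u < M) (h : dp_bi_39 j u = true) : Good (fa g) T MG M (cP g H) Lt.bi u := by
  unfold dp_bi_39 at h
  rcases brec_true h with h | h
  · rcases brec_true h with h | h
    · exact lF3_good (T := T) (x := Lt.bi) (by decide) .n .b .ni (hole_rel hinv hr (by decide +kernel)) h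
    · exact lF_good (T := T) (x := Lt.bi) (by decide) [Lt.g, Lt.b, Lt.b, Lt.b, Lt.gi] (hole_rel hinv hr (by decide +kernel)) h
  · exact dp_bi_38_s hinv hr hH j u hu h
theorem snd_bi (hinv : ∀ x, g (inv x) = (g x)⁻¹) (hr : ∀ r ∈ rels, (r.map g).prod = 1) (hH : ∀ r ∈ subs, (r.map g).prod ∈ H)
    (j u : ℕ) (hu : u < M) (h : disp_bi j u = true) : Good (fa g) T MG M (cP g H) Lt.bi u := by
  unfold disp_bi at h
  rcases brec_true h with h | h
  · rcases brec_true h with h | h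
    · exact lF1_good (T := T) (x := Lt.bi) (by decide) .b (hole_rel hinv hr (by decide +kernel)) h
    · exact lDef_good (T := T) (x := Lt.bi) (by decide) rfl h
  · rcases brec_true h with h | h
    · rcases brec_true h with h | h
      · exact lPar_good (T := T) (x := Lt.bi) (x' := Lt.b) (by decide) rfl (inv_rel hinv _ _ rfl) h
      · exact lF3_good (T := T) (x := Lt.bi) (by decide) .ni .b .n (hole_rel hinv hr (by decide +kernel)) h
    · exact dp_bi_39_s hinv hr hH j u hu h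
theorem snc_bi (hinv : ∀ x, g (inv x) = (g x)⁻¹) (hr : ∀ r ∈ rels, (r.map g).prod = 1) (hH : ∀ r ∈ subs, (r.map g).prod ∈ H)
    (j u : ℕ) (hu : u < M) (h : chk_bi j u = true) : (T Lt.bi u < A ∧ Good (fa g) T MG M (cP g H) Lt.bi u) ∨ (A ≤ T Lt.bi u ∧ MG u < A) := by
  unfold chk_bi at h
  cases hb : Nat.ble A (T_bi u) with
  | true => rw [hb] at h; exact Or.inr ⟨le_of_ble hb, le_of_ble h⟩
  | false => rw [hb] at h; exact Or.inl ⟨lt_of_ble_false hb, snd_bi hinv hr hH j u hu h⟩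
theorem dp_g_0_s (hinv : ∀ x, g (inv x) = (g x)⁻¹) (hr : ∀ r ∈ rels, (r.map g).prod = 1) (hH : ∀ r ∈ subs, (r.map g).prod ∈ H)
    (j u : ℕ) (hu : u < M) (h : dp_g_0 j u = true) : Good (fa g) T MG M (cP g H) Lt.g u := by
  unfold dp_g_0 at h
  rcases brec_true h with h | h
  · exact lF_good (T := T) (x := Lt.g) (by decide) [Lt.bi, Lt.bi, Lt.bi, Lt.gi, Lt.b] (hole_rel hinv hr (by decide +kernel)) h
  · exact lS_good (T := T) (x := Lt.g) (by decide) hu [Lt.gi] (hole_rel hinv hr (by decide +kernel)) h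
theorem dp_g_1_s (hinv : ∀ x, g (inv x) = (g x)⁻¹) (hr : ∀ r ∈ rels, (r.map g).prod = 1) (hH : ∀ r ∈ subs, (r.map g).prod ∈ H)
    (j u : ℕ) (hu : u < M) (h : dp_g_1 j u = true) : Good (fa g) T MG M (cP g H) Lt.g u := by
  unfold dp_g_1 at h
  rcases brec_true h with h | h
  · exact lF_good (T := T) (x := Lt.g) (by decide) [Lt.n, Lt.g, Lt.n, Lt.g, Lt.n] (hole_rel hinv hr (by decide +kernel)) h
  · exact lS_good (T := T) (x := Lt.g) (by decide) hu [Lt.b, Lt.b, Lt.b, Lt.gi, Lt.bi] (hole_rel hinv hr (by decide +kernel)) h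
theorem dp_g_2_s (hinv : ∀ x, g (inv x) = (g x)⁻¹) (hr : ∀ r ∈ rels, (r.map g).prod = 1) (hH : ∀ r ∈ subs, (r.map g).prod ∈ H)
    (j u : ℕ) (hu : u < M) (h : dp_g_2 j u = true) : Good (fa g) T MG M (cP g H) Lt.g u := by
  unfold dp_g_2 at h
  rcases brec_true h with h | h
  · exact lS_good (T := T) (x := Lt.g) (by decide) hu [Lt.n, Lt.g, Lt.n, Lt.g, Lt.n] (hole_rel hinv hr (by decide +kernel)) h
  · exact lS_good (T := T) (x := Lt.g) (by decide) hu [Lt.bi, Lt.bi, Lt.bi, Lt.gi, Lt.b] (hole_rel hinv hr (by decide +kernel)) h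
theorem dp_g_3_s (hinv : ∀ x, g (inv x) = (g x)⁻¹) (hr : ∀ r ∈ rels, (r.map g).prod = 1) (hH : ∀ r ∈ subs, (r.map g).prod ∈ H)
    (j u : ℕ) (hu : u < M) (h : dp_g_3 j u = true) : Good (fa g) T MG M (cP g H) Lt.g u := by
  unfold dp_g_3 at h
  rcases brec_true h with h | h
  · exact lF_good (T := T) (x := Lt.g) (by decide) [Lt.bi, Lt.f, Lt.b, Lt.g, Lt.fi, Lt.bi, Lt.f, Lt.b, Lt.fi, Lt.g, Lt.f] (hole_rel hinv hr (by decide +kernel)) h
  · exact lF3_good (T := T) (x := Lt.g) (by decide) .z .gi .zi (hole_rel hinv hr (by decide +kernel)) h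
theorem dp_g_4_s (hinv : ∀ x, g (inv x) = (g x)⁻¹) (hr : ∀ r ∈ rels, (r.map g).prod = 1) (hH : ∀ r ∈ subs, (r.map g).prod ∈ H)
    (j u : ℕ) (hu : u < M) (h : dp_g_4 j u = true) : Good (fa g) T MG M (cP g H) Lt.g u := by
  unfold dp_g_4 at h
  rcases brec_true h with h | h
  · exact lF_good (T := T) (x := Lt.g) (by decide) [Lt.fi, Lt.gi, Lt.fi, Lt.bi, Lt.fi, Lt.bi, Lt.bi, Lt.g, Lt.f, Lt.b, Lt.f] (hole_rel hinv hr (by decide +kernel)) h
  · exact dp_g_3_s hinv hr hH j u hu h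
theorem dp_g_5_s (hinv : ∀ x, g (inv x) = (g x)⁻¹) (hr : ∀ r ∈ rels, (r.map g).prod = 1) (hH : ∀ r ∈ subs, (r.map g).prod ∈ H)
    (j u : ℕ) (hu : u < M) (h : dp_g_5 j u = true) : Good (fa g) T MG M (cP g H) Lt.g u := by
  unfold dp_g_5 at h
  rcases brec_true h with h | h
  · exact dp_g_2_s hinv hr hH j u hu h
  · exact dp_g_4_s hinv hr hH j u hu h
theorem dp_g_6_s (hinv : ∀ x, g (inv x) = (g x)⁻¹) (hr : ∀ r ∈ rels, (r.map g).prod = 1) (hH : ∀ r ∈ subs, (r.map g).prod ∈ H)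
    (j u : ℕ) (hu : u < M) (h : dp_g_6 j u = true) : Good (fa g) T MG M (cP g H) Lt.g u := by
  unfold dp_g_6 at h
  rcases brec_true h with h | h
  · exact lS_good (T := T) (x := Lt.g) (by decide) hu [Lt.bi, Lt.f, Lt.b, Lt.g, Lt.fi, Lt.bi, Lt.f, Lt.b, Lt.fi, Lt.g, Lt.f] (hole_rel hinv hr (by decide +kernel)) h
  · exact lS_good (T := T) (x := Lt.g) (by decide) hu [Lt.fi, Lt.bi, Lt.f, Lt.b, Lt.fi, Lt.g, Lt.f, Lt.g, Lt.bi, Lt.f, Lt.b] (hole_rel hinv hr (by decide +kernel)) h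
theorem dp_g_7_s (hinv : ∀ x, g (inv x) = (g x)⁻¹) (hr : ∀ r ∈ rels, (r.map g).prod = 1) (hH : ∀ r ∈ subs, (r.map g).prod ∈ H)
    (j u : ℕ) (hu : u < M) (h : dp_g_7 j u = true) : Good (fa g) T MG M (cP g H) Lt.g u := by
  unfold dp_g_7 at h
  rcases brec_true h with h | h
  · exact lS_good (T := T) (x := Lt.g) (by decide) hu [Lt.fi, Lt.gi, Lt.fi, Lt.bi, Lt.fi, Lt.bi, Lt.bi, Lt.g, Lt.f, Lt.b, Lt.f] (hole_rel hinv hr (by decide +kernel)) h
  · exact lF_good (T := T) (x := Lt.g) (by decide) [Lt.f, Lt.gi, Lt.fi, Lt.bi, Lt.fi, Lt.gi, Lt.b, Lt.b, Lt.f, Lt.b, Lt.f] (hole_rel hinv hr (by decide +kernel)) h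
theorem dp_g_8_s (hinv : ∀ x, g (inv x) = (g x)⁻¹) (hr : ∀ r ∈ rels, (r.map g).prod = 1) (hH : ∀ r ∈ subs, (r.map g).prod ∈ H)
    (j u : ℕ) (hu : u < M) (h : dp_g_8 j u = true) : Good (fa g) T MG M (cP g H) Lt.g u := by
  unfold dp_g_8 at h
  rcases brec_true h with h | h
  · exact dp_g_6_s hinv hr hH j u hu h
  · exact dp_g_7_s hinv hr hH j u hu h
theorem dp_g_9_s (hinv : ∀ x, g (inv x) = (g x)⁻¹) (hr : ∀ r ∈ rels, (r.map g).prod = 1) (hH : ∀ r ∈ subs, (r.map g).prod ∈ H)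
    (j u : ℕ) (hu : u < M) (h : dp_g_9 j u = true) : Good (fa g) T MG M (cP g H) Lt.g u := by
  unfold dp_g_9 at h
  rcases brec_true h with h | h
  · exact lS_good (T := T) (x := Lt.g) (by decide) hu [Lt.f, Lt.g, Lt.bi, Lt.f, Lt.b, Lt.g, Lt.fi, Lt.bi, Lt.f, Lt.b, Lt.fi] (hole_rel hinv hr (by decide +kernel)) h
  · exact lS_good (T := T) (x := Lt.g) (by decide) hu [Lt.zi, Lt.gi, Lt.z] (hole_rel hinv hr (by decide +kernel)) h
theorem dp_g_10_s (hinv : ∀ x, g (inv x) = (g x)⁻¹) (hr : ∀ r ∈ rels, (r.map g).prod = 1) (hH : ∀ r ∈ subs, (r.map g).prod ∈ H)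
    (j u : ℕ) (hu : u < M) (h : dp_g_10 j u = true) : Good (fa g) T MG M (cP g H) Lt.g u := by
  unfold dp_g_10 at h
  rcases brec_true h with h | h
  · exact lF_good (T := T) (x := Lt.g) (by decide) [Lt.f, Lt.g, Lt.bi, Lt.f, Lt.b, Lt.g, Lt.fi, Lt.bi, Lt.f, Lt.b, Lt.fi] (hole_rel hinv hr (by decide +kernel)) h
  · exact dp_g_9_s hinv hr hH j u hu h
theorem dp_g_11_s (hinv : ∀ x, g (inv x) = (g x)⁻¹) (hr : ∀ r ∈ rels, (r.map g).prod = 1) (hH : ∀ r ∈ subs, (r.map g).prod ∈ H)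
    (j u : ℕ) (hu : u < M) (h : dp_g_11 j u = true) : Good (fa g) T MG M (cP g H) Lt.g u := by
  unfold dp_g_11 at h
  rcases brec_true h with h | h
  · exact lS_good (T := T) (x := Lt.g) (by decide) hu [Lt.f, Lt.gi, Lt.fi, Lt.bi, Lt.fi, Lt.gi, Lt.b, Lt.b, Lt.f, Lt.b, Lt.f] (hole_rel hinv hr (by decide +kernel)) h
  · exact lF_good (T := T) (x := Lt.g) (by decide) [Lt.f, Lt.b, Lt.f, Lt.g, Lt.fi, Lt.gi, Lt.fi, Lt.bi, Lt.fi, Lt.bi, Lt.bi] (hole_rel hinv hr (by decide +kernel)) h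
theorem dp_g_12_s (hinv : ∀ x, g (inv x) = (g x)⁻¹) (hr : ∀ r ∈ rels, (r.map g).prod = 1) (hH : ∀ r ∈ subs, (r.map g).prod ∈ H)
    (j u : ℕ) (hu : u < M) (h : dp_g_12 j u = true) : Good (fa g) T MG M (cP g H) Lt.g u := by
  unfold dp_g_12 at h
  rcases brec_true h with h | h
  · exact lS_good (T := T) (x := Lt.g) (by decide) hu [Lt.z, Lt.gi, Lt.zi] (hole_rel hinv hr (by decide +kernel)) h
  · exact lH_good (T := T) (x := Lt.g) (by decide) [] [] (by rw [show cP g H 0 = _ from cc_zero]; exact sub_rel hinv (hH _ (by decide))) h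
theorem dp_g_13_s (hinv : ∀ x, g (inv x) = (g x)⁻¹) (hr : ∀ r ∈ rels, (r.map g).prod = 1) (hH : ∀ r ∈ subs, (r.map g).prod ∈ H)
    (j u : ℕ) (hu : u < M) (h : dp_g_13 j u = true) : Good (fa g) T MG M (cP g H) Lt.g u := by
  unfold dp_g_13 at h
  rcases brec_true h with h | h
  · exact lF_good (T := T) (x := Lt.g) (by decide) [Lt.fi, Lt.bi, Lt.f, Lt.b, Lt.fi, Lt.g, Lt.f, Lt.g, Lt.bi, Lt.f, Lt.b] (hole_rel hinv hr (by decide +kernel)) h
  · exact dp_g_12_s hinv hr hH j u hu h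
theorem dp_g_14_s (hinv : ∀ x, g (inv x) = (g x)⁻¹) (hr : ∀ r ∈ rels, (r.map g).prod = 1) (hH : ∀ r ∈ subs, (r.map g).prod ∈ H)
    (j u : ℕ) (hu : u < M) (h : dp_g_14 j u = true) : Good (fa g) T MG M (cP g H) Lt.g u := by
  unfold dp_g_14 at h
  rcases brec_true h with h | h
  · exact lS_good (T := T) (x := Lt.g) (by decide) hu [Lt.f, Lt.b, Lt.f, Lt.g, Lt.fi, Lt.gi, Lt.fi, Lt.bi, Lt.fi, Lt.bi, Lt.bi] (hole_rel hinv hr (by decide +kernel)) h
  · exact dp_g_13_s hinv hr hH j u hu h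
theorem dp_g_15_s (hinv : ∀ x, g (inv x) = (g x)⁻¹) (hr : ∀ r ∈ rels, (r.map g).prod = 1) (hH : ∀ r ∈ subs, (r.map g).prod ∈ H)
    (j u : ℕ) (hu : u < M) (h : dp_g_15 j u = true) : Good (fa g) T MG M (cP g H) Lt.g u := by
  unfold dp_g_15 at h
  rcases brec_true h with h | h
  · exact dp_g_11_s hinv hr hH j u hu h
  · exact dp_g_14_s hinv hr hH j u hu h
theorem dp_g_16_s (hinv : ∀ x, g (inv x) = (g x)⁻¹) (hr : ∀ r ∈ rels, (r.map g).prod = 1) (hH : ∀ r ∈ subs, (r.map g).prod ∈ H)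
    (j u : ℕ) (hu : u < M) (h : dp_g_16 j u = true) : Good (fa g) T MG M (cP g H) Lt.g u := by
  unfold dp_g_16 at h
  rcases brec_true h with h | h
  · exact dp_g_10_s hinv hr hH j u hu h
  · exact dp_g_15_s hinv hr hH j u hu h
theorem dp_g_17_s (hinv : ∀ x, g (inv x) = (g x)⁻¹) (hr : ∀ r ∈ rels, (r.map g).prod = 1) (hH : ∀ r ∈ subs, (r.map g).prod ∈ H)
    (j u : ℕ) (hu : u < M) (h : dp_g_17 j u = true) : Good (fa g) T MG M (cP g H) Lt.g u := by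
  unfold dp_g_17 at h
  rcases brec_true h with h | h
  · exact dp_g_8_s hinv hr hH j u hu h
  · exact dp_g_16_s hinv hr hH j u hu h
theorem dp_g_18_s (hinv : ∀ x, g (inv x) = (g x)⁻¹) (hr : ∀ r ∈ rels, (r.map g).prod = 1) (hH : ∀ r ∈ subs, (r.map g).prod ∈ H)
    (j u : ℕ) (hu : u < M) (h : dp_g_18 j u = true) : Good (fa g) T MG M (cP g H) Lt.g u := by
  unfold dp_g_18 at h
  rcases brec_true h with h | h
  · exact dp_g_5_s hinv hr hH j u hu h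
  · exact dp_g_17_s hinv hr hH j u hu h
theorem dp_g_19_s (hinv : ∀ x, g (inv x) = (g x)⁻¹) (hr : ∀ r ∈ rels, (r.map g).prod = 1) (hH : ∀ r ∈ subs, (r.map g).prod ∈ H)
    (j u : ℕ) (hu : u < M) (h : dp_g_19 j u = true) : Good (fa g) T MG M (cP g H) Lt.g u := by
  unfold dp_g_19 at h
  rcases brec_true h with h | h
  · exact dp_g_1_s hinv hr hH j u hu h
  · exact dp_g_18_s hinv hr hH j u hu h
theorem dp_g_20_s (hinv : ∀ x, g (inv x) = (g x)⁻¹) (hr : ∀ r ∈ rels, (r.map g).prod = 1) (hH : ∀ r ∈ subs, (r.map g).prod ∈ H)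
    (j u : ℕ) (hu : u < M) (h : dp_g_20 j u = true) : Good (fa g) T MG M (cP g H) Lt.g u := by
  unfold dp_g_20 at h
  rcases brec_true h with h | h
  · exact dp_g_0_s hinv hr hH j u hu h
  · exact dp_g_19_s hinv hr hH j u hu h
theorem dp_g_21_s (hinv : ∀ x, g (inv x) = (g x)⁻¹) (hr : ∀ r ∈ rels, (r.map g).prod = 1) (hH : ∀ r ∈ subs, (r.map g).prod ∈ H)
    (j u : ℕ) (hu : u < M) (h : dp_g_21 j u = true) : Good (fa g) T MG M (cP g H) Lt.g u := by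
  unfold dp_g_21 at h
  rcases brec_true h with h | h
  · rcases brec_true h with h | h
    · exact lF3_good (T := T) (x := Lt.g) (by decide) .zi .gi .z (hole_rel hinv hr (by decide +kernel)) h
    · exact lF_good (T := T) (x := Lt.g) (by decide) [Lt.b, Lt.b, Lt.b, Lt.gi, Lt.bi] (hole_rel hinv hr (by decide +kernel)) h
  · exact dp_g_20_s hinv hr hH j u hu h
theorem snd_g (hinv : ∀ x, g (inv x) = (g x)⁻¹) (hr : ∀ r ∈ rels, (r.map g).prod = 1) (hH : ∀ r ∈ subs, (r.map g).prod ∈ H)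
    (j u : ℕ) (hu : u < M) (h : disp_g j u = true) : Good (fa g) T MG M (cP g H) Lt.g u := by
  unfold disp_g at h
  rcases brec_true h with h | h
  · rcases brec_true h with h | h
    · exact lF1_good (T := T) (x := Lt.g) (by decide) .gi (hole_rel hinv hr (by decide +kernel)) h
    · exact lPar_good (T := T) (x := Lt.g) (x' := Lt.gi) (by decide) rfl (inv_rel hinv _ _ rfl) h
  · rcases brec_true h with h | h
    · exact lDef_good (T := T) (x := Lt.g) (by decide) rfl h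
    · exact dp_g_21_s hinv hr hH j u hu h
theorem snc_g (hinv : ∀ x, g (inv x) = (g x)⁻¹) (hr : ∀ r ∈ rels, (r.map g).prod = 1) (hH : ∀ r ∈ subs, (r.map g).prod ∈ H)
    (j u : ℕ) (hu : u < M) (h : chk_g j u = true) : (T Lt.g u < A ∧ Good (fa g) T MG M (cP g H) Lt.g u) ∨ (A ≤ T Lt.g u ∧ MG u < A) := by
  unfold chk_g at h
  cases hb : Nat.ble A (T_g u) with
  | true => rw [hb] at h; exact Or.inr ⟨le_of_ble hb, le_of_ble h⟩
  | false => rw [hb] at h; exact Or.inl ⟨lt_of_ble_false hb, snd_g hinv hr hH j u hu h⟩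
theorem dp_gi_0_s (hinv : ∀ x, g (inv x) = (g x)⁻¹) (hr : ∀ r ∈ rels, (r.map g).prod = 1) (hH : ∀ r ∈ subs, (r.map g).prod ∈ H)
    (j u : ℕ) (hu : u < M) (h : dp_gi_0 j u = true) : Good (fa g) T MG M (cP g H) Lt.gi u := by
  unfold dp_gi_0 at h
  rcases brec_true h with h | h
  · exact lF_good (T := T) (x := Lt.gi) (by decide) [Lt.bi, Lt.g, Lt.b, Lt.b, Lt.b] (hole_rel hinv hr (by decide +kernel)) h
  · exact lF_good (T := T) (x := Lt.gi) (by decide) [Lt.ni, Lt.gi, Lt.ni, Lt.gi, Lt.ni] (hole_rel hinv hr (by decide +kernel)) h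
theorem dp_gi_1_s (hinv : ∀ x, g (inv x) = (g x)⁻¹) (hr : ∀ r ∈ rels, (r.map g).prod = 1) (hH : ∀ r ∈ subs, (r.map g).prod ∈ H)
    (j u : ℕ) (hu : u < M) (h : dp_gi_1 j u = true) : Good (fa g) T MG M (cP g H) Lt.gi u := by
  unfold dp_gi_1 at h
  rcases brec_true h with h | h
  · exact lS_good (T := T) (x := Lt.gi) (by decide) hu [Lt.g] (hole_rel hinv hr (by decide +kernel)) h
  · exact lS_good (T := T) (x := Lt.gi) (by decide) hu [Lt.bi, Lt.g, Lt.b, Lt.b, Lt.b] (hole_rel hinv hr (by decide +kernel)) h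
theorem dp_gi_2_s (hinv : ∀ x, g (inv x) = (g x)⁻¹) (hr : ∀ r ∈ rels, (r.map g).prod = 1) (hH : ∀ r ∈ subs, (r.map g).prod ∈ H)
    (j u : ℕ) (hu : u < M) (h : dp_gi_2 j u = true) : Good (fa g) T MG M (cP g H) Lt.gi u := by
  unfold dp_gi_2 at h
  rcases brec_true h with h | h
  · exact lS_good (T := T) (x := Lt.gi) (by decide) hu [Lt.b, Lt.g, Lt.bi, Lt.bi, Lt.bi] (hole_rel hinv hr (by decide +kernel)) h
  · exact lS_good (T := T) (x := Lt.gi) (by decide) hu [Lt.ni, Lt.gi, Lt.ni, Lt.gi, Lt.ni] (hole_rel hinv hr (by decide +kernel)) h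
theorem dp_gi_3_s (hinv : ∀ x, g (inv x) = (g x)⁻¹) (hr : ∀ r ∈ rels, (r.map g).prod = 1) (hH : ∀ r ∈ subs, (r.map g).prod ∈ H)
    (j u : ℕ) (hu : u < M) (h : dp_gi_3 j u = true) : Good (fa g) T MG M (cP g H) Lt.gi u := by
  unfold dp_gi_3 at h
  rcases brec_true h with h | h
  · exact lF_good (T := T) (x := Lt.gi) (by decide) [Lt.fi, Lt.bi, Lt.fi, Lt.gi, Lt.b, Lt.b, Lt.f, Lt.b, Lt.f, Lt.g, Lt.f] (hole_rel hinv hr (by decide +kernel)) h
  · exact lS_good (T := T) (x := Lt.gi) (by decide) hu [Lt.fi, Lt.bi, Lt.fi, Lt.gi, Lt.b, Lt.b, Lt.f, Lt.b, Lt.f, Lt.g, Lt.f] (hole_rel hinv hr (by decide +kernel)) h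
theorem dp_gi_4_s (hinv : ∀ x, g (inv x) = (g x)⁻¹) (hr : ∀ r ∈ rels, (r.map g).prod = 1) (hH : ∀ r ∈ subs, (r.map g).prod ∈ H)
    (j u : ℕ) (hu : u < M) (h : dp_gi_4 j u = true) : Good (fa g) T MG M (cP g H) Lt.gi u := by
  unfold dp_gi_4 at h
  rcases brec_true h with h | h
  · exact lF_good (T := T) (x := Lt.gi) (by decide) [Lt.fi, Lt.bi, Lt.fi, Lt.bi, Lt.bi, Lt.g, Lt.f, Lt.b, Lt.f, Lt.g, Lt.fi] (hole_rel hinv hr (by decide +kernel)) h
  · exact dp_gi_3_s hinv hr hH j u hu h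
theorem dp_gi_5_s (hinv : ∀ x, g (inv x) = (g x)⁻¹) (hr : ∀ r ∈ rels, (r.map g).prod = 1) (hH : ∀ r ∈ subs, (r.map g).prod ∈ H)
    (j u : ℕ) (hu : u < M) (h : dp_gi_5 j u = true) : Good (fa g) T MG M (cP g H) Lt.gi u := by
  unfold dp_gi_5 at h
  rcases brec_true h with h | h
  · exact dp_gi_2_s hinv hr hH j u hu h
  · exact dp_gi_4_s hinv hr hH j u hu h
theorem dp_gi_6_s (hinv : ∀ x, g (inv x) = (g x)⁻¹) (hr : ∀ r ∈ rels, (r.map g).prod = 1) (hH : ∀ r ∈ subs, (r.map g).prod ∈ H)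
    (j u : ℕ) (hu : u < M) (h : dp_gi_6 j u = true) : Good (fa g) T MG M (cP g H) Lt.gi u := by
  unfold dp_gi_6 at h
  rcases brec_true h with h | h
  · exact lF3_good (T := T) (x := Lt.gi) (by decide) .zi .g .z (hole_rel hinv hr (by decide +kernel)) h
  · exact lS_good (T := T) (x := Lt.gi) (by decide) hu [Lt.z, Lt.g, Lt.zi] (hole_rel hinv hr (by decide +kernel)) h
theorem dp_gi_7_s (hinv : ∀ x, g (inv x) = (g x)⁻¹) (hr : ∀ r ∈ rels, (r.map g).prod = 1) (hH : ∀ r ∈ subs, (r.map g).prod ∈ H)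
    (j u : ℕ) (hu : u < M) (h : dp_gi_7 j u = true) : Good (fa g) T MG M (cP g H) Lt.gi u := by
  unfold dp_gi_7 at h
  rcases brec_true h with h | h
  · exact lS_good (T := T) (x := Lt.gi) (by decide) hu [Lt.fi, Lt.gi, Lt.f, Lt.bi, Lt.fi, Lt.b, Lt.f, Lt.gi, Lt.bi, Lt.fi, Lt.b] (hole_rel hinv hr (by decide +kernel)) h
  · exact lF_good (T := T) (x := Lt.gi) (by decide) [Lt.f, Lt.bi, Lt.fi, Lt.b, Lt.f, Lt.gi, Lt.bi, Lt.fi, Lt.b, Lt.gi, Lt.fi] (hole_rel hinv hr (by decide +kernel)) h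
theorem dp_gi_8_s (hinv : ∀ x, g (inv x) = (g x)⁻¹) (hr : ∀ r ∈ rels, (r.map g).prod = 1) (hH : ∀ r ∈ subs, (r.map g).prod ∈ H)
    (j u : ℕ) (hu : u < M) (h : dp_gi_8 j u = true) : Good (fa g) T MG M (cP g H) Lt.gi u := by
  unfold dp_gi_8 at h
  rcases brec_true h with h | h
  · exact dp_gi_6_s hinv hr hH j u hu h
  · exact dp_gi_7_s hinv hr hH j u hu h
theorem dp_gi_9_s (hinv : ∀ x, g (inv x) = (g x)⁻¹) (hr : ∀ r ∈ rels, (r.map g).prod = 1) (hH : ∀ r ∈ subs, (r.map g).prod ∈ H)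
    (j u : ℕ) (hu : u < M) (h : dp_gi_9 j u = true) : Good (fa g) T MG M (cP g H) Lt.gi u := by
  unfold dp_gi_9 at h
  rcases brec_true h with h | h
  · exact lS_good (T := T) (x := Lt.gi) (by decide) hu [Lt.fi, Lt.bi, Lt.fi, Lt.bi, Lt.bi, Lt.g, Lt.f, Lt.b, Lt.f, Lt.g, Lt.fi] (hole_rel hinv hr (by decide +kernel)) h
  · exact lF_good (T := T) (x := Lt.gi) (by decide) [Lt.fi, Lt.gi, Lt.f, Lt.bi, Lt.fi, Lt.b, Lt.f, Lt.gi, Lt.bi, Lt.fi, Lt.b] (hole_rel hinv hr (by decide +kernel)) h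
theorem dp_gi_10_s (hinv : ∀ x, g (inv x) = (g x)⁻¹) (hr : ∀ r ∈ rels, (r.map g).prod = 1) (hH : ∀ r ∈ subs, (r.map g).prod ∈ H)
    (j u : ℕ) (hu : u < M) (h : dp_gi_10 j u = true) : Good (fa g) T MG M (cP g H) Lt.gi u := by
  unfold dp_gi_10 at h
  rcases brec_true h with h | h
  · exact lS_good (T := T) (x := Lt.gi) (by decide) hu [Lt.f, Lt.bi, Lt.fi, Lt.b, Lt.f, Lt.gi, Lt.bi, Lt.fi, Lt.b, Lt.gi, Lt.fi] (hole_rel hinv hr (by decide +kernel)) h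
  · exact lS_good (T := T) (x := Lt.gi) (by decide) hu [Lt.bi, Lt.fi, Lt.b, Lt.gi, Lt.fi, Lt.gi, Lt.f, Lt.bi, Lt.fi, Lt.b, Lt.f] (hole_rel hinv hr (by decide +kernel)) h
theorem dp_gi_11_s (hinv : ∀ x, g (inv x) = (g x)⁻¹) (hr : ∀ r ∈ rels, (r.map g).prod = 1) (hH : ∀ r ∈ subs, (r.map g).prod ∈ H)
    (j u : ℕ) (hu : u < M) (h : dp_gi_11 j u = true) : Good (fa g) T MG M (cP g H) Lt.gi u := by
  unfold dp_gi_11 at h
  rcases brec_true h with h | h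
  · exact lS_good (T := T) (x := Lt.gi) (by decide) hu [Lt.b, Lt.b, Lt.f, Lt.b, Lt.f, Lt.g, Lt.f, Lt.gi, Lt.fi, Lt.bi, Lt.fi] (hole_rel hinv hr (by decide +kernel)) h
  · exact lS_good (T := T) (x := Lt.gi) (by decide) hu [Lt.zi, Lt.g, Lt.z] (hole_rel hinv hr (by decide +kernel)) h
theorem dp_gi_12_s (hinv : ∀ x, g (inv x) = (g x)⁻¹) (hr : ∀ r ∈ rels, (r.map g).prod = 1) (hH : ∀ r ∈ subs, (r.map g).prod ∈ H)
    (j u : ℕ) (hu : u < M) (h : dp_gi_12 j u = true) : Good (fa g) T MG M (cP g H) Lt.gi u := by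
  unfold dp_gi_12 at h
  rcases brec_true h with h | h
  · exact lF_good (T := T) (x := Lt.gi) (by decide) [Lt.bi, Lt.fi, Lt.b, Lt.gi, Lt.fi, Lt.gi, Lt.f, Lt.bi, Lt.fi, Lt.b, Lt.f] (hole_rel hinv hr (by decide +kernel)) h
  · exact dp_gi_11_s hinv hr hH j u hu h
theorem dp_gi_13_s (hinv : ∀ x, g (inv x) = (g x)⁻¹) (hr : ∀ r ∈ rels, (r.map g).prod = 1) (hH : ∀ r ∈ subs, (r.map g).prod ∈ H)
    (j u : ℕ) (hu : u < M) (h : dp_gi_13 j u = true) : Good (fa g) T MG M (cP g H) Lt.gi u := by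
  unfold dp_gi_13 at h
  rcases brec_true h with h | h
  · exact lF_good (T := T) (x := Lt.gi) (by decide) [Lt.b, Lt.b, Lt.f, Lt.b, Lt.f, Lt.g, Lt.f, Lt.gi, Lt.fi, Lt.bi, Lt.fi] (hole_rel hinv hr (by decide +kernel)) h
  · exact dp_gi_12_s hinv hr hH j u hu h
theorem dp_gi_14_s (hinv : ∀ x, g (inv x) = (g x)⁻¹) (hr : ∀ r ∈ rels, (r.map g).prod = 1) (hH : ∀ r ∈ subs, (r.map g).prod ∈ H)
    (j u : ℕ) (hu : u < M) (h : dp_gi_14 j u = true) : Good (fa g) T MG M (cP g H) Lt.gi u := by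
  unfold dp_gi_14 at h
  rcases brec_true h with h | h
  · exact dp_gi_10_s hinv hr hH j u hu h
  · exact dp_gi_13_s hinv hr hH j u hu h
theorem dp_gi_15_s (hinv : ∀ x, g (inv x) = (g x)⁻¹) (hr : ∀ r ∈ rels, (r.map g).prod = 1) (hH : ∀ r ∈ subs, (r.map g).prod ∈ H)
    (j u : ℕ) (hu : u < M) (h : dp_gi_15 j u = true) : Good (fa g) T MG M (cP g H) Lt.gi u := by
  unfold dp_gi_15 at h
  rcases brec_true h with h | h
  · exact dp_gi_9_s hinv hr hH j u hu h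
  · exact dp_gi_14_s hinv hr hH j u hu h
theorem dp_gi_16_s (hinv : ∀ x, g (inv x) = (g x)⁻¹) (hr : ∀ r ∈ rels, (r.map g).prod = 1) (hH : ∀ r ∈ subs, (r.map g).prod ∈ H)
    (j u : ℕ) (hu : u < M) (h : dp_gi_16 j u = true) : Good (fa g) T MG M (cP g H) Lt.gi u := by
  unfold dp_gi_16 at h
  rcases brec_true h with h | h
  · exact dp_gi_8_s hinv hr hH j u hu h
  · exact dp_gi_15_s hinv hr hH j u hu h
theorem dp_gi_17_s (hinv : ∀ x, g (inv x) = (g x)⁻¹) (hr : ∀ r ∈ rels, (r.map g).prod = 1) (hH : ∀ r ∈ subs, (r.map g).prod ∈ H)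
    (j u : ℕ) (hu : u < M) (h : dp_gi_17 j u = true) : Good (fa g) T MG M (cP g H) Lt.gi u := by
  unfold dp_gi_17 at h
  rcases brec_true h with h | h
  · exact dp_gi_5_s hinv hr hH j u hu h
  · exact dp_gi_16_s hinv hr hH j u hu h
theorem dp_gi_18_s (hinv : ∀ x, g (inv x) = (g x)⁻¹) (hr : ∀ r ∈ rels, (r.map g).prod = 1) (hH : ∀ r ∈ subs, (r.map g).prod ∈ H)
    (j u : ℕ) (hu : u < M) (h : dp_gi_18 j u = true) : Good (fa g) T MG M (cP g H) Lt.gi u := by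
  unfold dp_gi_18 at h
  rcases brec_true h with h | h
  · exact dp_gi_1_s hinv hr hH j u hu h
  · exact dp_gi_17_s hinv hr hH j u hu h
theorem dp_gi_19_s (hinv : ∀ x, g (inv x) = (g x)⁻¹) (hr : ∀ r ∈ rels, (r.map g).prod = 1) (hH : ∀ r ∈ subs, (r.map g).prod ∈ H)
    (j u : ℕ) (hu : u < M) (h : dp_gi_19 j u = true) : Good (fa g) T MG M (cP g H) Lt.gi u := by
  unfold dp_gi_19 at h
  rcases brec_true h with h | h
  · exact dp_gi_0_s hinv hr hH j u hu h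
  · exact dp_gi_18_s hinv hr hH j u hu h
theorem dp_gi_20_s (hinv : ∀ x, g (inv x) = (g x)⁻¹) (hr : ∀ r ∈ rels, (r.map g).prod = 1) (hH : ∀ r ∈ subs, (r.map g).prod ∈ H)
    (j u : ℕ) (hu : u < M) (h : dp_gi_20 j u = true) : Good (fa g) T MG M (cP g H) Lt.gi u := by
  unfold dp_gi_20 at h
  rcases brec_true h with h | h
  · rcases brec_true h with h | h
    · exact lF3_good (T := T) (x := Lt.gi) (by decide) .z .g .zi (hole_rel hinv hr (by decide +kernel)) h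
    · exact lF_good (T := T) (x := Lt.gi) (by decide) [Lt.b, Lt.g, Lt.bi, Lt.bi, Lt.bi] (hole_rel hinv hr (by decide +kernel)) h
  · exact dp_gi_19_s hinv hr hH j u hu h
theorem snd_gi (hinv : ∀ x, g (inv x) = (g x)⁻¹) (hr : ∀ r ∈ rels, (r.map g).prod = 1) (hH : ∀ r ∈ subs, (r.map g).prod ∈ H)
    (j u : ℕ) (hu : u < M) (h : disp_gi j u = true) : Good (fa g) T MG M (cP g H) Lt.gi u := by
  unfold disp_gi at h
  rcases brec_true h with h | h
  · rcases brec_true h with h | h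
    · exact lF1_good (T := T) (x := Lt.gi) (by decide) .g (hole_rel hinv hr (by decide +kernel)) h
    · exact lDef_good (T := T) (x := Lt.gi) (by decide) rfl h
  · rcases brec_true h with h | h
    · exact lPar_good (T := T) (x := Lt.gi) (x' := Lt.g) (by decide) rfl (inv_rel hinv _ _ rfl) h
    · exact dp_gi_20_s hinv hr hH j u hu h
theorem snc_gi (hinv : ∀ x, g (inv x) = (g x)⁻¹) (hr : ∀ r ∈ rels, (r.map g).prod = 1) (hH : ∀ r ∈ subs, (r.map g).prod ∈ H)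
    (j u : ℕ) (hu : u < M) (h : chk_gi j u = true) : (T Lt.gi u < A ∧ Good (fa g) T MG M (cP g H) Lt.gi u) ∨ (A ≤ T Lt.gi u ∧ MG u < A) := by
  unfold chk_gi at h
  cases hb : Nat.ble A (T_gi u) with
  | true => rw [hb] at h; exact Or.inr ⟨le_of_ble hb, le_of_ble h⟩
  | false => rw [hb] at h; exact Or.inl ⟨lt_of_ble_false hb, snd_gi hinv hr hH j u hu h⟩
theorem dp_f_0_s (hinv : ∀ x, g (inv x) = (g x)⁻¹) (hr : ∀ r ∈ rels, (r.map g).prod = 1) (hH : ∀ r ∈ subs, (r.map g).prod ∈ H)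
    (j u : ℕ) (hu : u < M) (h : dp_f_0 j u = true) : Good (fa g) T MG M (cP g H) Lt.f u := by
  unfold dp_f_0 at h
  rcases brec_true h with h | h
  · exact lF_good (T := T) (x := Lt.f) (by decide) [Lt.g, Lt.fi, Lt.gi, Lt.fi, Lt.bi, Lt.fi, Lt.bi, Lt.bi, Lt.g, Lt.f, Lt.b] (hole_rel hinv hr (by decide +kernel)) h
  · exact lF_good (T := T) (x := Lt.f) (by decide) [Lt.gi, Lt.fi, Lt.bi, Lt.fi, Lt.gi, Lt.b, Lt.b, Lt.f, Lt.b, Lt.f, Lt.g] (hole_rel hinv hr (by decide +kernel)) h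
theorem dp_f_1_s (hinv : ∀ x, g (inv x) = (g x)⁻¹) (hr : ∀ r ∈ rels, (r.map g).prod = 1) (hH : ∀ r ∈ subs, (r.map g).prod ∈ H)
    (j u : ℕ) (hu : u < M) (h : dp_f_1 j u = true) : Good (fa g) T MG M (cP g H) Lt.f u := by
  unfold dp_f_1 at h
  rcases brec_true h with h | h
  · exact lS_good (T := T) (x := Lt.f) (by decide) hu [Lt.gi, Lt.fi, Lt.bi, Lt.fi, Lt.gi, Lt.b, Lt.b, Lt.f, Lt.b, Lt.f, Lt.g] (hole_rel hinv hr (by decide +kernel)) h
  · exact dp_f_0_s hinv hr hH j u hu h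
theorem dp_f_2_s (hinv : ∀ x, g (inv x) = (g x)⁻¹) (hr : ∀ r ∈ rels, (r.map g).prod = 1) (hH : ∀ r ∈ subs, (r.map g).prod ∈ H)
    (j u : ℕ) (hu : u < M) (h : dp_f_2 j u = true) : Good (fa g) T MG M (cP g H) Lt.f u := by
  unfold dp_f_2 at h
  rcases brec_true h with h | h
  · exact lS_good (T := T) (x := Lt.f) (by decide) hu [Lt.fi] (hole_rel hinv hr (by decide +kernel)) h
  · exact dp_f_1_s hinv hr hH j u hu h
theorem dp_f_3_s (hinv : ∀ x, g (inv x) = (g x)⁻¹) (hr : ∀ r ∈ rels, (r.map g).prod = 1) (hH : ∀ r ∈ subs, (r.map g).prod ∈ H)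
    (j u : ℕ) (hu : u < M) (h : dp_f_3 j u = true) : Good (fa g) T MG M (cP g H) Lt.f u := by
  unfold dp_f_3 at h
  rcases brec_true h with h | h
  · exact lS_good (T := T) (x := Lt.f) (by decide) hu [Lt.n, Lt.f, Lt.ni] (hole_rel hinv hr (by decide +kernel)) h
  · exact lS_good (T := T) (x := Lt.f) (by decide) hu [Lt.g, Lt.bi, Lt.f, Lt.b, Lt.g, Lt.fi, Lt.bi, Lt.f, Lt.b, Lt.fi, Lt.g] (hole_rel hinv hr (by decide +kernel)) h
theorem dp_f_4_s (hinv : ∀ x, g (inv x) = (g x)⁻¹) (hr : ∀ r ∈ rels, (r.map g).prod = 1) (hH : ∀ r ∈ subs, (r.map g).prod ∈ H)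
    (j u : ℕ) (hu : u < M) (h : dp_f_4 j u = true) : Good (fa g) T MG M (cP g H) Lt.f u := by
  unfold dp_f_4 at h
  rcases brec_true h with h | h
  · exact lF_good (T := T) (x := Lt.f) (by decide) [Lt.b, Lt.g, Lt.fi, Lt.bi, Lt.f, Lt.b, Lt.fi, Lt.g, Lt.f, Lt.g, Lt.bi] (hole_rel hinv hr (by decide +kernel)) h
  · exact lS_good (T := T) (x := Lt.f) (by decide) hu [Lt.ni, Lt.f, Lt.n] (hole_rel hinv hr (by decide +kernel)) h
theorem dp_f_5_s (hinv : ∀ x, g (inv x) = (g x)⁻¹) (hr : ∀ r ∈ rels, (r.map g).prod = 1) (hH : ∀ r ∈ subs, (r.map g).prod ∈ H)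
    (j u : ℕ) (hu : u < M) (h : dp_f_5 j u = true) : Good (fa g) T MG M (cP g H) Lt.f u := by
  unfold dp_f_5 at h
  rcases brec_true h with h | h
  · exact dp_f_3_s hinv hr hH j u hu h
  · exact dp_f_4_s hinv hr hH j u hu h
theorem dp_f_6_s (hinv : ∀ x, g (inv x) = (g x)⁻¹) (hr : ∀ r ∈ rels, (r.map g).prod = 1) (hH : ∀ r ∈ subs, (r.map g).prod ∈ H)
    (j u : ℕ) (hu : u < M) (h : dp_f_6 j u = true) : Good (fa g) T MG M (cP g H) Lt.f u := by
  unfold dp_f_6 at h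
  rcases brec_true h with h | h
  · exact lS_good (T := T) (x := Lt.f) (by decide) hu [Lt.g, Lt.fi, Lt.gi, Lt.fi, Lt.bi, Lt.fi, Lt.bi, Lt.bi, Lt.g, Lt.f, Lt.b] (hole_rel hinv hr (by decide +kernel)) h
  · exact lF_good (T := T) (x := Lt.f) (by decide) [Lt.g, Lt.f, Lt.gi, Lt.fi, Lt.bi, Lt.fi, Lt.gi, Lt.b, Lt.b, Lt.f, Lt.b] (hole_rel hinv hr (by decide +kernel)) h
theorem dp_f_7_s (hinv : ∀ x, g (inv x) = (g x)⁻¹) (hr : ∀ r ∈ rels, (r.map g).prod = 1) (hH : ∀ r ∈ subs, (r.map g).prod ∈ H)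
    (j u : ℕ) (hu : u < M) (h : dp_f_7 j u = true) : Good (fa g) T MG M (cP g H) Lt.f u := by
  unfold dp_f_7 at h
  rcases brec_true h with h | h
  · exact lS_good (T := T) (x := Lt.f) (by decide) hu [Lt.bi, Lt.fi, Lt.b, Lt.f, Lt.gi, Lt.bi, Lt.fi, Lt.b, Lt.gi, Lt.fi, Lt.gi] (hole_rel hinv hr (by decide +kernel)) h
  · exact lF_good (T := T) (x := Lt.f) (by decide) [Lt.g, Lt.bi, Lt.f, Lt.b, Lt.g, Lt.fi, Lt.bi, Lt.f, Lt.b, Lt.fi, Lt.g] (hole_rel hinv hr (by decide +kernel)) h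
theorem dp_f_8_s (hinv : ∀ x, g (inv x) = (g x)⁻¹) (hr : ∀ r ∈ rels, (r.map g).prod = 1) (hH : ∀ r ∈ subs, (r.map g).prod ∈ H)
    (j u : ℕ) (hu : u < M) (h : dp_f_8 j u = true) : Good (fa g) T MG M (cP g H) Lt.f u := by
  unfold dp_f_8 at h
  rcases brec_true h with h | h
  · exact lS_good (T := T) (x := Lt.f) (by decide) hu [Lt.g, Lt.f, Lt.gi, Lt.fi, Lt.bi, Lt.fi, Lt.gi, Lt.b, Lt.b, Lt.f, Lt.b] (hole_rel hinv hr (by decide +kernel)) h
  · exact dp_f_7_s hinv hr hH j u hu h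
theorem dp_f_9_s (hinv : ∀ x, g (inv x) = (g x)⁻¹) (hr : ∀ r ∈ rels, (r.map g).prod = 1) (hH : ∀ r ∈ subs, (r.map g).prod ∈ H)
    (j u : ℕ) (hu : u < M) (h : dp_f_9 j u = true) : Good (fa g) T MG M (cP g H) Lt.f u := by
  unfold dp_f_9 at h
  rcases brec_true h with h | h
  · exact dp_f_6_s hinv hr hH j u hu h
  · exact dp_f_8_s hinv hr hH j u hu h
theorem dp_f_10_s (hinv : ∀ x, g (inv x) = (g x)⁻¹) (hr : ∀ r ∈ rels, (r.map g).prod = 1) (hH : ∀ r ∈ subs, (r.map g).prod ∈ H)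
    (j u : ℕ) (hu : u < M) (h : dp_f_10 j u = true) : Good (fa g) T MG M (cP g H) Lt.f u := by
  unfold dp_f_10 at h
  rcases brec_true h with h | h
  · exact dp_f_5_s hinv hr hH j u hu h
  · exact dp_f_9_s hinv hr hH j u hu h
theorem dp_f_11_s (hinv : ∀ x, g (inv x) = (g x)⁻¹) (hr : ∀ r ∈ rels, (r.map g).prod = 1) (hH : ∀ r ∈ subs, (r.map g).prod ∈ H)
    (j u : ℕ) (hu : u < M) (h : dp_f_11 j u = true) : Good (fa g) T MG M (cP g H) Lt.f u := by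
  unfold dp_f_11 at h
  rcases brec_true h with h | h
  · exact lS_good (T := T) (x := Lt.f) (by decide) hu [Lt.b, Lt.g, Lt.fi, Lt.bi, Lt.f, Lt.b, Lt.fi, Lt.g, Lt.f, Lt.g, Lt.bi] (hole_rel hinv hr (by decide +kernel)) h
  · exact lS_good (T := T) (x := Lt.f) (by decide) hu [Lt.b, Lt.f, Lt.g, Lt.f, Lt.gi, Lt.fi, Lt.bi, Lt.fi, Lt.gi, Lt.b, Lt.b] (hole_rel hinv hr (by decide +kernel)) h
theorem dp_f_12_s (hinv : ∀ x, g (inv x) = (g x)⁻¹) (hr : ∀ r ∈ rels, (r.map g).prod = 1) (hH : ∀ r ∈ subs, (r.map g).prod ∈ H)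
    (j u : ℕ) (hu : u < M) (h : dp_f_12 j u = true) : Good (fa g) T MG M (cP g H) Lt.f u := by
  unfold dp_f_12 at h
  rcases brec_true h with h | h
  · exact lS_good (T := T) (x := Lt.f) (by decide) hu [Lt.bi, Lt.fi, Lt.bi, Lt.fi, Lt.bi, Lt.f, Lt.b, Lt.b, Lt.f, Lt.b, Lt.b] (hole_rel hinv hr (by decide +kernel)) h
  · exact lS_good (T := T) (x := Lt.f) (by decide) hu [Lt.b, Lt.fi, Lt.g, Lt.f, Lt.g, Lt.bi, Lt.f, Lt.b, Lt.g, Lt.fi, Lt.bi] (hole_rel hinv hr (by decide +kernel)) h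
theorem dp_f_13_s (hinv : ∀ x, g (inv x) = (g x)⁻¹) (hr : ∀ r ∈ rels, (r.map g).prod = 1) (hH : ∀ r ∈ subs, (r.map g).prod ∈ H)
    (j u : ℕ) (hu : u < M) (h : dp_f_13 j u = true) : Good (fa g) T MG M (cP g H) Lt.f u := by
  unfold dp_f_13 at h
  rcases brec_true h with h | h
  · exact dp_f_11_s hinv hr hH j u hu h
  · exact dp_f_12_s hinv hr hH j u hu h
theorem dp_f_14_s (hinv : ∀ x, g (inv x) = (g x)⁻¹) (hr : ∀ r ∈ rels, (r.map g).prod = 1) (hH : ∀ r ∈ subs, (r.map g).prod ∈ H)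
    (j u : ℕ) (hu : u < M) (h : dp_f_14 j u = true) : Good (fa g) T MG M (cP g H) Lt.f u := by
  unfold dp_f_14 at h
  rcases brec_true h with h | h
  · exact lS_good (T := T) (x := Lt.f) (by decide) hu [Lt.b, Lt.b, Lt.f, Lt.b, Lt.b, Lt.f, Lt.bi, Lt.fi, Lt.bi, Lt.fi, Lt.bi] (hole_rel hinv hr (by decide +kernel)) h
  · exact lS_good (T := T) (x := Lt.f) (by decide) hu [Lt.b, Lt.f, Lt.g, Lt.fi, Lt.gi, Lt.fi, Lt.bi, Lt.fi, Lt.bi, Lt.bi, Lt.g] (hole_rel hinv hr (by decide +kernel)) h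
theorem dp_f_15_s (hinv : ∀ x, g (inv x) = (g x)⁻¹) (hr : ∀ r ∈ rels, (r.map g).prod = 1) (hH : ∀ r ∈ subs, (r.map g).prod ∈ H)
    (j u : ℕ) (hu : u < M) (h : dp_f_15 j u = true) : Good (fa g) T MG M (cP g H) Lt.f u := by
  unfold dp_f_15 at h
  rcases brec_true h with h | h
  · exact lF_good (T := T) (x := Lt.f) (by decide) [Lt.b, Lt.b, Lt.f, Lt.bi, Lt.fi, Lt.bi, Lt.fi, Lt.bi, Lt.f, Lt.b, Lt.b] (hole_rel hinv hr (by decide +kernel)) h
  · exact lF_good (T := T) (x := Lt.f) (by decide) [Lt.b, Lt.f, Lt.g, Lt.f, Lt.gi, Lt.fi, Lt.bi, Lt.fi, Lt.gi, Lt.b, Lt.b] (hole_rel hinv hr (by decide +kernel)) h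
theorem dp_f_16_s (hinv : ∀ x, g (inv x) = (g x)⁻¹) (hr : ∀ r ∈ rels, (r.map g).prod = 1) (hH : ∀ r ∈ subs, (r.map g).prod ∈ H)
    (j u : ℕ) (hu : u < M) (h : dp_f_16 j u = true) : Good (fa g) T MG M (cP g H) Lt.f u := by
  unfold dp_f_16 at h
  rcases brec_true h with h | h
  · exact dp_f_14_s hinv hr hH j u hu h
  · exact dp_f_15_s hinv hr hH j u hu h
theorem dp_f_17_s (hinv : ∀ x, g (inv x) = (g x)⁻¹) (hr : ∀ r ∈ rels, (r.map g).prod = 1) (hH : ∀ r ∈ subs, (r.map g).prod ∈ H)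
    (j u : ℕ) (hu : u < M) (h : dp_f_17 j u = true) : Good (fa g) T MG M (cP g H) Lt.f u := by
  unfold dp_f_17 at h
  rcases brec_true h with h | h
  · exact dp_f_13_s hinv hr hH j u hu h
  · exact dp_f_16_s hinv hr hH j u hu h
theorem dp_f_18_s (hinv : ∀ x, g (inv x) = (g x)⁻¹) (hr : ∀ r ∈ rels, (r.map g).prod = 1) (hH : ∀ r ∈ subs, (r.map g).prod ∈ H)
    (j u : ℕ) (hu : u < M) (h : dp_f_18 j u = true) : Good (fa g) T MG M (cP g H) Lt.f u := by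
  unfold dp_f_18 at h
  rcases brec_true h with h | h
  · exact lS_good (T := T) (x := Lt.f) (by decide) hu [Lt.gi, Lt.bi, Lt.fi, Lt.b, Lt.gi, Lt.fi, Lt.gi, Lt.f, Lt.bi, Lt.fi, Lt.b] (hole_rel hinv hr (by decide +kernel)) h
  · exact lF_good (T := T) (x := Lt.f) (by decide) [Lt.bi, Lt.fi, Lt.b, Lt.f, Lt.gi, Lt.bi, Lt.fi, Lt.b, Lt.gi, Lt.fi, Lt.gi] (hole_rel hinv hr (by decide +kernel)) h
theorem dp_f_19_s (hinv : ∀ x, g (inv x) = (g x)⁻¹) (hr : ∀ r ∈ rels, (r.map g).prod = 1) (hH : ∀ r ∈ subs, (r.map g).prod ∈ H)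
    (j u : ℕ) (hu : u < M) (h : dp_f_19 j u = true) : Good (fa g) T MG M (cP g H) Lt.f u := by
  unfold dp_f_19 at h
  rcases brec_true h with h | h
  · exact lF_good (T := T) (x := Lt.f) (by decide) [Lt.bi, Lt.fi, Lt.bi, Lt.fi, Lt.bi, Lt.f, Lt.b, Lt.b, Lt.f, Lt.b, Lt.b] (hole_rel hinv hr (by decide +kernel)) h
  · exact lS_good (T := T) (x := Lt.f) (by decide) hu [Lt.b, Lt.fi, Lt.bi, Lt.bi, Lt.fi, Lt.bi, Lt.bi, Lt.fi, Lt.b, Lt.f, Lt.b] (hole_rel hinv hr (by decide +kernel)) h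
theorem dp_f_20_s (hinv : ∀ x, g (inv x) = (g x)⁻¹) (hr : ∀ r ∈ rels, (r.map g).prod = 1) (hH : ∀ r ∈ subs, (r.map g).prod ∈ H)
    (j u : ℕ) (hu : u < M) (h : dp_f_20 j u = true) : Good (fa g) T MG M (cP g H) Lt.f u := by
  unfold dp_f_20 at h
  rcases brec_true h with h | h
  · exact lF_good (T := T) (x := Lt.f) (by decide) [Lt.b, Lt.f, Lt.g, Lt.fi, Lt.gi, Lt.fi, Lt.bi, Lt.fi, Lt.bi, Lt.bi, Lt.g] (hole_rel hinv hr (by decide +kernel)) h
  · exact dp_f_19_s hinv hr hH j u hu h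
theorem dp_f_21_s (hinv : ∀ x, g (inv x) = (g x)⁻¹) (hr : ∀ r ∈ rels, (r.map g).prod = 1) (hH : ∀ r ∈ subs, (r.map g).prod ∈ H)
    (j u : ℕ) (hu : u < M) (h : dp_f_21 j u = true) : Good (fa g) T MG M (cP g H) Lt.f u := by
  unfold dp_f_21 at h
  rcases brec_true h with h | h
  · exact dp_f_18_s hinv hr hH j u hu h
  · exact dp_f_20_s hinv hr hH j u hu h
theorem dp_f_22_s (hinv : ∀ x, g (inv x) = (g x)⁻¹) (hr : ∀ r ∈ rels, (r.map g).prod = 1) (hH : ∀ r ∈ subs, (r.map g).prod ∈ H)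
    (j u : ℕ) (hu : u < M) (h : dp_f_22 j u = true) : Good (fa g) T MG M (cP g H) Lt.f u := by
  unfold dp_f_22 at h
  rcases brec_true h with h | h
  · exact lF_good (T := T) (x := Lt.f) (by decide) [Lt.b, Lt.fi, Lt.bi, Lt.bi, Lt.fi, Lt.bi, Lt.bi, Lt.fi, Lt.b, Lt.f, Lt.b] (hole_rel hinv hr (by decide +kernel)) h
  · exact lF_good (T := T) (x := Lt.f) (by decide) [Lt.b, Lt.f, Lt.b, Lt.fi, Lt.bi, Lt.bi, Lt.fi, Lt.bi, Lt.bi, Lt.fi, Lt.b] (hole_rel hinv hr (by decide +kernel)) h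
theorem dp_f_23_s (hinv : ∀ x, g (inv x) = (g x)⁻¹) (hr : ∀ r ∈ rels, (r.map g).prod = 1) (hH : ∀ r ∈ subs, (r.map g).prod ∈ H)
    (j u : ℕ) (hu : u < M) (h : dp_f_23 j u = true) : Good (fa g) T MG M (cP g H) Lt.f u := by
  unfold dp_f_23 at h
  rcases brec_true h with h | h
  · exact lF_good (T := T) (x := Lt.f) (by decide) [Lt.b, Lt.fi, Lt.g, Lt.f, Lt.g, Lt.bi, Lt.f, Lt.b, Lt.g, Lt.fi, Lt.bi] (hole_rel hinv hr (by decide +kernel)) h
  · exact dp_f_22_s hinv hr hH j u hu h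
theorem dp_f_24_s (hinv : ∀ x, g (inv x) = (g x)⁻¹) (hr : ∀ r ∈ rels, (r.map g).prod = 1) (hH : ∀ r ∈ subs, (r.map g).prod ∈ H)
    (j u : ℕ) (hu : u < M) (h : dp_f_24 j u = true) : Good (fa g) T MG M (cP g H) Lt.f u := by
  unfold dp_f_24 at h
  rcases brec_true h with h | h
  · exact lF_good (T := T) (x := Lt.f) (by decide) [Lt.gi, Lt.bi, Lt.fi, Lt.b, Lt.gi, Lt.fi, Lt.gi, Lt.f, Lt.bi, Lt.fi, Lt.b] (hole_rel hinv hr (by decide +kernel)) h
  · exact lF_good (T := T) (x := Lt.f) (by decide) [Lt.b, Lt.b, Lt.f, Lt.b, Lt.b, Lt.f, Lt.bi, Lt.fi, Lt.bi, Lt.fi, Lt.bi] (hole_rel hinv hr (by decide +kernel)) h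
theorem dp_f_25_s (hinv : ∀ x, g (inv x) = (g x)⁻¹) (hr : ∀ r ∈ rels, (r.map g).prod = 1) (hH : ∀ r ∈ subs, (r.map g).prod ∈ H)
    (j u : ℕ) (hu : u < M) (h : dp_f_25 j u = true) : Good (fa g) T MG M (cP g H) Lt.f u := by
  unfold dp_f_25 at h
  rcases brec_true h with h | h
  · exact lS_good (T := T) (x := Lt.f) (by decide) hu [Lt.f, Lt.f] (hole_rel hinv hr (by decide +kernel)) h
  · exact lH_good (T := T) (x := Lt.f) (by decide) [] [] (by rw [show cP g H 0 = _ from cc_zero]; exact sub_rel hinv (hH _ (by decide))) h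
theorem dp_f_26_s (hinv : ∀ x, g (inv x) = (g x)⁻¹) (hr : ∀ r ∈ rels, (r.map g).prod = 1) (hH : ∀ r ∈ subs, (r.map g).prod ∈ H)
    (j u : ℕ) (hu : u < M) (h : dp_f_26 j u = true) : Good (fa g) T MG M (cP g H) Lt.f u := by
  unfold dp_f_26 at h
  rcases brec_true h with h | h
  · exact lS_good (T := T) (x := Lt.f) (by decide) hu [Lt.b, Lt.b, Lt.f, Lt.bi, Lt.fi, Lt.bi, Lt.fi, Lt.bi, Lt.f, Lt.b, Lt.b] (hole_rel hinv hr (by decide +kernel)) h
  · exact dp_f_25_s hinv hr hH j u hu h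
theorem dp_f_27_s (hinv : ∀ x, g (inv x) = (g x)⁻¹) (hr : ∀ r ∈ rels, (r.map g).prod = 1) (hH : ∀ r ∈ subs, (r.map g).prod ∈ H)
    (j u : ℕ) (hu : u < M) (h : dp_f_27 j u = true) : Good (fa g) T MG M (cP g H) Lt.f u := by
  unfold dp_f_27 at h
  rcases brec_true h with h | h
  · exact lS_good (T := T) (x := Lt.f) (by decide) hu [Lt.b, Lt.f, Lt.b, Lt.fi, Lt.bi, Lt.bi, Lt.fi, Lt.bi, Lt.bi, Lt.fi, Lt.b] (hole_rel hinv hr (by decide +kernel)) h
  · exact dp_f_26_s hinv hr hH j u hu h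
theorem dp_f_28_s (hinv : ∀ x, g (inv x) = (g x)⁻¹) (hr : ∀ r ∈ rels, (r.map g).prod = 1) (hH : ∀ r ∈ subs, (r.map g).prod ∈ H)
    (j u : ℕ) (hu : u < M) (h : dp_f_28 j u = true) : Good (fa g) T MG M (cP g H) Lt.f u := by
  unfold dp_f_28 at h
  rcases brec_true h with h | h
  · exact dp_f_24_s hinv hr hH j u hu h
  · exact dp_f_27_s hinv hr hH j u hu h
theorem dp_f_29_s (hinv : ∀ x, g (inv x) = (g x)⁻¹) (hr : ∀ r ∈ rels, (r.map g).prod = 1) (hH : ∀ r ∈ subs, (r.map g).prod ∈ H)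
    (j u : ℕ) (hu : u < M) (h : dp_f_29 j u = true) : Good (fa g) T MG M (cP g H) Lt.f u := by
  unfold dp_f_29 at h
  rcases brec_true h with h | h
  · exact dp_f_23_s hinv hr hH j u hu h
  · exact dp_f_28_s hinv hr hH j u hu h
theorem dp_f_30_s (hinv : ∀ x, g (inv x) = (g x)⁻¹) (hr : ∀ r ∈ rels, (r.map g).prod = 1) (hH : ∀ r ∈ subs, (r.map g).prod ∈ H)
    (j u : ℕ) (hu : u < M) (h : dp_f_30 j u = true) : Good (fa g) T MG M (cP g H) Lt.f u := by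
  unfold dp_f_30 at h
  rcases brec_true h with h | h
  · exact dp_f_21_s hinv hr hH j u hu h
  · exact dp_f_29_s hinv hr hH j u hu h
theorem dp_f_31_s (hinv : ∀ x, g (inv x) = (g x)⁻¹) (hr : ∀ r ∈ rels, (r.map g).prod = 1) (hH : ∀ r ∈ subs, (r.map g).prod ∈ H)
    (j u : ℕ) (hu : u < M) (h : dp_f_31 j u = true) : Good (fa g) T MG M (cP g H) Lt.f u := by
  unfold dp_f_31 at h
  rcases brec_true h with h | h
  · exact dp_f_17_s hinv hr hH j u hu h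
  · exact dp_f_30_s hinv hr hH j u hu h
theorem dp_f_32_s (hinv : ∀ x, g (inv x) = (g x)⁻¹) (hr : ∀ r ∈ rels, (r.map g).prod = 1) (hH : ∀ r ∈ subs, (r.map g).prod ∈ H)
    (j u : ℕ) (hu : u < M) (h : dp_f_32 j u = true) : Good (fa g) T MG M (cP g H) Lt.f u := by
  unfold dp_f_32 at h
  rcases brec_true h with h | h
  · exact dp_f_10_s hinv hr hH j u hu h
  · exact dp_f_31_s hinv hr hH j u hu h
theorem dp_f_33_s (hinv : ∀ x, g (inv x) = (g x)⁻¹) (hr : ∀ r ∈ rels, (r.map g).prod = 1) (hH : ∀ r ∈ subs, (r.map g).prod ∈ H)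
    (j u : ℕ) (hu : u < M) (h : dp_f_33 j u = true) : Good (fa g) T MG M (cP g H) Lt.f u := by
  unfold dp_f_33 at h
  rcases brec_true h with h | h
  · exact dp_f_2_s hinv hr hH j u hu h
  · exact dp_f_32_s hinv hr hH j u hu h
theorem dp_f_34_s (hinv : ∀ x, g (inv x) = (g x)⁻¹) (hr : ∀ r ∈ rels, (r.map g).prod = 1) (hH : ∀ r ∈ subs, (r.map g).prod ∈ H)
    (j u : ℕ) (hu : u < M) (h : dp_f_34 j u = true) : Good (fa g) T MG M (cP g H) Lt.f u := by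
  unfold dp_f_34 at h
  rcases brec_true h with h | h
  · exact lF3_good (T := T) (x := Lt.f) (by decide) .ni .f .n (hole_rel hinv hr (by decide +kernel)) h
  · exact dp_f_33_s hinv hr hH j u hu h
theorem dp_f_35_s (hinv : ∀ x, g (inv x) = (g x)⁻¹) (hr : ∀ r ∈ rels, (r.map g).prod = 1) (hH : ∀ r ∈ subs, (r.map g).prod ∈ H)
    (j u : ℕ) (hu : u < M) (h : dp_f_35 j u = true) : Good (fa g) T MG M (cP g H) Lt.f u := by
  unfold dp_f_35 at h
  rcases brec_true h with h | h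
  · exact lF3_good (T := T) (x := Lt.f) (by decide) .n .f .ni (hole_rel hinv hr (by decide +kernel)) h
  · exact dp_f_34_s hinv hr hH j u hu h
theorem snd_f (hinv : ∀ x, g (inv x) = (g x)⁻¹) (hr : ∀ r ∈ rels, (r.map g).prod = 1) (hH : ∀ r ∈ subs, (r.map g).prod ∈ H)
    (j u : ℕ) (hu : u < M) (h : disp_f j u = true) : Good (fa g) T MG M (cP g H) Lt.f u := by
  unfold disp_f at h
  rcases brec_true h with h | h
  · rcases brec_true h with h | h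
    · exact lF1_good (T := T) (x := Lt.f) (by decide) .fi (hole_rel hinv hr (by decide +kernel)) h
    · exact lF_good (T := T) (x := Lt.f) (by decide) [Lt.f, Lt.f] (hole_rel hinv hr (by decide +kernel)) h
  · rcases brec_true h with h | h
    · rcases brec_true h with h | h
      · exact lPar_good (T := T) (x := Lt.f) (x' := Lt.fi) (by decide) rfl (inv_rel hinv _ _ rfl) h
      · exact lDef_good (T := T) (x := Lt.f) (by decide) rfl h
    · exact dp_f_35_s hinv hr hH j u hu h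
theorem snc_f (hinv : ∀ x, g (inv x) = (g x)⁻¹) (hr : ∀ r ∈ rels, (r.map g).prod = 1) (hH : ∀ r ∈ subs, (r.map g).prod ∈ H)
    (j u : ℕ) (hu : u < M) (h : chk_f j u = true) : (T Lt.f u < A ∧ Good (fa g) T MG M (cP g H) Lt.f u) ∨ (A ≤ T Lt.f u ∧ MG u < A) := by
  unfold chk_f at h
  cases hb : Nat.ble A (T_f u) with
  | true => rw [hb] at h; exact Or.inr ⟨le_of_ble hb, le_of_ble h⟩
  | false => rw [hb] at h; exact Or.inl ⟨lt_of_ble_false hb, snd_f hinv hr hH j u hu h⟩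
theorem dp_fi_0_s (hinv : ∀ x, g (inv x) = (g x)⁻¹) (hr : ∀ r ∈ rels, (r.map g).prod = 1) (hH : ∀ r ∈ subs, (r.map g).prod ∈ H)
    (j u : ℕ) (hu : u < M) (h : dp_fi_0 j u = true) : Good (fa g) T MG M (cP g H) Lt.fi u := by
  unfold dp_fi_0 at h
  rcases brec_true h with h | h
  · exact lF_good (T := T) (x := Lt.fi) (by decide) [Lt.gi, Lt.fi, Lt.bi, Lt.fi, Lt.bi, Lt.bi, Lt.g, Lt.f, Lt.b, Lt.f, Lt.g] (hole_rel hinv hr (by decide +kernel)) h
  · exact lS_good (T := T) (x := Lt.fi) (by decide) hu [Lt.gi, Lt.fi, Lt.bi, Lt.fi, Lt.bi, Lt.bi, Lt.g, Lt.f, Lt.b, Lt.f, Lt.g] (hole_rel hinv hr (by decide +kernel)) h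
theorem dp_fi_1_s (hinv : ∀ x, g (inv x) = (g x)⁻¹) (hr : ∀ r ∈ rels, (r.map g).prod = 1) (hH : ∀ r ∈ subs, (r.map g).prod ∈ H)
    (j u : ℕ) (hu : u < M) (h : dp_fi_1 j u = true) : Good (fa g) T MG M (cP g H) Lt.fi u := by
  unfold dp_fi_1 at h
  rcases brec_true h with h | h
  · exact lF_good (T := T) (x := Lt.fi) (by decide) [Lt.gi, Lt.f, Lt.bi, Lt.fi, Lt.b, Lt.f, Lt.gi, Lt.bi, Lt.fi, Lt.b, Lt.gi] (hole_rel hinv hr (by decide +kernel)) h
  · exact lS_good (T := T) (x := Lt.fi) (by decide) hu [Lt.bi, Lt.fi, Lt.gi, Lt.b, Lt.b, Lt.f, Lt.b, Lt.f, Lt.g, Lt.f, Lt.gi] (hole_rel hinv hr (by decide +kernel)) h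
theorem dp_fi_2_s (hinv : ∀ x, g (inv x) = (g x)⁻¹) (hr : ∀ r ∈ rels, (r.map g).prod = 1) (hH : ∀ r ∈ subs, (r.map g).prod ∈ H)
    (j u : ℕ) (hu : u < M) (h : dp_fi_2 j u = true) : Good (fa g) T MG M (cP g H) Lt.fi u := by
  unfold dp_fi_2 at h
  rcases brec_true h with h | h
  · exact dp_fi_0_s hinv hr hH j u hu h
  · exact dp_fi_1_s hinv hr hH j u hu h
theorem dp_fi_3_s (hinv : ∀ x, g (inv x) = (g x)⁻¹) (hr : ∀ r ∈ rels, (r.map g).prod = 1) (hH : ∀ r ∈ subs, (r.map g).prod ∈ H)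
    (j u : ℕ) (hu : u < M) (h : dp_fi_3 j u = true) : Good (fa g) T MG M (cP g H) Lt.fi u := by
  unfold dp_fi_3 at h
  rcases brec_true h with h | h
  · exact lS_good (T := T) (x := Lt.fi) (by decide) hu [Lt.f] (hole_rel hinv hr (by decide +kernel)) h
  · exact dp_fi_2_s hinv hr hH j u hu h
theorem dp_fi_4_s (hinv : ∀ x, g (inv x) = (g x)⁻¹) (hr : ∀ r ∈ rels, (r.map g).prod = 1) (hH : ∀ r ∈ subs, (r.map g).prod ∈ H)
    (j u : ℕ) (hu : u < M) (h : dp_fi_4 j u = true) : Good (fa g) T MG M (cP g H) Lt.fi u := by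
  unfold dp_fi_4 at h
  rcases brec_true h with h | h
  · exact lS_good (T := T) (x := Lt.fi) (by decide) hu [Lt.ni, Lt.fi, Lt.n] (hole_rel hinv hr (by decide +kernel)) h
  · exact lF_good (T := T) (x := Lt.fi) (by decide) [Lt.b, Lt.gi, Lt.fi, Lt.gi, Lt.f, Lt.bi, Lt.fi, Lt.b, Lt.f, Lt.gi, Lt.bi] (hole_rel hinv hr (by decide +kernel)) h
theorem dp_fi_5_s (hinv : ∀ x, g (inv x) = (g x)⁻¹) (hr : ∀ r ∈ rels, (r.map g).prod = 1) (hH : ∀ r ∈ subs, (r.map g).prod ∈ H)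
    (j u : ℕ) (hu : u < M) (h : dp_fi_5 j u = true) : Good (fa g) T MG M (cP g H) Lt.fi u := by
  unfold dp_fi_5 at h
  rcases brec_true h with h | h
  · exact lS_good (T := T) (x := Lt.fi) (by decide) hu [Lt.bi, Lt.fi, Lt.bi, Lt.bi, Lt.g, Lt.f, Lt.b, Lt.f, Lt.g, Lt.fi, Lt.gi] (hole_rel hinv hr (by decide +kernel)) h
  · exact lS_good (T := T) (x := Lt.fi) (by decide) hu [Lt.gi, Lt.f, Lt.bi, Lt.fi, Lt.b, Lt.f, Lt.gi, Lt.bi, Lt.fi, Lt.b, Lt.gi] (hole_rel hinv hr (by decide +kernel)) h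
theorem dp_fi_6_s (hinv : ∀ x, g (inv x) = (g x)⁻¹) (hr : ∀ r ∈ rels, (r.map g).prod = 1) (hH : ∀ r ∈ subs, (r.map g).prod ∈ H)
    (j u : ℕ) (hu : u < M) (h : dp_fi_6 j u = true) : Good (fa g) T MG M (cP g H) Lt.fi u := by
  unfold dp_fi_6 at h
  rcases brec_true h with h | h
  · exact dp_fi_4_s hinv hr hH j u hu h
  · exact dp_fi_5_s hinv hr hH j u hu h
theorem dp_fi_7_s (hinv : ∀ x, g (inv x) = (g x)⁻¹) (hr : ∀ r ∈ rels, (r.map g).prod = 1) (hH : ∀ r ∈ subs, (r.map g).prod ∈ H)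
    (j u : ℕ) (hu : u < M) (h : dp_fi_7 j u = true) : Good (fa g) T MG M (cP g H) Lt.fi u := by
  unfold dp_fi_7 at h
  rcases brec_true h with h | h
  · exact lS_good (T := T) (x := Lt.fi) (by decide) hu [Lt.gi, Lt.b, Lt.b, Lt.f, Lt.b, Lt.f, Lt.g, Lt.f, Lt.gi, Lt.fi, Lt.bi] (hole_rel hinv hr (by decide +kernel)) h
  · exact lS_good (T := T) (x := Lt.fi) (by decide) hu [Lt.n, Lt.fi, Lt.ni] (hole_rel hinv hr (by decide +kernel)) h
theorem dp_fi_8_s (hinv : ∀ x, g (inv x) = (g x)⁻¹) (hr : ∀ r ∈ rels, (r.map g).prod = 1) (hH : ∀ r ∈ subs, (r.map g).prod ∈ H)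
    (j u : ℕ) (hu : u < M) (h : dp_fi_8 j u = true) : Good (fa g) T MG M (cP g H) Lt.fi u := by
  unfold dp_fi_8 at h
  rcases brec_true h with h | h
  · exact lF_good (T := T) (x := Lt.fi) (by decide) [Lt.bi, Lt.fi, Lt.bi, Lt.bi, Lt.g, Lt.f, Lt.b, Lt.f, Lt.g, Lt.fi, Lt.gi] (hole_rel hinv hr (by decide +kernel)) h
  · exact dp_fi_7_s hinv hr hH j u hu h
theorem dp_fi_9_s (hinv : ∀ x, g (inv x) = (g x)⁻¹) (hr : ∀ r ∈ rels, (r.map g).prod = 1) (hH : ∀ r ∈ subs, (r.map g).prod ∈ H)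
    (j u : ℕ) (hu : u < M) (h : dp_fi_9 j u = true) : Good (fa g) T MG M (cP g H) Lt.fi u := by
  unfold dp_fi_9 at h
  rcases brec_true h with h | h
  · exact lS_good (T := T) (x := Lt.fi) (by decide) hu [Lt.b, Lt.f, Lt.gi, Lt.bi, Lt.fi, Lt.b, Lt.gi, Lt.fi, Lt.gi, Lt.f, Lt.bi] (hole_rel hinv hr (by decide +kernel)) h
  · exact lF_good (T := T) (x := Lt.fi) (by decide) [Lt.bi, Lt.fi, Lt.gi, Lt.b, Lt.b, Lt.f, Lt.b, Lt.f, Lt.g, Lt.f, Lt.gi] (hole_rel hinv hr (by decide +kernel)) h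
theorem dp_fi_10_s (hinv : ∀ x, g (inv x) = (g x)⁻¹) (hr : ∀ r ∈ rels, (r.map g).prod = 1) (hH : ∀ r ∈ subs, (r.map g).prod ∈ H)
    (j u : ℕ) (hu : u < M) (h : dp_fi_10 j u = true) : Good (fa g) T MG M (cP g H) Lt.fi u := by
  unfold dp_fi_10 at h
  rcases brec_true h with h | h
  · exact lF_good (T := T) (x := Lt.fi) (by decide) [Lt.gi, Lt.b, Lt.b, Lt.f, Lt.b, Lt.f, Lt.g, Lt.f, Lt.gi, Lt.fi, Lt.bi] (hole_rel hinv hr (by decide +kernel)) h
  · exact dp_fi_9_s hinv hr hH j u hu h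
theorem dp_fi_11_s (hinv : ∀ x, g (inv x) = (g x)⁻¹) (hr : ∀ r ∈ rels, (r.map g).prod = 1) (hH : ∀ r ∈ subs, (r.map g).prod ∈ H)
    (j u : ℕ) (hu : u < M) (h : dp_fi_11 j u = true) : Good (fa g) T MG M (cP g H) Lt.fi u := by
  unfold dp_fi_11 at h
  rcases brec_true h with h | h
  · exact dp_fi_8_s hinv hr hH j u hu h
  · exact dp_fi_10_s hinv hr hH j u hu h
theorem dp_fi_12_s (hinv : ∀ x, g (inv x) = (g x)⁻¹) (hr : ∀ r ∈ rels, (r.map g).prod = 1) (hH : ∀ r ∈ subs, (r.map g).prod ∈ H)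
    (j u : ℕ) (hu : u < M) (h : dp_fi_12 j u = true) : Good (fa g) T MG M (cP g H) Lt.fi u := by
  unfold dp_fi_12 at h
  rcases brec_true h with h | h
  · exact dp_fi_6_s hinv hr hH j u hu h
  · exact dp_fi_11_s hinv hr hH j u hu h
theorem dp_fi_13_s (hinv : ∀ x, g (inv x) = (g x)⁻¹) (hr : ∀ r ∈ rels, (r.map g).prod = 1) (hH : ∀ r ∈ subs, (r.map g).prod ∈ H)
    (j u : ℕ) (hu : u < M) (h : dp_fi_13 j u = true) : Good (fa g) T MG M (cP g H) Lt.fi u := by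
  unfold dp_fi_13 at h
  rcases brec_true h with h | h
  · exact lS_good (T := T) (x := Lt.fi) (by decide) hu [Lt.bi, Lt.fi, Lt.bi, Lt.f, Lt.b, Lt.b, Lt.f, Lt.b, Lt.b, Lt.f, Lt.bi] (hole_rel hinv hr (by decide +kernel)) h
  · exact lF_good (T := T) (x := Lt.fi) (by decide) [Lt.bi, Lt.f, Lt.b, Lt.b, Lt.f, Lt.b, Lt.b, Lt.f, Lt.bi, Lt.fi, Lt.bi] (hole_rel hinv hr (by decide +kernel)) h
theorem dp_fi_14_s (hinv : ∀ x, g (inv x) = (g x)⁻¹) (hr : ∀ r ∈ rels, (r.map g).prod = 1) (hH : ∀ r ∈ subs, (r.map g).prod ∈ H)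
    (j u : ℕ) (hu : u < M) (h : dp_fi_14 j u = true) : Good (fa g) T MG M (cP g H) Lt.fi u := by
  unfold dp_fi_14 at h
  rcases brec_true h with h | h
  · exact lS_good (T := T) (x := Lt.fi) (by decide) hu [Lt.g, Lt.f, Lt.g, Lt.bi, Lt.f, Lt.b, Lt.g, Lt.fi, Lt.bi, Lt.f, Lt.b] (hole_rel hinv hr (by decide +kernel)) h
  · exact dp_fi_13_s hinv hr hH j u hu h
theorem dp_fi_15_s (hinv : ∀ x, g (inv x) = (g x)⁻¹) (hr : ∀ r ∈ rels, (r.map g).prod = 1) (hH : ∀ r ∈ subs, (r.map g).prod ∈ H)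
    (j u : ℕ) (hu : u < M) (h : dp_fi_15 j u = true) : Good (fa g) T MG M (cP g H) Lt.fi u := by
  unfold dp_fi_15 at h
  rcases brec_true h with h | h
  · exact lS_good (T := T) (x := Lt.fi) (by decide) hu [Lt.bi, Lt.bi, Lt.g, Lt.f, Lt.b, Lt.f, Lt.g, Lt.fi, Lt.gi, Lt.fi, Lt.bi] (hole_rel hinv hr (by decide +kernel)) h
  · exact lS_good (T := T) (x := Lt.fi) (by decide) hu [Lt.b, Lt.gi, Lt.fi, Lt.gi, Lt.f, Lt.bi, Lt.fi, Lt.b, Lt.f, Lt.gi, Lt.bi] (hole_rel hinv hr (by decide +kernel)) h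
theorem dp_fi_16_s (hinv : ∀ x, g (inv x) = (g x)⁻¹) (hr : ∀ r ∈ rels, (r.map g).prod = 1) (hH : ∀ r ∈ subs, (r.map g).prod ∈ H)
    (j u : ℕ) (hu : u < M) (h : dp_fi_16 j u = true) : Good (fa g) T MG M (cP g H) Lt.fi u := by
  unfold dp_fi_16 at h
  rcases brec_true h with h | h
  · exact lS_good (T := T) (x := Lt.fi) (by decide) hu [Lt.bi, Lt.bi, Lt.fi, Lt.bi, Lt.bi, Lt.fi, Lt.b, Lt.f, Lt.b, Lt.f, Lt.b] (hole_rel hinv hr (by decide +kernel)) h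
  · exact lF_good (T := T) (x := Lt.fi) (by decide) [Lt.bi, Lt.bi, Lt.g, Lt.f, Lt.b, Lt.f, Lt.g, Lt.fi, Lt.gi, Lt.fi, Lt.bi] (hole_rel hinv hr (by decide +kernel)) h
theorem dp_fi_17_s (hinv : ∀ x, g (inv x) = (g x)⁻¹) (hr : ∀ r ∈ rels, (r.map g).prod = 1) (hH : ∀ r ∈ subs, (r.map g).prod ∈ H)
    (j u : ℕ) (hu : u < M) (h : dp_fi_17 j u = true) : Good (fa g) T MG M (cP g H) Lt.fi u := by
  unfold dp_fi_17 at h
  rcases brec_true h with h | h
  · exact dp_fi_15_s hinv hr hH j u hu h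
  · exact dp_fi_16_s hinv hr hH j u hu h
theorem dp_fi_18_s (hinv : ∀ x, g (inv x) = (g x)⁻¹) (hr : ∀ r ∈ rels, (r.map g).prod = 1) (hH : ∀ r ∈ subs, (r.map g).prod ∈ H)
    (j u : ℕ) (hu : u < M) (h : dp_fi_18 j u = true) : Good (fa g) T MG M (cP g H) Lt.fi u := by
  unfold dp_fi_18 at h
  rcases brec_true h with h | h
  · exact dp_fi_14_s hinv hr hH j u hu h
  · exact dp_fi_17_s hinv hr hH j u hu h
theorem dp_fi_19_s (hinv : ∀ x, g (inv x) = (g x)⁻¹) (hr : ∀ r ∈ rels, (r.map g).prod = 1) (hH : ∀ r ∈ subs, (r.map g).prod ∈ H)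
    (j u : ℕ) (hu : u < M) (h : dp_fi_19 j u = true) : Good (fa g) T MG M (cP g H) Lt.fi u := by
  unfold dp_fi_19 at h
  rcases brec_true h with h | h
  · exact lF_good (T := T) (x := Lt.fi) (by decide) [Lt.bi, Lt.fi, Lt.bi, Lt.f, Lt.b, Lt.b, Lt.f, Lt.b, Lt.b, Lt.f, Lt.bi] (hole_rel hinv hr (by decide +kernel)) h
  · exact lS_good (T := T) (x := Lt.fi) (by decide) hu [Lt.bi, Lt.f, Lt.b, Lt.b, Lt.f, Lt.b, Lt.b, Lt.f, Lt.bi, Lt.fi, Lt.bi] (hole_rel hinv hr (by decide +kernel)) h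
theorem dp_fi_20_s (hinv : ∀ x, g (inv x) = (g x)⁻¹) (hr : ∀ r ∈ rels, (r.map g).prod = 1) (hH : ∀ r ∈ subs, (r.map g).prod ∈ H)
    (j u : ℕ) (hu : u < M) (h : dp_fi_20 j u = true) : Good (fa g) T MG M (cP g H) Lt.fi u := by
  unfold dp_fi_20 at h
  rcases brec_true h with h | h
  · exact lS_good (T := T) (x := Lt.fi) (by decide) hu [Lt.bi, Lt.bi, Lt.fi, Lt.b, Lt.f, Lt.b, Lt.f, Lt.b, Lt.fi, Lt.bi, Lt.bi] (hole_rel hinv hr (by decide +kernel)) h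
  · exact lS_good (T := T) (x := Lt.fi) (by decide) hu [Lt.b, Lt.f, Lt.b, Lt.f, Lt.b, Lt.fi, Lt.bi, Lt.bi, Lt.fi, Lt.bi, Lt.bi] (hole_rel hinv hr (by decide +kernel)) h
theorem dp_fi_21_s (hinv : ∀ x, g (inv x) = (g x)⁻¹) (hr : ∀ r ∈ rels, (r.map g).prod = 1) (hH : ∀ r ∈ subs, (r.map g).prod ∈ H)
    (j u : ℕ) (hu : u < M) (h : dp_fi_21 j u = true) : Good (fa g) T MG M (cP g H) Lt.fi u := by
  unfold dp_fi_21 at h
  rcases brec_true h with h | h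
  · exact lF_good (T := T) (x := Lt.fi) (by decide) [Lt.bi, Lt.bi, Lt.fi, Lt.b, Lt.f, Lt.b, Lt.f, Lt.b, Lt.fi, Lt.bi, Lt.bi] (hole_rel hinv hr (by decide +kernel)) h
  · exact dp_fi_20_s hinv hr hH j u hu h
theorem dp_fi_22_s (hinv : ∀ x, g (inv x) = (g x)⁻¹) (hr : ∀ r ∈ rels, (r.map g).prod = 1) (hH : ∀ r ∈ subs, (r.map g).prod ∈ H)
    (j u : ℕ) (hu : u < M) (h : dp_fi_22 j u = true) : Good (fa g) T MG M (cP g H) Lt.fi u := by
  unfold dp_fi_22 at h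
  rcases brec_true h with h | h
  · exact dp_fi_19_s hinv hr hH j u hu h
  · exact dp_fi_21_s hinv hr hH j u hu h
theorem dp_fi_23_s (hinv : ∀ x, g (inv x) = (g x)⁻¹) (hr : ∀ r ∈ rels, (r.map g).prod = 1) (hH : ∀ r ∈ subs, (r.map g).prod ∈ H)
    (j u : ℕ) (hu : u < M) (h : dp_fi_23 j u = true) : Good (fa g) T MG M (cP g H) Lt.fi u := by
  unfold dp_fi_23 at h
  rcases brec_true h with h | h
  · exact lF_good (T := T) (x := Lt.fi) (by decide) [Lt.bi, Lt.bi, Lt.fi, Lt.bi, Lt.bi, Lt.fi, Lt.b, Lt.f, Lt.b, Lt.f, Lt.b] (hole_rel hinv hr (by decide +kernel)) h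
  · exact lF_good (T := T) (x := Lt.fi) (by decide) [Lt.b, Lt.f, Lt.gi, Lt.bi, Lt.fi, Lt.b, Lt.gi, Lt.fi, Lt.gi, Lt.f, Lt.bi] (hole_rel hinv hr (by decide +kernel)) h
theorem dp_fi_24_s (hinv : ∀ x, g (inv x) = (g x)⁻¹) (hr : ∀ r ∈ rels, (r.map g).prod = 1) (hH : ∀ r ∈ subs, (r.map g).prod ∈ H)
    (j u : ℕ) (hu : u < M) (h : dp_fi_24 j u = true) : Good (fa g) T MG M (cP g H) Lt.fi u := by
  unfold dp_fi_24 at h
  rcases brec_true h with h | h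
  · exact lF_good (T := T) (x := Lt.fi) (by decide) [Lt.g, Lt.f, Lt.g, Lt.bi, Lt.f, Lt.b, Lt.g, Lt.fi, Lt.bi, Lt.f, Lt.b] (hole_rel hinv hr (by decide +kernel)) h
  · exact dp_fi_23_s hinv hr hH j u hu h
theorem dp_fi_25_s (hinv : ∀ x, g (inv x) = (g x)⁻¹) (hr : ∀ r ∈ rels, (r.map g).prod = 1) (hH : ∀ r ∈ subs, (r.map g).prod ∈ H)
    (j u : ℕ) (hu : u < M) (h : dp_fi_25 j u = true) : Good (fa g) T MG M (cP g H) Lt.fi u := by
  unfold dp_fi_25 at h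
  rcases brec_true h with h | h
  · exact lF_good (T := T) (x := Lt.fi) (by decide) [Lt.b, Lt.f, Lt.b, Lt.f, Lt.b, Lt.fi, Lt.bi, Lt.bi, Lt.fi, Lt.bi, Lt.bi] (hole_rel hinv hr (by decide +kernel)) h
  · exact lF_good (T := T) (x := Lt.fi) (by decide) [Lt.bi, Lt.f, Lt.b, Lt.fi, Lt.g, Lt.f, Lt.g, Lt.bi, Lt.f, Lt.b, Lt.g] (hole_rel hinv hr (by decide +kernel)) h
theorem dp_fi_26_s (hinv : ∀ x, g (inv x) = (g x)⁻¹) (hr : ∀ r ∈ rels, (r.map g).prod = 1) (hH : ∀ r ∈ subs, (r.map g).prod ∈ H)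
    (j u : ℕ) (hu : u < M) (h : dp_fi_26 j u = true) : Good (fa g) T MG M (cP g H) Lt.fi u := by
  unfold dp_fi_26 at h
  rcases brec_true h with h | h
  · exact lS_good (T := T) (x := Lt.fi) (by decide) hu [Lt.bi, Lt.f, Lt.b, Lt.fi, Lt.g, Lt.f, Lt.g, Lt.bi, Lt.f, Lt.b, Lt.g] (hole_rel hinv hr (by decide +kernel)) h
  · exact lS_good (T := T) (x := Lt.fi) (by decide) hu [Lt.fi, Lt.fi] (hole_rel hinv hr (by decide +kernel)) h
theorem dp_fi_27_s (hinv : ∀ x, g (inv x) = (g x)⁻¹) (hr : ∀ r ∈ rels, (r.map g).prod = 1) (hH : ∀ r ∈ subs, (r.map g).prod ∈ H)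
    (j u : ℕ) (hu : u < M) (h : dp_fi_27 j u = true) : Good (fa g) T MG M (cP g H) Lt.fi u := by
  unfold dp_fi_27 at h
  rcases brec_true h with h | h
  · exact dp_fi_25_s hinv hr hH j u hu h
  · exact dp_fi_26_s hinv hr hH j u hu h
theorem dp_fi_28_s (hinv : ∀ x, g (inv x) = (g x)⁻¹) (hr : ∀ r ∈ rels, (r.map g).prod = 1) (hH : ∀ r ∈ subs, (r.map g).prod ∈ H)
    (j u : ℕ) (hu : u < M) (h : dp_fi_28 j u = true) : Good (fa g) T MG M (cP g H) Lt.fi u := by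
  unfold dp_fi_28 at h
  rcases brec_true h with h | h
  · exact dp_fi_24_s hinv hr hH j u hu h
  · exact dp_fi_27_s hinv hr hH j u hu h
theorem dp_fi_29_s (hinv : ∀ x, g (inv x) = (g x)⁻¹) (hr : ∀ r ∈ rels, (r.map g).prod = 1) (hH : ∀ r ∈ subs, (r.map g).prod ∈ H)
    (j u : ℕ) (hu : u < M) (h : dp_fi_29 j u = true) : Good (fa g) T MG M (cP g H) Lt.fi u := by
  unfold dp_fi_29 at h
  rcases brec_true h with h | h
  · exact dp_fi_22_s hinv hr hH j u hu h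
  · exact dp_fi_28_s hinv hr hH j u hu h
theorem dp_fi_30_s (hinv : ∀ x, g (inv x) = (g x)⁻¹) (hr : ∀ r ∈ rels, (r.map g).prod = 1) (hH : ∀ r ∈ subs, (r.map g).prod ∈ H)
    (j u : ℕ) (hu : u < M) (h : dp_fi_30 j u = true) : Good (fa g) T MG M (cP g H) Lt.fi u := by
  unfold dp_fi_30 at h
  rcases brec_true h with h | h
  · exact dp_fi_18_s hinv hr hH j u hu h
  · exact dp_fi_29_s hinv hr hH j u hu h
theorem dp_fi_31_s (hinv : ∀ x, g (inv x) = (g x)⁻¹) (hr : ∀ r ∈ rels, (r.map g).prod = 1) (hH : ∀ r ∈ subs, (r.map g).prod ∈ H)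
    (j u : ℕ) (hu : u < M) (h : dp_fi_31 j u = true) : Good (fa g) T MG M (cP g H) Lt.fi u := by
  unfold dp_fi_31 at h
  rcases brec_true h with h | h
  · exact dp_fi_12_s hinv hr hH j u hu h
  · exact dp_fi_30_s hinv hr hH j u hu h
theorem dp_fi_32_s (hinv : ∀ x, g (inv x) = (g x)⁻¹) (hr : ∀ r ∈ rels, (r.map g).prod = 1) (hH : ∀ r ∈ subs, (r.map g).prod ∈ H)
    (j u : ℕ) (hu : u < M) (h : dp_fi_32 j u = true) : Good (fa g) T MG M (cP g H) Lt.fi u := by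
  unfold dp_fi_32 at h
  rcases brec_true h with h | h
  · exact dp_fi_3_s hinv hr hH j u hu h
  · exact dp_fi_31_s hinv hr hH j u hu h
theorem dp_fi_33_s (hinv : ∀ x, g (inv x) = (g x)⁻¹) (hr : ∀ r ∈ rels, (r.map g).prod = 1) (hH : ∀ r ∈ subs, (r.map g).prod ∈ H)
    (j u : ℕ) (hu : u < M) (h : dp_fi_33 j u = true) : Good (fa g) T MG M (cP g H) Lt.fi u := by
  unfold dp_fi_33 at h
  rcases brec_true h with h | h
  · exact lF3_good (T := T) (x := Lt.fi) (by decide) .n .fi .ni (hole_rel hinv hr (by decide +kernel)) h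
  · exact dp_fi_32_s hinv hr hH j u hu h
theorem dp_fi_34_s (hinv : ∀ x, g (inv x) = (g x)⁻¹) (hr : ∀ r ∈ rels, (r.map g).prod = 1) (hH : ∀ r ∈ subs, (r.map g).prod ∈ H)
    (j u : ℕ) (hu : u < M) (h : dp_fi_34 j u = true) : Good (fa g) T MG M (cP g H) Lt.fi u := by
  unfold dp_fi_34 at h
  rcases brec_true h with h | h
  · exact lF3_good (T := T) (x := Lt.fi) (by decide) .ni .fi .n (hole_rel hinv hr (by decide +kernel)) h
  · exact dp_fi_33_s hinv hr hH j u hu h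
theorem dp_fi_35_s (hinv : ∀ x, g (inv x) = (g x)⁻¹) (hr : ∀ r ∈ rels, (r.map g).prod = 1) (hH : ∀ r ∈ subs, (r.map g).prod ∈ H)
    (j u : ℕ) (hu : u < M) (h : dp_fi_35 j u = true) : Good (fa g) T MG M (cP g H) Lt.fi u := by
  unfold dp_fi_35 at h
  rcases brec_true h with h | h
  · rcases brec_true h with h | h
    · exact lPar_good (T := T) (x := Lt.fi) (x' := Lt.f) (by decide) rfl (inv_rel hinv _ _ rfl) h
    · exact lF_good (T := T) (x := Lt.fi) (by decide) [Lt.fi, Lt.fi] (hole_rel hinv hr (by decide +kernel)) h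
  · exact dp_fi_34_s hinv hr hH j u hu h
theorem snd_fi (hinv : ∀ x, g (inv x) = (g x)⁻¹) (hr : ∀ r ∈ rels, (r.map g).prod = 1) (hH : ∀ r ∈ subs, (r.map g).prod ∈ H)
    (j u : ℕ) (hu : u < M) (h : disp_fi j u = true) : Good (fa g) T MG M (cP g H) Lt.fi u := by
  unfold disp_fi at h
  rcases brec_true h with h | h
  · rcases brec_true h with h | h
    · exact lF1_good (T := T) (x := Lt.fi) (by decide) .f (hole_rel hinv hr (by decide +kernel)) h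
    · exact lDef_good (T := T) (x := Lt.fi) (by decide) rfl h
  · exact dp_fi_35_s hinv hr hH j u hu h
theorem snc_fi (hinv : ∀ x, g (inv x) = (g x)⁻¹) (hr : ∀ r ∈ rels, (r.map g).prod = 1) (hH : ∀ r ∈ subs, (r.map g).prod ∈ H)
    (j u : ℕ) (hu : u < M) (h : chk_fi j u = true) : (T Lt.fi u < A ∧ Good (fa g) T MG M (cP g H) Lt.fi u) ∨ (A ≤ T Lt.fi u ∧ MG u < A) := by
  unfold chk_fi at h
  cases hb : Nat.ble A (T_fi u) with
  | true => rw [hb] at h; exact Or.inr ⟨le_of_ble hb, le_of_ble h⟩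
  | false => rw [hb] at h; exact Or.inl ⟨lt_of_ble_false hb, snd_fi hinv hr hH j u hu h⟩
theorem dp_n_0_s (hinv : ∀ x, g (inv x) = (g x)⁻¹) (hr : ∀ r ∈ rels, (r.map g).prod = 1) (hH : ∀ r ∈ subs, (r.map g).prod ∈ H)
    (j u : ℕ) (hu : u < M) (h : dp_n_0 j u = true) : Good (fa g) T MG M (cP g H) Lt.n u := by
  unfold dp_n_0 at h
  rcases brec_true h with h | h
  · exact lF3_good (T := T) (x := Lt.n) (by decide) .f .ni .f (hole_rel hinv hr (by decide +kernel)) h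
  · exact lF3_good (T := T) (x := Lt.n) (by decide) .fi .ni .fi (hole_rel hinv hr (by decide +kernel)) h
theorem dp_n_1_s (hinv : ∀ x, g (inv x) = (g x)⁻¹) (hr : ∀ r ∈ rels, (r.map g).prod = 1) (hH : ∀ r ∈ subs, (r.map g).prod ∈ H)
    (j u : ℕ) (hu : u < M) (h : dp_n_1 j u = true) : Good (fa g) T MG M (cP g H) Lt.n u := by
  unfold dp_n_1 at h
  rcases brec_true h with h | h
  · exact lS_good (T := T) (x := Lt.n) (by decide) hu [Lt.f, Lt.ni, Lt.f] (hole_rel hinv hr (by decide +kernel)) h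
  · exact lS_good (T := T) (x := Lt.n) (by decide) hu [Lt.fi, Lt.ni, Lt.fi] (hole_rel hinv hr (by decide +kernel)) h
theorem dp_n_2_s (hinv : ∀ x, g (inv x) = (g x)⁻¹) (hr : ∀ r ∈ rels, (r.map g).prod = 1) (hH : ∀ r ∈ subs, (r.map g).prod ∈ H)
    (j u : ℕ) (hu : u < M) (h : dp_n_2 j u = true) : Good (fa g) T MG M (cP g H) Lt.n u := by
  unfold dp_n_2 at h
  rcases brec_true h with h | h
  · exact lS_good (T := T) (x := Lt.n) (by decide) hu [Lt.b, Lt.ni, Lt.bi] (hole_rel hinv hr (by decide +kernel)) h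
  · exact lS_good (T := T) (x := Lt.n) (by decide) hu [Lt.zi, Lt.n] (hole_rel hinv hr (by decide +kernel)) h
theorem dp_n_3_s (hinv : ∀ x, g (inv x) = (g x)⁻¹) (hr : ∀ r ∈ rels, (r.map g).prod = 1) (hH : ∀ r ∈ subs, (r.map g).prod ∈ H)
    (j u : ℕ) (hu : u < M) (h : dp_n_3 j u = true) : Good (fa g) T MG M (cP g H) Lt.n u := by
  unfold dp_n_3 at h
  rcases brec_true h with h | h
  · exact lS_good (T := T) (x := Lt.n) (by decide) hu [Lt.bi, Lt.ni, Lt.b] (hole_rel hinv hr (by decide +kernel)) h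
  · exact dp_n_2_s hinv hr hH j u hu h
theorem dp_n_4_s (hinv : ∀ x, g (inv x) = (g x)⁻¹) (hr : ∀ r ∈ rels, (r.map g).prod = 1) (hH : ∀ r ∈ subs, (r.map g).prod ∈ H)
    (j u : ℕ) (hu : u < M) (h : dp_n_4 j u = true) : Good (fa g) T MG M (cP g H) Lt.n u := by
  unfold dp_n_4 at h
  rcases brec_true h with h | h
  · exact dp_n_1_s hinv hr hH j u hu h
  · exact dp_n_3_s hinv hr hH j u hu h
theorem dp_n_5_s (hinv : ∀ x, g (inv x) = (g x)⁻¹) (hr : ∀ r ∈ rels, (r.map g).prod = 1) (hH : ∀ r ∈ subs, (r.map g).prod ∈ H)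
    (j u : ℕ) (hu : u < M) (h : dp_n_5 j u = true) : Good (fa g) T MG M (cP g H) Lt.n u := by
  unfold dp_n_5 at h
  rcases brec_true h with h | h
  · exact lS_good (T := T) (x := Lt.n) (by decide) hu [Lt.g, Lt.n, Lt.g, Lt.n, Lt.g] (hole_rel hinv hr (by decide +kernel)) h
  · exact dp_n_4_s hinv hr hH j u hu h
theorem dp_n_6_s (hinv : ∀ x, g (inv x) = (g x)⁻¹) (hr : ∀ r ∈ rels, (r.map g).prod = 1) (hH : ∀ r ∈ subs, (r.map g).prod ∈ H)
    (j u : ℕ) (hu : u < M) (h : dp_n_6 j u = true) : Good (fa g) T MG M (cP g H) Lt.n u := by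
  unfold dp_n_6 at h
  rcases brec_true h with h | h
  · exact lS_good (T := T) (x := Lt.n) (by decide) hu [Lt.ni] (hole_rel hinv hr (by decide +kernel)) h
  · exact dp_n_5_s hinv hr hH j u hu h
theorem dp_n_7_s (hinv : ∀ x, g (inv x) = (g x)⁻¹) (hr : ∀ r ∈ rels, (r.map g).prod = 1) (hH : ∀ r ∈ subs, (r.map g).prod ∈ H)
    (j u : ℕ) (hu : u < M) (h : dp_n_7 j u = true) : Good (fa g) T MG M (cP g H) Lt.n u := by
  unfold dp_n_7 at h
  rcases brec_true h with h | h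
  · exact lF_good (T := T) (x := Lt.n) (by decide) [Lt.g, Lt.n, Lt.g, Lt.n, Lt.g] (hole_rel hinv hr (by decide +kernel)) h
  · exact dp_n_6_s hinv hr hH j u hu h
theorem dp_n_8_s (hinv : ∀ x, g (inv x) = (g x)⁻¹) (hr : ∀ r ∈ rels, (r.map g).prod = 1) (hH : ∀ r ∈ subs, (r.map g).prod ∈ H)
    (j u : ℕ) (hu : u < M) (h : dp_n_8 j u = true) : Good (fa g) T MG M (cP g H) Lt.n u := by
  unfold dp_n_8 at h
  rcases brec_true h with h | h
  · exact lF3_good (T := T) (x := Lt.n) (by decide) .bi .ni .b (hole_rel hinv hr (by decide +kernel)) h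
  · exact dp_n_7_s hinv hr hH j u hu h
theorem dp_n_9_s (hinv : ∀ x, g (inv x) = (g x)⁻¹) (hr : ∀ r ∈ rels, (r.map g).prod = 1) (hH : ∀ r ∈ subs, (r.map g).prod ∈ H)
    (j u : ℕ) (hu : u < M) (h : dp_n_9 j u = true) : Good (fa g) T MG M (cP g H) Lt.n u := by
  unfold dp_n_9 at h
  rcases brec_true h with h | h
  · exact lF3_good (T := T) (x := Lt.n) (by decide) .b .ni .bi (hole_rel hinv hr (by decide +kernel)) h
  · exact dp_n_8_s hinv hr hH j u hu h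
theorem dp_n_10_s (hinv : ∀ x, g (inv x) = (g x)⁻¹) (hr : ∀ r ∈ rels, (r.map g).prod = 1) (hH : ∀ r ∈ subs, (r.map g).prod ∈ H)
    (j u : ℕ) (hu : u < M) (h : dp_n_10 j u = true) : Good (fa g) T MG M (cP g H) Lt.n u := by
  unfold dp_n_10 at h
  rcases brec_true h with h | h
  · exact dp_n_0_s hinv hr hH j u hu h
  · exact dp_n_9_s hinv hr hH j u hu h
theorem snd_n (hinv : ∀ x, g (inv x) = (g x)⁻¹) (hr : ∀ r ∈ rels, (r.map g).prod = 1) (hH : ∀ r ∈ subs, (r.map g).prod ∈ H)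
    (j u : ℕ) (hu : u < M) (h : disp_n j u = true) : Good (fa g) T MG M (cP g H) Lt.n u := by
  unfold disp_n at h
  rcases brec_true h with h | h
  · rcases brec_true h with h | h
    · exact lF1_good (T := T) (x := Lt.n) (by decide) .ni (hole_rel hinv hr (by decide +kernel)) h
    · exact lDef_good (T := T) (x := Lt.n) (by decide) rfl h
  · rcases brec_true h with h | h
    · rcases brec_true h with h | h
      · exact lPar_good (T := T) (x := Lt.n) (x' := Lt.ni) (by decide) rfl (inv_rel hinv _ _ rfl) h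
      · rcases brec_true h with h | h
        · exact lF_good (T := T) (x := Lt.n) (by decide) [Lt.zi, Lt.n] (hole_rel hinv hr (by decide +kernel)) h
        · exact lF_good (T := T) (x := Lt.n) (by decide) [Lt.n, Lt.zi] (hole_rel hinv hr (by decide +kernel)) h
    · exact dp_n_10_s hinv hr hH j u hu h
theorem snc_n (hinv : ∀ x, g (inv x) = (g x)⁻¹) (hr : ∀ r ∈ rels, (r.map g).prod = 1) (hH : ∀ r ∈ subs, (r.map g).prod ∈ H)
    (j u : ℕ) (hu : u < M) (h : chk_n j u = true) : (T Lt.n u < A ∧ Good (fa g) T MG M (cP g H) Lt.n u) ∨ (A ≤ T Lt.n u ∧ MG u < A) := by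
  unfold chk_n at h
  cases hb : Nat.ble A (T_n u) with
  | true => rw [hb] at h; exact Or.inr ⟨le_of_ble hb, le_of_ble h⟩
  | false => rw [hb] at h; exact Or.inl ⟨lt_of_ble_false hb, snd_n hinv hr hH j u hu h⟩
theorem dp_ni_0_s (hinv : ∀ x, g (inv x) = (g x)⁻¹) (hr : ∀ r ∈ rels, (r.map g).prod = 1) (hH : ∀ r ∈ subs, (r.map g).prod ∈ H)
    (j u : ℕ) (hu : u < M) (h : dp_ni_0 j u = true) : Good (fa g) T MG M (cP g H) Lt.ni u := by
  unfold dp_ni_0 at h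
  rcases brec_true h with h | h
  · exact lS_good (T := T) (x := Lt.ni) (by decide) hu [Lt.gi, Lt.ni, Lt.gi, Lt.ni, Lt.gi] (hole_rel hinv hr (by decide +kernel)) h
  · exact lS_good (T := T) (x := Lt.ni) (by decide) hu [Lt.f, Lt.n, Lt.f] (hole_rel hinv hr (by decide +kernel)) h
theorem dp_ni_1_s (hinv : ∀ x, g (inv x) = (g x)⁻¹) (hr : ∀ r ∈ rels, (r.map g).prod = 1) (hH : ∀ r ∈ subs, (r.map g).prod ∈ H)
    (j u : ℕ) (hu : u < M) (h : dp_ni_1 j u = true) : Good (fa g) T MG M (cP g H) Lt.ni u := by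
  unfold dp_ni_1 at h
  rcases brec_true h with h | h
  · exact lS_good (T := T) (x := Lt.ni) (by decide) hu [Lt.z, Lt.ni] (hole_rel hinv hr (by decide +kernel)) h
  · exact lS_good (T := T) (x := Lt.ni) (by decide) hu [Lt.ni, Lt.z] (hole_rel hinv hr (by decide +kernel)) h
theorem dp_ni_2_s (hinv : ∀ x, g (inv x) = (g x)⁻¹) (hr : ∀ r ∈ rels, (r.map g).prod = 1) (hH : ∀ r ∈ subs, (r.map g).prod ∈ H)
    (j u : ℕ) (hu : u < M) (h : dp_ni_2 j u = true) : Good (fa g) T MG M (cP g H) Lt.ni u := by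
  unfold dp_ni_2 at h
  rcases brec_true h with h | h
  · exact lS_good (T := T) (x := Lt.ni) (by decide) hu [Lt.b, Lt.n, Lt.bi] (hole_rel hinv hr (by decide +kernel)) h
  · exact dp_ni_1_s hinv hr hH j u hu h
theorem dp_ni_3_s (hinv : ∀ x, g (inv x) = (g x)⁻¹) (hr : ∀ r ∈ rels, (r.map g).prod = 1) (hH : ∀ r ∈ subs, (r.map g).prod ∈ H)
    (j u : ℕ) (hu : u < M) (h : dp_ni_3 j u = true) : Good (fa g) T MG M (cP g H) Lt.ni u := by
  unfold dp_ni_3 at h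
  rcases brec_true h with h | h
  · exact lS_good (T := T) (x := Lt.ni) (by decide) hu [Lt.bi, Lt.n, Lt.b] (hole_rel hinv hr (by decide +kernel)) h
  · exact dp_ni_2_s hinv hr hH j u hu h
theorem dp_ni_4_s (hinv : ∀ x, g (inv x) = (g x)⁻¹) (hr : ∀ r ∈ rels, (r.map g).prod = 1) (hH : ∀ r ∈ subs, (r.map g).prod ∈ H)
    (j u : ℕ) (hu : u < M) (h : dp_ni_4 j u = true) : Good (fa g) T MG M (cP g H) Lt.ni u := by
  unfold dp_ni_4 at h
  rcases brec_true h with h | h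
  · exact lS_good (T := T) (x := Lt.ni) (by decide) hu [Lt.fi, Lt.n, Lt.fi] (hole_rel hinv hr (by decide +kernel)) h
  · exact dp_ni_3_s hinv hr hH j u hu h
theorem dp_ni_5_s (hinv : ∀ x, g (inv x) = (g x)⁻¹) (hr : ∀ r ∈ rels, (r.map g).prod = 1) (hH : ∀ r ∈ subs, (r.map g).prod ∈ H)
    (j u : ℕ) (hu : u < M) (h : dp_ni_5 j u = true) : Good (fa g) T MG M (cP g H) Lt.ni u := by
  unfold dp_ni_5 at h
  rcases brec_true h with h | h
  · exact dp_ni_0_s hinv hr hH j u hu h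
  · exact dp_ni_4_s hinv hr hH j u hu h
theorem dp_ni_6_s (hinv : ∀ x, g (inv x) = (g x)⁻¹) (hr : ∀ r ∈ rels, (r.map g).prod = 1) (hH : ∀ r ∈ subs, (r.map g).prod ∈ H)
    (j u : ℕ) (hu : u < M) (h : dp_ni_6 j u = true) : Good (fa g) T MG M (cP g H) Lt.ni u := by
  unfold dp_ni_6 at h
  rcases brec_true h with h | h
  · exact lS_good (T := T) (x := Lt.ni) (by decide) hu [Lt.n] (hole_rel hinv hr (by decide +kernel)) h
  · exact dp_ni_5_s hinv hr hH j u hu h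
theorem dp_ni_7_s (hinv : ∀ x, g (inv x) = (g x)⁻¹) (hr : ∀ r ∈ rels, (r.map g).prod = 1) (hH : ∀ r ∈ subs, (r.map g).prod ∈ H)
    (j u : ℕ) (hu : u < M) (h : dp_ni_7 j u = true) : Good (fa g) T MG M (cP g H) Lt.ni u := by
  unfold dp_ni_7 at h
  rcases brec_true h with h | h
  · exact lF_good (T := T) (x := Lt.ni) (by decide) [Lt.gi, Lt.ni, Lt.gi, Lt.ni, Lt.gi] (hole_rel hinv hr (by decide +kernel)) h
  · exact dp_ni_6_s hinv hr hH j u hu h
theorem dp_ni_8_s (hinv : ∀ x, g (inv x) = (g x)⁻¹) (hr : ∀ r ∈ rels, (r.map g).prod = 1) (hH : ∀ r ∈ subs, (r.map g).prod ∈ H)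
    (j u : ℕ) (hu : u < M) (h : dp_ni_8 j u = true) : Good (fa g) T MG M (cP g H) Lt.ni u := by
  unfold dp_ni_8 at h
  rcases brec_true h with h | h
  · exact lF3_good (T := T) (x := Lt.ni) (by decide) .bi .n .b (hole_rel hinv hr (by decide +kernel)) h
  · exact dp_ni_7_s hinv hr hH j u hu h
theorem dp_ni_9_s (hinv : ∀ x, g (inv x) = (g x)⁻¹) (hr : ∀ r ∈ rels, (r.map g).prod = 1) (hH : ∀ r ∈ subs, (r.map g).prod ∈ H)
    (j u : ℕ) (hu : u < M) (h : dp_ni_9 j u = true) : Good (fa g) T MG M (cP g H) Lt.ni u := by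
  unfold dp_ni_9 at h
  rcases brec_true h with h | h
  · exact lF3_good (T := T) (x := Lt.ni) (by decide) .b .n .bi (hole_rel hinv hr (by decide +kernel)) h
  · exact dp_ni_8_s hinv hr hH j u hu h
theorem dp_ni_10_s (hinv : ∀ x, g (inv x) = (g x)⁻¹) (hr : ∀ r ∈ rels, (r.map g).prod = 1) (hH : ∀ r ∈ subs, (r.map g).prod ∈ H)
    (j u : ℕ) (hu : u < M) (h : dp_ni_10 j u = true) : Good (fa g) T MG M (cP g H) Lt.ni u := by
  unfold dp_ni_10 at h
  rcases brec_true h with h | h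
  · rcases brec_true h with h | h
    · exact lF3_good (T := T) (x := Lt.ni) (by decide) .f .n .f (hole_rel hinv hr (by decide +kernel)) h
    · exact lF3_good (T := T) (x := Lt.ni) (by decide) .fi .n .fi (hole_rel hinv hr (by decide +kernel)) h
  · exact dp_ni_9_s hinv hr hH j u hu h
theorem snd_ni (hinv : ∀ x, g (inv x) = (g x)⁻¹) (hr : ∀ r ∈ rels, (r.map g).prod = 1) (hH : ∀ r ∈ subs, (r.map g).prod ∈ H)
    (j u : ℕ) (hu : u < M) (h : disp_ni j u = true) : Good (fa g) T MG M (cP g H) Lt.ni u := by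
  unfold disp_ni at h
  rcases brec_true h with h | h
  · rcases brec_true h with h | h
    · exact lF1_good (T := T) (x := Lt.ni) (by decide) .n (hole_rel hinv hr (by decide +kernel)) h
    · exact lPar_good (T := T) (x := Lt.ni) (x' := Lt.n) (by decide) rfl (inv_rel hinv _ _ rfl) h
  · rcases brec_true h with h | h
    · rcases brec_true h with h | h
      · exact lDef_good (T := T) (x := Lt.ni) (by decide) rfl h
      · rcases brec_true h with h | h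
        · exact lF_good (T := T) (x := Lt.ni) (by decide) [Lt.z, Lt.ni] (hole_rel hinv hr (by decide +kernel)) h
        · exact lF_good (T := T) (x := Lt.ni) (by decide) [Lt.ni, Lt.z] (hole_rel hinv hr (by decide +kernel)) h
    · exact dp_ni_10_s hinv hr hH j u hu h
theorem snc_ni (hinv : ∀ x, g (inv x) = (g x)⁻¹) (hr : ∀ r ∈ rels, (r.map g).prod = 1) (hH : ∀ r ∈ subs, (r.map g).prod ∈ H)
    (j u : ℕ) (hu : u < M) (h : chk_ni j u = true) : (T Lt.ni u < A ∧ Good (fa g) T MG M (cP g H) Lt.ni u) ∨ (A ≤ T Lt.ni u ∧ MG u < A) := by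
  unfold chk_ni at h
  cases hb : Nat.ble A (T_ni u) with
  | true => rw [hb] at h; exact Or.inr ⟨le_of_ble hb, le_of_ble h⟩
  | false => rw [hb] at h; exact Or.inl ⟨lt_of_ble_false hb, snd_ni hinv hr hH j u hu h⟩
theorem dp_z_0_s (hinv : ∀ x, g (inv x) = (g x)⁻¹) (hr : ∀ r ∈ rels, (r.map g).prod = 1) (hH : ∀ r ∈ subs, (r.map g).prod ∈ H)
    (j u : ℕ) (hu : u < M) (h : dp_z_0 j u = true) : Good (fa g) T MG M (cP g H) Lt.z u := by
  unfold dp_z_0 at h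
  rcases brec_true h with h | h
  · exact lDef_good (T := T) (x := Lt.z) (by decide) rfl h
  · exact lS_good (T := T) (x := Lt.z) (by decide) hu [Lt.gi, Lt.zi, Lt.g] (hole_rel hinv hr (by decide +kernel)) h
theorem dp_z_1_s (hinv : ∀ x, g (inv x) = (g x)⁻¹) (hr : ∀ r ∈ rels, (r.map g).prod = 1) (hH : ∀ r ∈ subs, (r.map g).prod ∈ H)
    (j u : ℕ) (hu : u < M) (h : dp_z_1 j u = true) : Good (fa g) T MG M (cP g H) Lt.z u := by
  unfold dp_z_1 at h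
  rcases brec_true h with h | h
  · exact lPar_good (T := T) (x := Lt.z) (x' := Lt.zi) (by decide) rfl (inv_rel hinv _ _ rfl) h
  · exact lF3_good (T := T) (x := Lt.z) (by decide) .z .z .z (hole_rel hinv hr (by decide +kernel)) h
theorem dp_z_2_s (hinv : ∀ x, g (inv x) = (g x)⁻¹) (hr : ∀ r ∈ rels, (r.map g).prod = 1) (hH : ∀ r ∈ subs, (r.map g).prod ∈ H)
    (j u : ℕ) (hu : u < M) (h : dp_z_2 j u = true) : Good (fa g) T MG M (cP g H) Lt.z u := by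
  unfold dp_z_2 at h
  rcases brec_true h with h | h
  · exact lS_good (T := T) (x := Lt.z) (by decide) hu [Lt.ni, Lt.ni] (hole_rel hinv hr (by decide +kernel)) h
  · exact dp_z_1_s hinv hr hH j u hu h
theorem dp_z_3_s (hinv : ∀ x, g (inv x) = (g x)⁻¹) (hr : ∀ r ∈ rels, (r.map g).prod = 1) (hH : ∀ r ∈ subs, (r.map g).prod ∈ H)
    (j u : ℕ) (hu : u < M) (h : dp_z_3 j u = true) : Good (fa g) T MG M (cP g H) Lt.z u := by
  unfold dp_z_3 at h
  rcases brec_true h with h | h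
  · exact lS_good (T := T) (x := Lt.z) (by decide) hu [Lt.g, Lt.zi, Lt.gi] (hole_rel hinv hr (by decide +kernel)) h
  · exact dp_z_2_s hinv hr hH j u hu h
theorem dp_z_4_s (hinv : ∀ x, g (inv x) = (g x)⁻¹) (hr : ∀ r ∈ rels, (r.map g).prod = 1) (hH : ∀ r ∈ subs, (r.map g).prod ∈ H)
    (j u : ℕ) (hu : u < M) (h : dp_z_4 j u = true) : Good (fa g) T MG M (cP g H) Lt.z u := by
  unfold dp_z_4 at h
  rcases brec_true h with h | h
  · exact dp_z_0_s hinv hr hH j u hu h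
  · exact dp_z_3_s hinv hr hH j u hu h
theorem dp_z_5_s (hinv : ∀ x, g (inv x) = (g x)⁻¹) (hr : ∀ r ∈ rels, (r.map g).prod = 1) (hH : ∀ r ∈ subs, (r.map g).prod ∈ H)
    (j u : ℕ) (hu : u < M) (h : dp_z_5 j u = true) : Good (fa g) T MG M (cP g H) Lt.z u := by
  unfold dp_z_5 at h
  rcases brec_true h with h | h
  · exact lS_good (T := T) (x := Lt.z) (by decide) hu [Lt.zi] (hole_rel hinv hr (by decide +kernel)) h
  · exact dp_z_4_s hinv hr hH j u hu h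
theorem dp_z_6_s (hinv : ∀ x, g (inv x) = (g x)⁻¹) (hr : ∀ r ∈ rels, (r.map g).prod = 1) (hH : ∀ r ∈ subs, (r.map g).prod ∈ H)
    (j u : ℕ) (hu : u < M) (h : dp_z_6 j u = true) : Good (fa g) T MG M (cP g H) Lt.z u := by
  unfold dp_z_6 at h
  rcases brec_true h with h | h
  · exact lF3_good (T := T) (x := Lt.z) (by decide) .gi .zi .g (hole_rel hinv hr (by decide +kernel)) h
  · exact dp_z_5_s hinv hr hH j u hu h
theorem dp_z_7_s (hinv : ∀ x, g (inv x) = (g x)⁻¹) (hr : ∀ r ∈ rels, (r.map g).prod = 1) (hH : ∀ r ∈ subs, (r.map g).prod ∈ H)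
    (j u : ℕ) (hu : u < M) (h : dp_z_7 j u = true) : Good (fa g) T MG M (cP g H) Lt.z u := by
  unfold dp_z_7 at h
  rcases brec_true h with h | h
  · exact lF3_good (T := T) (x := Lt.z) (by decide) .g .zi .gi (hole_rel hinv hr (by decide +kernel)) h
  · exact dp_z_6_s hinv hr hH j u hu h
theorem dp_z_8_s (hinv : ∀ x, g (inv x) = (g x)⁻¹) (hr : ∀ r ∈ rels, (r.map g).prod = 1) (hH : ∀ r ∈ subs, (r.map g).prod ∈ H)
    (j u : ℕ) (hu : u < M) (h : dp_z_8 j u = true) : Good (fa g) T MG M (cP g H) Lt.z u := by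
  unfold dp_z_8 at h
  rcases brec_true h with h | h
  · exact lF_good (T := T) (x := Lt.z) (by decide) [Lt.ni, Lt.ni] (hole_rel hinv hr (by decide +kernel)) h
  · exact dp_z_7_s hinv hr hH j u hu h
theorem snd_z (hinv : ∀ x, g (inv x) = (g x)⁻¹) (hr : ∀ r ∈ rels, (r.map g).prod = 1) (hH : ∀ r ∈ subs, (r.map g).prod ∈ H)
    (j u : ℕ) (hu : u < M) (h : disp_z j u = true) : Good (fa g) T MG M (cP g H) Lt.z u := by
  unfold disp_z at h
  rcases brec_true h with h | h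
  · exact lF1_good (T := T) (x := Lt.z) (by decide) .zi (hole_rel hinv hr (by decide +kernel)) h
  · exact dp_z_8_s hinv hr hH j u hu h
theorem snc_z (hinv : ∀ x, g (inv x) = (g x)⁻¹) (hr : ∀ r ∈ rels, (r.map g).prod = 1) (hH : ∀ r ∈ subs, (r.map g).prod ∈ H)
    (j u : ℕ) (hu : u < M) (h : chk_z j u = true) : (T Lt.z u < A ∧ Good (fa g) T MG M (cP g H) Lt.z u) ∨ (A ≤ T Lt.z u ∧ MG u < A) := by
  unfold chk_z at h
  cases hb : Nat.ble A (T_z u) with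
  | true => rw [hb] at h; exact Or.inr ⟨le_of_ble hb, le_of_ble h⟩
  | false => rw [hb] at h; exact Or.inl ⟨lt_of_ble_false hb, snd_z hinv hr hH j u hu h⟩
theorem dp_zi_0_s (hinv : ∀ x, g (inv x) = (g x)⁻¹) (hr : ∀ r ∈ rels, (r.map g).prod = 1) (hH : ∀ r ∈ subs, (r.map g).prod ∈ H)
    (j u : ℕ) (hu : u < M) (h : dp_zi_0 j u = true) : Good (fa g) T MG M (cP g H) Lt.zi u := by
  unfold dp_zi_0 at h
  rcases brec_true h with h | h
  · exact lS_good (T := T) (x := Lt.zi) (by decide) hu [Lt.g, Lt.z, Lt.gi] (hole_rel hinv hr (by decide +kernel)) h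
  · exact lPar_good (T := T) (x := Lt.zi) (x' := Lt.z) (by decide) rfl (inv_rel hinv _ _ rfl) h
theorem dp_zi_1_s (hinv : ∀ x, g (inv x) = (g x)⁻¹) (hr : ∀ r ∈ rels, (r.map g).prod = 1) (hH : ∀ r ∈ subs, (r.map g).prod ∈ H)
    (j u : ℕ) (hu : u < M) (h : dp_zi_1 j u = true) : Good (fa g) T MG M (cP g H) Lt.zi u := by
  unfold dp_zi_1 at h
  rcases brec_true h with h | h
  · exact lDef_good (T := T) (x := Lt.zi) (by decide) rfl h
  · exact lF3_good (T := T) (x := Lt.zi) (by decide) .zi .zi .zi (hole_rel hinv hr (by decide +kernel)) h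
theorem dp_zi_2_s (hinv : ∀ x, g (inv x) = (g x)⁻¹) (hr : ∀ r ∈ rels, (r.map g).prod = 1) (hH : ∀ r ∈ subs, (r.map g).prod ∈ H)
    (j u : ℕ) (hu : u < M) (h : dp_zi_2 j u = true) : Good (fa g) T MG M (cP g H) Lt.zi u := by
  unfold dp_zi_2 at h
  rcases brec_true h with h | h
  · exact lS_good (T := T) (x := Lt.zi) (by decide) hu [Lt.n, Lt.n] (hole_rel hinv hr (by decide +kernel)) h
  · exact dp_zi_1_s hinv hr hH j u hu h
theorem dp_zi_3_s (hinv : ∀ x, g (inv x) = (g x)⁻¹) (hr : ∀ r ∈ rels, (r.map g).prod = 1) (hH : ∀ r ∈ subs, (r.map g).prod ∈ H)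
    (j u : ℕ) (hu : u < M) (h : dp_zi_3 j u = true) : Good (fa g) T MG M (cP g H) Lt.zi u := by
  unfold dp_zi_3 at h
  rcases brec_true h with h | h
  · exact lS_good (T := T) (x := Lt.zi) (by decide) hu [Lt.gi, Lt.z, Lt.g] (hole_rel hinv hr (by decide +kernel)) h
  · exact dp_zi_2_s hinv hr hH j u hu h
theorem dp_zi_4_s (hinv : ∀ x, g (inv x) = (g x)⁻¹) (hr : ∀ r ∈ rels, (r.map g).prod = 1) (hH : ∀ r ∈ subs, (r.map g).prod ∈ H)
    (j u : ℕ) (hu : u < M) (h : dp_zi_4 j u = true) : Good (fa g) T MG M (cP g H) Lt.zi u := by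
  unfold dp_zi_4 at h
  rcases brec_true h with h | h
  · exact dp_zi_0_s hinv hr hH j u hu h
  · exact dp_zi_3_s hinv hr hH j u hu h
theorem dp_zi_5_s (hinv : ∀ x, g (inv x) = (g x)⁻¹) (hr : ∀ r ∈ rels, (r.map g).prod = 1) (hH : ∀ r ∈ subs, (r.map g).prod ∈ H)
    (j u : ℕ) (hu : u < M) (h : dp_zi_5 j u = true) : Good (fa g) T MG M (cP g H) Lt.zi u := by
  unfold dp_zi_5 at h
  rcases brec_true h with h | h
  · exact lS_good (T := T) (x := Lt.zi) (by decide) hu [Lt.z] (hole_rel hinv hr (by decide +kernel)) h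
  · exact dp_zi_4_s hinv hr hH j u hu h
theorem dp_zi_6_s (hinv : ∀ x, g (inv x) = (g x)⁻¹) (hr : ∀ r ∈ rels, (r.map g).prod = 1) (hH : ∀ r ∈ subs, (r.map g).prod ∈ H)
    (j u : ℕ) (hu : u < M) (h : dp_zi_6 j u = true) : Good (fa g) T MG M (cP g H) Lt.zi u := by
  unfold dp_zi_6 at h
  rcases brec_true h with h | h
  · exact lF3_good (T := T) (x := Lt.zi) (by decide) .g .z .gi (hole_rel hinv hr (by decide +kernel)) h
  · rcases brec_true h with h | h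
    · exact lF3_good (T := T) (x := Lt.zi) (by decide) .gi .z .g (hole_rel hinv hr (by decide +kernel)) h
    · exact dp_zi_5_s hinv hr hH j u hu h
theorem snd_zi (hinv : ∀ x, g (inv x) = (g x)⁻¹) (hr : ∀ r ∈ rels, (r.map g).prod = 1) (hH : ∀ r ∈ subs, (r.map g).prod ∈ H)
    (j u : ℕ) (hu : u < M) (h : disp_zi j u = true) : Good (fa g) T MG M (cP g H) Lt.zi u := by
  unfold disp_zi at h
  rcases brec_true h with h | h
  · exact lF1_good (T := T) (x := Lt.zi) (by decide) .z (hole_rel hinv hr (by decide +kernel)) h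
  · rcases brec_true h with h | h
    · exact lF_good (T := T) (x := Lt.zi) (by decide) [Lt.n, Lt.n] (hole_rel hinv hr (by decide +kernel)) h
    · exact dp_zi_6_s hinv hr hH j u hu h
theorem snc_zi (hinv : ∀ x, g (inv x) = (g x)⁻¹) (hr : ∀ r ∈ rels, (r.map g).prod = 1) (hH : ∀ r ∈ subs, (r.map g).prod ∈ H)
    (j u : ℕ) (hu : u < M) (h : chk_zi j u = true) : (T Lt.zi u < A ∧ Good (fa g) T MG M (cP g H) Lt.zi u) ∨ (A ≤ T Lt.zi u ∧ MG u < A) := by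
  unfold chk_zi at h
  cases hb : Nat.ble A (T_zi u) with
  | true => rw [hb] at h; exact Or.inr ⟨le_of_ble hb, le_of_ble h⟩
  | false => rw [hb] at h; exact Or.inl ⟨lt_of_ble_false hb, snd_zi hinv hr hH j u hu h⟩
theorem dM_0_s (hinv : ∀ x, g (inv x) = (g x)⁻¹) (hr : ∀ r ∈ rels, (r.map g).prod = 1) (j z1 z2 u : ℕ) (h : dM_0 j z1 z2 u = true) : GoodM (fa g) T MG M (cP g H) u := by
  unfold dM_0 at h
  rcases brec_true h with h | h
  · rcases brec_true h with h | h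
    · exact mCo_good (T := T) (y := .z) (by decide) h
    · exact mCo_good (T := T) (y := .b) (by decide) h
  · rcases brec_true h with h | h
    · exact mCo_good (T := T) (y := .bi) (by decide) h
    · rcases brec_true h with h | h
      · exact mCo_good (T := T) (y := .g) (by decide) h
      · exact mCo_good (T := T) (y := .gi) (by decide) h
theorem dM_1_s (hinv : ∀ x, g (inv x) = (g x)⁻¹) (hr : ∀ r ∈ rels, (r.map g).prod = 1) (j z1 z2 u : ℕ) (h : dM_1 j z1 z2 u = true) : GoodM (fa g) T MG M (cP g H) u := by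
  unfold dM_1 at h
  rcases brec_true h with h | h
  · rcases brec_true h with h | h
    · exact mCo_good (T := T) (y := .n) (by decide) h
    · exact mCo_good (T := T) (y := .ni) (by decide) h
  · rcases brec_true h with h | h
    · exact mCo_good (T := T) (y := .f) (by decide) h
    · exact mCo_good (T := T) (y := .fi) (by decide) h
theorem dM_2_s (hinv : ∀ x, g (inv x) = (g x)⁻¹) (hr : ∀ r ∈ rels, (r.map g).prod = 1) (j z1 z2 u : ℕ) (h : dM_2 j z1 z2 u = true) : GoodM (fa g) T MG M (cP g H) u := by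
  unfold dM_2 at h
  rcases brec_true h with h | h
  · rcases brec_true h with h | h
    · exact mRel_good (T := T) (by decide) [Lt.f, Lt.ni] [Lt.ni, Lt.fi] (pair_rel hinv hr (by decide +kernel)) h
    · rcases brec_true h with h | h
      · exact mRel_good (T := T) (by decide) [Lt.bi, Lt.ni] [Lt.ni, Lt.bi] (pair_rel hinv hr (by decide +kernel)) h
      · exact mRel_good (T := T) (by decide) [Lt.b, Lt.n] [Lt.n, Lt.b] (pair_rel hinv hr (by decide +kernel)) h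
  · rcases brec_true h with h | h
    · rcases brec_true h with h | h
      · exact mRel_good (T := T) (by decide) [Lt.gi, Lt.b, Lt.g] [Lt.b, Lt.b, Lt.b] (pair_rel hinv hr (by decide +kernel)) h
      · exact mRel_good (T := T) (by decide) [Lt.gi, Lt.bi, Lt.g] [Lt.bi, Lt.bi, Lt.bi] (pair_rel hinv hr (by decide +kernel)) h
    · rcases brec_true h with h | h
      · exact mRel_good (T := T) (by decide) [Lt.bi, Lt.n, Lt.b] [Lt.n] (pair_rel hinv hr (by decide +kernel)) h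
      · rcases brec_true h with h | h
        · exact mRel_good (T := T) (by decide) [Lt.bi, Lt.ni, Lt.b] [Lt.ni] (pair_rel hinv hr (by decide +kernel)) h
        · exact mRel_good (T := T) (by decide) [Lt.b, Lt.n, Lt.bi] [Lt.n] (pair_rel hinv hr (by decide +kernel)) h
theorem dM_3_s (hinv : ∀ x, g (inv x) = (g x)⁻¹) (hr : ∀ r ∈ rels, (r.map g).prod = 1) (j z1 z2 u : ℕ) (h : dM_3 j z1 z2 u = true) : GoodM (fa g) T MG M (cP g H) u := by
  unfold dM_3 at h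
  rcases brec_true h with h | h
  · rcases brec_true h with h | h
    · rcases brec_true h with h | h
      · exact mRel_good (T := T) (by decide) [Lt.g, Lt.b, Lt.b, Lt.b, Lt.gi] [Lt.b] (pair_rel hinv hr (by decide +kernel)) h
      · exact mRel_good (T := T) (by decide) [Lt.b, Lt.ni, Lt.bi] [Lt.ni] (pair_rel hinv hr (by decide +kernel)) h
    · rcases brec_true h with h | h
      · exact mRel_good (T := T) (by decide) [Lt.g, Lt.b, Lt.b, Lt.b] [Lt.b, Lt.g] (pair_rel hinv hr (by decide +kernel)) h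
      · exact mRel_good (T := T) (by decide) [Lt.bi, Lt.gi] [Lt.b, Lt.b, Lt.gi, Lt.bi] (pair_rel hinv hr (by decide +kernel)) h
  · rcases brec_true h with h | h
    · rcases brec_true h with h | h
      · exact mRel_good (T := T) (by decide) [Lt.g, Lt.bi, Lt.bi, Lt.bi, Lt.gi] [Lt.bi] (pair_rel hinv hr (by decide +kernel)) h
      · exact mRel_good (T := T) (by decide) [Lt.f, Lt.ni, Lt.f] [Lt.ni] (pair_rel hinv hr (by decide +kernel)) h
    · rcases brec_true h with h | h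
      · exact mRel_good (T := T) (by decide) [Lt.fi, Lt.n] [Lt.n, Lt.f] (pair_rel hinv hr (by decide +kernel)) h
      · exact mRel_good (T := T) (by decide) [Lt.b, Lt.b, Lt.gi, Lt.bi] [Lt.bi, Lt.gi] (pair_rel hinv hr (by decide +kernel)) h
theorem dM_4_s (hinv : ∀ x, g (inv x) = (g x)⁻¹) (hr : ∀ r ∈ rels, (r.map g).prod = 1) (j z1 z2 u : ℕ) (h : dM_4 j z1 z2 u = true) : GoodM (fa g) T MG M (cP g H) u := by
  unfold dM_4 at h
  rcases brec_true h with h | h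
  · rcases brec_true h with h | h
    · rcases brec_true h with h | h
      · exact mRel_good (T := T) (by decide) [Lt.g, Lt.bi, Lt.bi, Lt.bi] [Lt.bi, Lt.g] (pair_rel hinv hr (by decide +kernel)) h
      · exact mRel_good (T := T) (by decide) [Lt.gi, Lt.b] [Lt.b, Lt.b, Lt.b, Lt.gi] (pair_rel hinv hr (by decide +kernel)) h
    · rcases brec_true h with h | h
      · exact mRel_good (T := T) (by decide) [Lt.b, Lt.b, Lt.gi] [Lt.bi, Lt.gi, Lt.b] (pair_rel hinv hr (by decide +kernel)) h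
      · rcases brec_true h with h | h
        · exact mRel_good (T := T) (by decide) [Lt.bi, Lt.bi, Lt.gi] [Lt.b, Lt.gi, Lt.bi] (pair_rel hinv hr (by decide +kernel)) h
        · exact mRel_good (T := T) (by decide) [Lt.b, Lt.b, Lt.b, Lt.gi] [Lt.gi, Lt.b] (pair_rel hinv hr (by decide +kernel)) h
  · rcases brec_true h with h | h
    · rcases brec_true h with h | h
      · exact mRel_good (T := T) (by decide) [Lt.b, Lt.b, Lt.b] [Lt.gi, Lt.b, Lt.g] (pair_rel hinv hr (by decide +kernel)) h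
      · rcases brec_true h with h | h
        · exact mRel_good (T := T) (by decide) [Lt.fi, Lt.n, Lt.fi] [Lt.n] (pair_rel hinv hr (by decide +kernel)) h
        · exact mRel_good (T := T) (by decide) [Lt.b, Lt.ni] [Lt.ni, Lt.b] (pair_rel hinv hr (by decide +kernel)) h
    · rcases brec_true h with h | h
      · exact mRel_good (T := T) (by decide) [Lt.g, Lt.n, Lt.g, Lt.n, Lt.g] [Lt.ni] (pair_rel hinv hr (by decide +kernel)) h
      · rcases brec_true h with h | h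
        · exact mRel_good (T := T) (by decide) [Lt.gi, Lt.z, Lt.g] [Lt.z] (pair_rel hinv hr (by decide +kernel)) h
        · exact mRel_good (T := T) (by decide) [Lt.bi, Lt.n] [Lt.n, Lt.bi] (pair_rel hinv hr (by decide +kernel)) h
theorem dM_5_s (hinv : ∀ x, g (inv x) = (g x)⁻¹) (hr : ∀ r ∈ rels, (r.map g).prod = 1) (j z1 z2 u : ℕ) (h : dM_5 j z1 z2 u = true) : GoodM (fa g) T MG M (cP g H) u := by
  unfold dM_5 at h
  rcases brec_true h with h | h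
  · exact dM_3_s hinv hr j z1 z2 u h
  · exact dM_4_s hinv hr j z1 z2 u h
theorem dM_6_s (hinv : ∀ x, g (inv x) = (g x)⁻¹) (hr : ∀ r ∈ rels, (r.map g).prod = 1) (j z1 z2 u : ℕ) (h : dM_6 j z1 z2 u = true) : GoodM (fa g) T MG M (cP g H) u := by
  unfold dM_6 at h
  rcases brec_true h with h | h
  · exact dM_2_s hinv hr j z1 z2 u h
  · exact dM_5_s hinv hr j z1 z2 u h
theorem dM_7_s (hinv : ∀ x, g (inv x) = (g x)⁻¹) (hr : ∀ r ∈ rels, (r.map g).prod = 1) (j z1 z2 u : ℕ) (h : dM_7 j z1 z2 u = true) : GoodM (fa g) T MG M (cP g H) u := by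
  unfold dM_7 at h
  rcases brec_true h with h | h
  · rcases brec_true h with h | h
    · rcases brec_true h with h | h
      · exact mRel_good (T := T) (by decide) [Lt.bi, Lt.bi, Lt.gi, Lt.b] [Lt.b, Lt.gi] (pair_rel hinv hr (by decide +kernel)) h
      · exact mRel_good (T := T) (by decide) [Lt.b, Lt.gi, Lt.bi] [Lt.bi, Lt.bi, Lt.gi] (pair_rel hinv hr (by decide +kernel)) h
    · rcases brec_true h with h | h
      · exact mRel_good (T := T) (by decide) [Lt.b, Lt.b] [Lt.bi, Lt.gi, Lt.b, Lt.g] (pair_rel hinv hr (by decide +kernel)) h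
      · exact mRel_good (T := T) (by decide) [Lt.gi, Lt.ni, Lt.gi, Lt.ni, Lt.gi] [Lt.n] (pair_rel hinv hr (by decide +kernel)) h
  · rcases brec_true h with h | h
    · rcases brec_true h with h | h
      · exact mRel_good (T := T) (by decide) [Lt.bi, Lt.gi, Lt.b, Lt.g] [Lt.b, Lt.b] (pair_rel hinv hr (by decide +kernel)) h
      · exact mRel_good (T := T) (by decide) [Lt.gi, Lt.bi] [Lt.bi, Lt.bi, Lt.bi, Lt.gi] (pair_rel hinv hr (by decide +kernel)) h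
    · rcases brec_true h with h | h
      · exact mRel_good (T := T) (by decide) [Lt.bi, Lt.bi, Lt.bi, Lt.gi] [Lt.gi, Lt.bi] (pair_rel hinv hr (by decide +kernel)) h
      · exact mRel_good (T := T) (by decide) [Lt.bi, Lt.bi] [Lt.b, Lt.gi, Lt.bi, Lt.g] (pair_rel hinv hr (by decide +kernel)) h
theorem dM_8_s (hinv : ∀ x, g (inv x) = (g x)⁻¹) (hr : ∀ r ∈ rels, (r.map g).prod = 1) (j z1 z2 u : ℕ) (h : dM_8 j z1 z2 u = true) : GoodM (fa g) T MG M (cP g H) u := by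
  unfold dM_8 at h
  rcases brec_true h with h | h
  · rcases brec_true h with h | h
    · exact mRel_good (T := T) (by decide) [Lt.f, Lt.n, Lt.f] [Lt.n] (pair_rel hinv hr (by decide +kernel)) h
    · rcases brec_true h with h | h
      · exact mRel_good (T := T) (by decide) [Lt.gi, Lt.ni, Lt.gi] [Lt.n, Lt.g, Lt.n] (pair_rel hinv hr (by decide +kernel)) h
      · exact mRel_good (T := T) (by decide) [Lt.bi, Lt.bi, Lt.bi] [Lt.gi, Lt.bi, Lt.g] (pair_rel hinv hr (by decide +kernel)) h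
  · rcases brec_true h with h | h
    · exact mCo_good (T := T) (y := .zi) (by decide) h
    · rcases brec_true h with h | h
      · exact mRel_good (T := T) (by decide) [Lt.n, Lt.g, Lt.n, Lt.g] [Lt.gi, Lt.ni] (pair_rel hinv hr (by decide +kernel)) h
      · exact mRel_good (T := T) (by decide) [Lt.gi, Lt.b, Lt.g, Lt.bi] [Lt.b, Lt.b] (pair_rel hinv hr (by decide +kernel)) h
theorem dM_9_s (hinv : ∀ x, g (inv x) = (g x)⁻¹) (hr : ∀ r ∈ rels, (r.map g).prod = 1) (j z1 z2 u : ℕ) (h : dM_9 j z1 z2 u = true) : GoodM (fa g) T MG M (cP g H) u := by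
  unfold dM_9 at h
  rcases brec_true h with h | h
  · rcases brec_true h with h | h
    · exact mRel_good (T := T) (by decide) [Lt.bi, Lt.bi, Lt.bi, Lt.gi, Lt.b] [Lt.gi] (pair_rel hinv hr (by decide +kernel)) h
    · rcases brec_true h with h | h
      · exact mRel_good (T := T) (by decide) [Lt.b, Lt.gi] [Lt.bi, Lt.bi, Lt.gi, Lt.b] (pair_rel hinv hr (by decide +kernel)) h
      · exact mRel_good (T := T) (by decide) [Lt.fi, Lt.ni] [Lt.ni, Lt.f] (pair_rel hinv hr (by decide +kernel)) h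
  · rcases brec_true h with h | h
    · rcases brec_true h with h | h
      · exact mRel_good (T := T) (by decide) [Lt.b, Lt.gi, Lt.bi, Lt.g] [Lt.bi, Lt.bi] (pair_rel hinv hr (by decide +kernel)) h
      · exact mRel_good (T := T) (by decide) [Lt.b, Lt.b, Lt.b, Lt.gi, Lt.bi] [Lt.gi] (pair_rel hinv hr (by decide +kernel)) h
    · rcases brec_true h with h | h
      · exact mRel_good (T := T) (by decide) [Lt.g, Lt.f, Lt.b, Lt.f, Lt.g] [Lt.b, Lt.b, Lt.f, Lt.b, Lt.f, Lt.g, Lt.f] (pair_rel hinv hr (by decide +kernel)) h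
      · exact mRel_good (T := T) (by decide) [Lt.b, Lt.b, Lt.gi, Lt.bi, Lt.g] [Lt.bi] (pair_rel hinv hr (by decide +kernel)) h
theorem dM_10_s (hinv : ∀ x, g (inv x) = (g x)⁻¹) (hr : ∀ r ∈ rels, (r.map g).prod = 1) (j z1 z2 u : ℕ) (h : dM_10 j z1 z2 u = true) : GoodM (fa g) T MG M (cP g H) u := by
  unfold dM_10 at h
  rcases brec_true h with h | h
  · exact dM_8_s hinv hr j z1 z2 u h
  · exact dM_9_s hinv hr j z1 z2 u h
theorem dM_11_s (hinv : ∀ x, g (inv x) = (g x)⁻¹) (hr : ∀ r ∈ rels, (r.map g).prod = 1) (j z1 z2 u : ℕ) (h : dM_11 j z1 z2 u = true) : GoodM (fa g) T MG M (cP g H) u := by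
  unfold dM_11 at h
  rcases brec_true h with h | h
  · exact dM_7_s hinv hr j z1 z2 u h
  · exact dM_10_s hinv hr j z1 z2 u h
theorem dM_12_s (hinv : ∀ x, g (inv x) = (g x)⁻¹) (hr : ∀ r ∈ rels, (r.map g).prod = 1) (j z1 z2 u : ℕ) (h : dM_12 j z1 z2 u = true) : GoodM (fa g) T MG M (cP g H) u := by
  unfold dM_12 at h
  rcases brec_true h with h | h
  · rcases brec_true h with h | h
    · rcases brec_true h with h | h
      · exact mRel_good (T := T) (by decide) [Lt.b, Lt.g, Lt.bi, Lt.bi, Lt.bi] [Lt.g] (pair_rel hinv hr (by decide +kernel)) h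
      · exact mRel_good (T := T) (by decide) [Lt.gi] [Lt.bi, Lt.f, Lt.b, Lt.g, Lt.fi, Lt.bi, Lt.f, Lt.b, Lt.fi, Lt.g, Lt.f] (pair_rel hinv hr (by decide +kernel)) h
    · rcases brec_true h with h | h
      · exact mRel_good (T := T) (by decide) [Lt.g, Lt.zi] [Lt.zi, Lt.g] (pair_rel hinv hr (by decide +kernel)) h
      · rcases brec_true h with h | h
        · exact mRel_good (T := T) (by decide) [Lt.bi, Lt.g] [Lt.g, Lt.bi, Lt.bi, Lt.bi] (pair_rel hinv hr (by decide +kernel)) h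
        · exact mRel_good (T := T) (by decide) [Lt.bi, Lt.fi, Lt.gi, Lt.b, Lt.b, Lt.f, Lt.b, Lt.f, Lt.g, Lt.f, Lt.gi] [Lt.f] (pair_rel hinv hr (by decide +kernel)) h
  · rcases brec_true h with h | h
    · rcases brec_true h with h | h
      · exact mRel_good (T := T) (by decide) [Lt.gi, Lt.ni] [Lt.n, Lt.g, Lt.n, Lt.g] (pair_rel hinv hr (by decide +kernel)) h
      · exact mRel_good (T := T) (by decide) [Lt.g, Lt.f, Lt.b, Lt.f] [Lt.b, Lt.b, Lt.f, Lt.b, Lt.f, Lt.g, Lt.f, Lt.gi] (pair_rel hinv hr (by decide +kernel)) h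
    · rcases brec_true h with h | h
      · exact mRel_good (T := T) (by decide) [Lt.gi, Lt.bi] [Lt.fi, Lt.bi, Lt.f, Lt.b, Lt.fi, Lt.g, Lt.f, Lt.g, Lt.bi, Lt.f] (pair_rel hinv hr (by decide +kernel)) h
      · rcases brec_true h with h | h
        · exact mRel_good (T := T) (by decide) [Lt.g, Lt.bi] [Lt.bi, Lt.g, Lt.b, Lt.b] (pair_rel hinv hr (by decide +kernel)) h
        · exact mRel_good (T := T) (by decide) [Lt.g, Lt.zi, Lt.gi] [Lt.zi] (pair_rel hinv hr (by decide +kernel)) h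
theorem dM_13_s (hinv : ∀ x, g (inv x) = (g x)⁻¹) (hr : ∀ r ∈ rels, (r.map g).prod = 1) (j z1 z2 u : ℕ) (h : dM_13 j z1 z2 u = true) : GoodM (fa g) T MG M (cP g H) u := by
  unfold dM_13 at h
  rcases brec_true h with h | h
  · rcases brec_true h with h | h
    · rcases brec_true h with h | h
      · exact mRel_good (T := T) (by decide) [Lt.bi, Lt.bi] [Lt.gi, Lt.bi, Lt.g, Lt.b] (pair_rel hinv hr (by decide +kernel)) h
      · exact mRel_good (T := T) (by decide) [Lt.gi, Lt.z] [Lt.z, Lt.gi] (pair_rel hinv hr (by decide +kernel)) h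
    · rcases brec_true h with h | h
      · exact mRel_good (T := T) (by decide) [Lt.b, Lt.g] [Lt.g, Lt.b, Lt.b, Lt.b] (pair_rel hinv hr (by decide +kernel)) h
      · rcases brec_true h with h | h
        · exact mRel_good (T := T) (by decide) [Lt.gi] [Lt.fi, Lt.gi, Lt.fi, Lt.bi, Lt.fi, Lt.bi, Lt.bi, Lt.g, Lt.f, Lt.b, Lt.f] (pair_rel hinv hr (by decide +kernel)) h
        · exact mRel_good (T := T) (by decide) [Lt.bi] [Lt.gi, Lt.fi, Lt.gi, Lt.f, Lt.bi, Lt.fi, Lt.b, Lt.f, Lt.gi, Lt.bi, Lt.fi] (pair_rel hinv hr (by decide +kernel)) h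
  · rcases brec_true h with h | h
    · rcases brec_true h with h | h
      · exact mRel_good (T := T) (by decide) [Lt.gi] [Lt.f, Lt.g, Lt.bi, Lt.f, Lt.b, Lt.g, Lt.fi, Lt.bi, Lt.f, Lt.b, Lt.fi] (pair_rel hinv hr (by decide +kernel)) h
      · exact mRel_good (T := T) (by decide) [Lt.gi, Lt.fi] [Lt.fi, Lt.gi, Lt.fi, Lt.bi, Lt.fi, Lt.bi, Lt.bi, Lt.g, Lt.f, Lt.b] (pair_rel hinv hr (by decide +kernel)) h
    · rcases brec_true h with h | h
      · exact mRel_good (T := T) (by decide) [Lt.b, Lt.b, Lt.f, Lt.b, Lt.f, Lt.g, Lt.f] [Lt.g, Lt.f, Lt.b, Lt.f, Lt.g] (pair_rel hinv hr (by decide +kernel)) h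
      · rcases brec_true h with h | h
        · exact mRel_good (T := T) (by decide) [Lt.g, Lt.f] [Lt.fi, Lt.bi, Lt.fi, Lt.bi, Lt.bi, Lt.g, Lt.f, Lt.b, Lt.f, Lt.g] (pair_rel hinv hr (by decide +kernel)) h
        · exact mRel_good (T := T) (by decide) [Lt.g, Lt.n, Lt.g] [Lt.ni, Lt.gi, Lt.ni] (pair_rel hinv hr (by decide +kernel)) h
theorem dM_14_s (hinv : ∀ x, g (inv x) = (g x)⁻¹) (hr : ∀ r ∈ rels, (r.map g).prod = 1) (j z1 z2 u : ℕ) (h : dM_14 j z1 z2 u = true) : GoodM (fa g) T MG M (cP g H) u := by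
  unfold dM_14 at h
  rcases brec_true h with h | h
  · exact dM_12_s hinv hr j z1 z2 u h
  · exact dM_13_s hinv hr j z1 z2 u h
theorem dM_15_s (hinv : ∀ x, g (inv x) = (g x)⁻¹) (hr : ∀ r ∈ rels, (r.map g).prod = 1) (j z1 z2 u : ℕ) (h : dM_15 j z1 z2 u = true) : GoodM (fa g) T MG M (cP g H) u := by
  unfold dM_15 at h
  rcases brec_true h with h | h
  · rcases brec_true h with h | h
    · exact mRel_good (T := T) (by decide) [Lt.ni, Lt.gi, Lt.ni, Lt.gi, Lt.ni] [Lt.g] (pair_rel hinv hr (by decide +kernel)) h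
    · rcases brec_true h with h | h
      · exact mRel_good (T := T) (by decide) [Lt.bi, Lt.bi, Lt.g, Lt.f, Lt.b, Lt.f, Lt.g] [Lt.f, Lt.b, Lt.f, Lt.g, Lt.f] (pair_rel hinv hr (by decide +kernel)) h
      · exact mRel_good (T := T) (by decide) [Lt.g, Lt.fi, Lt.gi, Lt.fi, Lt.bi, Lt.fi, Lt.bi, Lt.bi, Lt.g] [Lt.fi, Lt.bi, Lt.fi] (pair_rel hinv hr (by decide +kernel)) h
  · rcases brec_true h with h | h
    · rcases brec_true h with h | h
      · exact mRel_good (T := T) (by decide) [Lt.b, Lt.f, Lt.gi, Lt.bi, Lt.fi, Lt.b, Lt.gi] [Lt.f, Lt.b, Lt.fi, Lt.g, Lt.f] (pair_rel hinv hr (by decide +kernel)) h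
      · exact mRel_good (T := T) (by decide) [Lt.ni, Lt.gi] [Lt.g, Lt.n, Lt.g, Lt.n] (pair_rel hinv hr (by decide +kernel)) h
    · rcases brec_true h with h | h
      · exact mRel_good (T := T) (by decide) [Lt.bi, Lt.gi, Lt.b] [Lt.b, Lt.b, Lt.gi] (pair_rel hinv hr (by decide +kernel)) h
      · exact mRel_good (T := T) (by decide) [Lt.n, Lt.n] [Lt.z] (pair_rel hinv hr (by decide +kernel)) h
theorem dM_16_s (hinv : ∀ x, g (inv x) = (g x)⁻¹) (hr : ∀ r ∈ rels, (r.map g).prod = 1) (j z1 z2 u : ℕ) (h : dM_16 j z1 z2 u = true) : GoodM (fa g) T MG M (cP g H) u := by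
  unfold dM_16 at h
  rcases brec_true h with h | h
  · rcases brec_true h with h | h
    · exact mRel_good (T := T) (by decide) [Lt.bi, Lt.bi, Lt.bi, Lt.gi, Lt.b, Lt.g] [] (pair_rel hinv hr (by decide +kernel)) h
    · rcases brec_true h with h | h
      · exact mRel_good (T := T) (by decide) [Lt.b, Lt.f, Lt.b, Lt.fi] [Lt.fi, Lt.bi, Lt.f, Lt.b, Lt.b, Lt.f, Lt.b, Lt.b] (pair_rel hinv hr (by decide +kernel)) h
      · exact mRel_good (T := T) (by decide) [Lt.b, Lt.g, Lt.bi, Lt.bi, Lt.bi, Lt.gi] [] (pair_rel hinv hr (by decide +kernel)) h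
  · rcases brec_true h with h | h
    · rcases brec_true h with h | h
      · exact mRel_good (T := T) (by decide) [Lt.b] [Lt.f, Lt.b, Lt.g, Lt.fi, Lt.bi, Lt.f, Lt.b, Lt.fi, Lt.g, Lt.f, Lt.g] (pair_rel hinv hr (by decide +kernel)) h
      · exact mRel_good (T := T) (by decide) [Lt.bi, Lt.bi, Lt.fi, Lt.bi, Lt.bi, Lt.fi, Lt.b] [Lt.f, Lt.bi, Lt.fi, Lt.bi, Lt.fi] (pair_rel hinv hr (by decide +kernel)) h
    · rcases brec_true h with h | h
      · exact mRel_good (T := T) (by decide) [Lt.gi, Lt.bi, Lt.g, Lt.b] [Lt.bi, Lt.bi] (pair_rel hinv hr (by decide +kernel)) h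
      · exact mRel_good (T := T) (by decide) [Lt.b, Lt.b, Lt.b, Lt.gi, Lt.bi, Lt.g] [] (pair_rel hinv hr (by decide +kernel)) h
theorem dM_17_s (hinv : ∀ x, g (inv x) = (g x)⁻¹) (hr : ∀ r ∈ rels, (r.map g).prod = 1) (j z1 z2 u : ℕ) (h : dM_17 j z1 z2 u = true) : GoodM (fa g) T MG M (cP g H) u := by
  unfold dM_17 at h
  rcases brec_true h with h | h
  · exact dM_15_s hinv hr j z1 z2 u h
  · exact dM_16_s hinv hr j z1 z2 u h
theorem dM_18_s (hinv : ∀ x, g (inv x) = (g x)⁻¹) (hr : ∀ r ∈ rels, (r.map g).prod = 1) (j z1 z2 u : ℕ) (h : dM_18 j z1 z2 u = true) : GoodM (fa g) T MG M (cP g H) u := by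
  unfold dM_18 at h
  rcases brec_true h with h | h
  · rcases brec_true h with h | h
    · exact mRel_good (T := T) (by decide) [Lt.g, Lt.n, Lt.g, Lt.n] [Lt.ni, Lt.gi] (pair_rel hinv hr (by decide +kernel)) h
    · rcases brec_true h with h | h
      · exact mRel_good (T := T) (by decide) [Lt.gi, Lt.f, Lt.bi] [Lt.f, Lt.g, Lt.bi, Lt.f, Lt.b, Lt.g, Lt.fi, Lt.bi, Lt.f] (pair_rel hinv hr (by decide +kernel)) h
      · exact mRel_good (T := T) (by decide) [Lt.f, Lt.n] [Lt.n, Lt.fi] (pair_rel hinv hr (by decide +kernel)) h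
  · rcases brec_true h with h | h
    · rcases brec_true h with h | h
      · exact mRel_good (T := T) (by decide) [Lt.b, Lt.gi, Lt.bi, Lt.g, Lt.b] [Lt.bi] (pair_rel hinv hr (by decide +kernel)) h
      · exact mRel_good (T := T) (by decide) [Lt.g] [Lt.f, Lt.bi, Lt.fi, Lt.b, Lt.f, Lt.gi, Lt.bi, Lt.fi, Lt.b, Lt.gi, Lt.fi] (pair_rel hinv hr (by decide +kernel)) h
    · rcases brec_true h with h | h
      · exact mRel_good (T := T) (by decide) [Lt.f] [Lt.gi, Lt.fi, Lt.bi, Lt.fi, Lt.bi, Lt.bi, Lt.g, Lt.f, Lt.b, Lt.f, Lt.g] (pair_rel hinv hr (by decide +kernel)) h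
      · exact mRel_good (T := T) (by decide) [Lt.gi] [Lt.f, Lt.b, Lt.f, Lt.g, Lt.fi, Lt.gi, Lt.fi, Lt.bi, Lt.fi, Lt.bi, Lt.bi] (pair_rel hinv hr (by decide +kernel)) h
theorem dM_19_s (hinv : ∀ x, g (inv x) = (g x)⁻¹) (hr : ∀ r ∈ rels, (r.map g).prod = 1) (j z1 z2 u : ℕ) (h : dM_19 j z1 z2 u = true) : GoodM (fa g) T MG M (cP g H) u := by
  unfold dM_19 at h
  rcases brec_true h with h | h
  · rcases brec_true h with h | h
    · rcases brec_true h with h | h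
      · exact mRel_good (T := T) (by decide) [Lt.b, Lt.gi, Lt.fi, Lt.gi, Lt.f, Lt.bi, Lt.fi, Lt.b, Lt.f] [Lt.f, Lt.b, Lt.g] (pair_rel hinv hr (by decide +kernel)) h
      · exact mRel_good (T := T) (by decide) [Lt.b] [Lt.bi, Lt.bi, Lt.gi, Lt.b, Lt.g] (pair_rel hinv hr (by decide +kernel)) h
    · rcases brec_true h with h | h
      · exact mRel_good (T := T) (by decide) [Lt.bi, Lt.bi, Lt.fi, Lt.b, Lt.f, Lt.b, Lt.f, Lt.b] [Lt.f, Lt.b, Lt.b, Lt.f] (pair_rel hinv hr (by decide +kernel)) h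
      · exact mRel_good (T := T) (by decide) [Lt.n, Lt.bi, Lt.ni] [Lt.bi] (pair_rel hinv hr (by decide +kernel)) h
  · rcases brec_true h with h | h
    · rcases brec_true h with h | h
      · exact mRel_good (T := T) (by decide) [Lt.g, Lt.f] [Lt.f, Lt.bi, Lt.fi, Lt.b, Lt.f, Lt.gi, Lt.bi, Lt.fi, Lt.b, Lt.gi] (pair_rel hinv hr (by decide +kernel)) h
      · exact mRel_good (T := T) (by decide) [Lt.fi, Lt.bi, Lt.fi] [Lt.g, Lt.fi, Lt.gi, Lt.fi, Lt.bi, Lt.fi, Lt.bi, Lt.bi, Lt.g] (pair_rel hinv hr (by decide +kernel)) h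
    · rcases brec_true h with h | h
      · exact mRel_good (T := T) (by decide) [Lt.g, Lt.f, Lt.g] [Lt.f, Lt.bi, Lt.fi, Lt.b, Lt.f, Lt.gi, Lt.bi, Lt.fi, Lt.b] (pair_rel hinv hr (by decide +kernel)) h
      · rcases brec_true h with h | h
        · exact mRel_good (T := T) (by decide) [Lt.bi, Lt.bi, Lt.g, Lt.f, Lt.b, Lt.f, Lt.g, Lt.fi] [Lt.f, Lt.b, Lt.f, Lt.g] (pair_rel hinv hr (by decide +kernel)) h
        · exact mRel_good (T := T) (by decide) [Lt.f, Lt.b, Lt.f, Lt.g, Lt.fi, Lt.gi, Lt.fi, Lt.bi, Lt.fi, Lt.bi, Lt.bi, Lt.g] [] (pair_rel hinv hr (by decide +kernel)) h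
theorem dM_20_s (hinv : ∀ x, g (inv x) = (g x)⁻¹) (hr : ∀ r ∈ rels, (r.map g).prod = 1) (j z1 z2 u : ℕ) (h : dM_20 j z1 z2 u = true) : GoodM (fa g) T MG M (cP g H) u := by
  unfold dM_20 at h
  rcases brec_true h with h | h
  · exact dM_18_s hinv hr j z1 z2 u h
  · exact dM_19_s hinv hr j z1 z2 u h
theorem dM_21_s (hinv : ∀ x, g (inv x) = (g x)⁻¹) (hr : ∀ r ∈ rels, (r.map g).prod = 1) (j z1 z2 u : ℕ) (h : dM_21 j z1 z2 u = true) : GoodM (fa g) T MG M (cP g H) u := by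
  unfold dM_21 at h
  rcases brec_true h with h | h
  · exact dM_17_s hinv hr j z1 z2 u h
  · exact dM_20_s hinv hr j z1 z2 u h
theorem dM_22_s (hinv : ∀ x, g (inv x) = (g x)⁻¹) (hr : ∀ r ∈ rels, (r.map g).prod = 1) (j z1 z2 u : ℕ) (h : dM_22 j z1 z2 u = true) : GoodM (fa g) T MG M (cP g H) u := by
  unfold dM_22 at h
  rcases brec_true h with h | h
  · exact dM_14_s hinv hr j z1 z2 u h
  · exact dM_21_s hinv hr j z1 z2 u h
theorem dM_23_s (hinv : ∀ x, g (inv x) = (g x)⁻¹) (hr : ∀ r ∈ rels, (r.map g).prod = 1) (j z1 z2 u : ℕ) (h : dM_23 j z1 z2 u = true) : GoodM (fa g) T MG M (cP g H) u := by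
  unfold dM_23 at h
  rcases brec_true h with h | h
  · exact dM_11_s hinv hr j z1 z2 u h
  · exact dM_22_s hinv hr j z1 z2 u h
theorem dM_24_s (hinv : ∀ x, g (inv x) = (g x)⁻¹) (hr : ∀ r ∈ rels, (r.map g).prod = 1) (j z1 z2 u : ℕ) (h : dM_24 j z1 z2 u = true) : GoodM (fa g) T MG M (cP g H) u := by
  unfold dM_24 at h
  rcases brec_true h with h | h
  · rcases brec_true h with h | h
    · rcases brec_true h with h | h
      · exact mRel_good (T := T) (by decide) [Lt.g, Lt.f, Lt.gi, Lt.fi, Lt.bi, Lt.fi, Lt.gi, Lt.b, Lt.b, Lt.f] [Lt.fi, Lt.bi] (pair_rel hinv hr (by decide +kernel)) h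
      · exact mRel_good (T := T) (by decide) [Lt.gi, Lt.fi, Lt.bi, Lt.fi, Lt.bi, Lt.bi, Lt.g] [Lt.f, Lt.gi, Lt.fi, Lt.bi, Lt.fi] (pair_rel hinv hr (by decide +kernel)) h
    · rcases brec_true h with h | h
      · exact mRel_good (T := T) (by decide) [Lt.f, Lt.b, Lt.fi, Lt.g, Lt.f, Lt.g, Lt.bi, Lt.f, Lt.b, Lt.g, Lt.fi] [Lt.b] (pair_rel hinv hr (by decide +kernel)) h
      · rcases brec_true h with h | h
        · exact mRel_good (T := T) (by decide) [Lt.gi, Lt.b, Lt.b, Lt.f, Lt.b, Lt.f, Lt.g, Lt.f] [Lt.f, Lt.b, Lt.f, Lt.g] (pair_rel hinv hr (by decide +kernel)) h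
        · exact mRel_good (T := T) (by decide) [Lt.gi, Lt.fi, Lt.bi, Lt.fi, Lt.bi, Lt.bi, Lt.g, Lt.f, Lt.b, Lt.f, Lt.g] [Lt.f] (pair_rel hinv hr (by decide +kernel)) h
  · rcases brec_true h with h | h
    · rcases brec_true h with h | h
      · exact mRel_good (T := T) (by decide) [Lt.f, Lt.bi, Lt.fi, Lt.b, Lt.f, Lt.gi] [Lt.g, Lt.f, Lt.g, Lt.bi, Lt.f, Lt.b] (pair_rel hinv hr (by decide +kernel)) h
      · exact mRel_good (T := T) (by decide) [Lt.ni, Lt.b, Lt.n] [Lt.b] (pair_rel hinv hr (by decide +kernel)) h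
    · rcases brec_true h with h | h
      · exact mRel_good (T := T) (by decide) [Lt.ni, Lt.bi] [Lt.bi, Lt.ni] (pair_rel hinv hr (by decide +kernel)) h
      · rcases brec_true h with h | h
        · exact mRel_good (T := T) (by decide) [Lt.b, Lt.f, Lt.bi, Lt.fi, Lt.bi, Lt.fi] [Lt.bi, Lt.fi, Lt.bi, Lt.bi, Lt.fi, Lt.b] (pair_rel hinv hr (by decide +kernel)) h
        · exact mRel_good (T := T) (by decide) [Lt.b, Lt.f, Lt.b, Lt.f, Lt.b, Lt.fi, Lt.bi, Lt.bi] [Lt.f, Lt.b, Lt.b, Lt.f] (pair_rel hinv hr (by decide +kernel)) h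
theorem dM_25_s (hinv : ∀ x, g (inv x) = (g x)⁻¹) (hr : ∀ r ∈ rels, (r.map g).prod = 1) (j z1 z2 u : ℕ) (h : dM_25 j z1 z2 u = true) : GoodM (fa g) T MG M (cP g H) u := by
  unfold dM_25 at h
  rcases brec_true h with h | h
  · rcases brec_true h with h | h
    · rcases brec_true h with h | h
      · exact mRel_good (T := T) (by decide) [Lt.fi, Lt.bi, Lt.bi, Lt.g, Lt.f, Lt.b] [Lt.b, Lt.f, Lt.g, Lt.f, Lt.gi, Lt.fi] (pair_rel hinv hr (by decide +kernel)) h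
      · exact mRel_good (T := T) (by decide) [Lt.f, Lt.b, Lt.fi, Lt.bi, Lt.bi, Lt.fi, Lt.bi, Lt.bi, Lt.fi] [Lt.bi, Lt.fi, Lt.bi] (pair_rel hinv hr (by decide +kernel)) h
    · rcases brec_true h with h | h
      · exact mRel_good (T := T) (by decide) [Lt.fi, Lt.gi, Lt.b, Lt.b, Lt.f, Lt.b, Lt.f, Lt.g, Lt.f, Lt.gi] [Lt.b, Lt.f] (pair_rel hinv hr (by decide +kernel)) h
      · rcases brec_true h with h | h
        · exact mRel_good (T := T) (by decide) [Lt.bi, Lt.fi, Lt.bi, Lt.f, Lt.b, Lt.b, Lt.f, Lt.b, Lt.b] [Lt.f, Lt.b, Lt.fi] (pair_rel hinv hr (by decide +kernel)) h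
        · exact mRel_good (T := T) (by decide) [Lt.f, Lt.b, Lt.b, Lt.f, Lt.b, Lt.b] [Lt.b, Lt.f, Lt.b, Lt.f, Lt.b, Lt.fi] (pair_rel hinv hr (by decide +kernel)) h
  · rcases brec_true h with h | h
    · rcases brec_true h with h | h
      · exact mRel_good (T := T) (by decide) [Lt.b, Lt.b] [Lt.gi, Lt.b, Lt.g, Lt.bi] (pair_rel hinv hr (by decide +kernel)) h
      · exact mRel_good (T := T) (by decide) [Lt.b, Lt.f, Lt.b, Lt.f, Lt.b, Lt.fi, Lt.bi] [Lt.f, Lt.b, Lt.b, Lt.f, Lt.b] (pair_rel hinv hr (by decide +kernel)) h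
    · rcases brec_true h with h | h
      · exact mRel_good (T := T) (by decide) [Lt.b, Lt.b, Lt.f, Lt.bi, Lt.fi, Lt.bi, Lt.fi, Lt.bi] [Lt.fi, Lt.bi, Lt.bi, Lt.fi] (pair_rel hinv hr (by decide +kernel)) h
      · rcases brec_true h with h | h
        · exact mRel_good (T := T) (by decide) [Lt.g, Lt.fi, Lt.bi, Lt.f, Lt.b, Lt.fi, Lt.g, Lt.f, Lt.g, Lt.bi] [Lt.bi, Lt.fi] (pair_rel hinv hr (by decide +kernel)) h
        · exact mRel_good (T := T) (by decide) [Lt.b] [Lt.fi, Lt.gi, Lt.b, Lt.b, Lt.f, Lt.b, Lt.f, Lt.g, Lt.f, Lt.gi, Lt.fi] (pair_rel hinv hr (by decide +kernel)) h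
theorem dM_26_s (hinv : ∀ x, g (inv x) = (g x)⁻¹) (hr : ∀ r ∈ rels, (r.map g).prod = 1) (j z1 z2 u : ℕ) (h : dM_26 j z1 z2 u = true) : GoodM (fa g) T MG M (cP g H) u := by
  unfold dM_26 at h
  rcases brec_true h with h | h
  · exact dM_24_s hinv hr j z1 z2 u h
  · exact dM_25_s hinv hr j z1 z2 u h
theorem dM_27_s (hinv : ∀ x, g (inv x) = (g x)⁻¹) (hr : ∀ r ∈ rels, (r.map g).prod = 1) (j z1 z2 u : ℕ) (h : dM_27 j z1 z2 u = true) : GoodM (fa g) T MG M (cP g H) u := by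
  unfold dM_27 at h
  rcases brec_true h with h | h
  · rcases brec_true h with h | h
    · rcases brec_true h with h | h
      · exact mRel_good (T := T) (by decide) [Lt.f, Lt.b, Lt.fi, Lt.g, Lt.f, Lt.g, Lt.bi, Lt.f] [Lt.b, Lt.f, Lt.gi, Lt.bi] (pair_rel hinv hr (by decide +kernel)) h
      · exact mRel_good (T := T) (by decide) [Lt.b] [Lt.fi, Lt.b, Lt.f, Lt.b, Lt.f, Lt.b, Lt.fi, Lt.bi, Lt.bi, Lt.fi, Lt.bi] (pair_rel hinv hr (by decide +kernel)) h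
    · rcases brec_true h with h | h
      · exact mRel_good (T := T) (by decide) [Lt.fi, Lt.bi, Lt.bi, Lt.g, Lt.f, Lt.b, Lt.f, Lt.g, Lt.fi, Lt.gi] [Lt.b, Lt.f] (pair_rel hinv hr (by decide +kernel)) h
      · rcases brec_true h with h | h
        · exact mRel_good (T := T) (by decide) [Lt.b, Lt.b, Lt.f] [Lt.fi, Lt.bi, Lt.bi, Lt.fi, Lt.b, Lt.f, Lt.b, Lt.f, Lt.b] (pair_rel hinv hr (by decide +kernel)) h
        · exact mRel_good (T := T) (by decide) [Lt.ni, Lt.gi, Lt.ni, Lt.gi] [Lt.g, Lt.n] (pair_rel hinv hr (by decide +kernel)) h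
  · rcases brec_true h with h | h
    · rcases brec_true h with h | h
      · exact mRel_good (T := T) (by decide) [Lt.b, Lt.f, Lt.b, Lt.f, Lt.b] [Lt.f, Lt.b, Lt.b, Lt.f, Lt.b, Lt.b, Lt.f] (pair_rel hinv hr (by decide +kernel)) h
      · exact mRel_good (T := T) (by decide) [Lt.b, Lt.fi, Lt.g] [Lt.fi, Lt.b, Lt.f, Lt.gi, Lt.bi, Lt.fi, Lt.b, Lt.gi, Lt.fi] (pair_rel hinv hr (by decide +kernel)) h
    · rcases brec_true h with h | h
      · exact mRel_good (T := T) (by decide) [Lt.fi, Lt.bi, Lt.fi, Lt.gi] [Lt.g, Lt.fi, Lt.gi, Lt.fi, Lt.bi, Lt.fi, Lt.bi, Lt.bi] (pair_rel hinv hr (by decide +kernel)) h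
      · rcases brec_true h with h | h
        · exact mRel_good (T := T) (by decide) [Lt.gi, Lt.bi, Lt.fi, Lt.b] [Lt.fi, Lt.bi, Lt.f, Lt.b, Lt.fi, Lt.g, Lt.f, Lt.g] (pair_rel hinv hr (by decide +kernel)) h
        · exact mRel_good (T := T) (by decide) [Lt.bi, Lt.fi, Lt.b, Lt.gi, Lt.fi, Lt.gi, Lt.f, Lt.bi, Lt.fi] [Lt.g, Lt.fi, Lt.bi] (pair_rel hinv hr (by decide +kernel)) h
theorem dM_28_s (hinv : ∀ x, g (inv x) = (g x)⁻¹) (hr : ∀ r ∈ rels, (r.map g).prod = 1) (j z1 z2 u : ℕ) (h : dM_28 j z1 z2 u = true) : GoodM (fa g) T MG M (cP g H) u := by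
  unfold dM_28 at h
  rcases brec_true h with h | h
  · rcases brec_true h with h | h
    · rcases brec_true h with h | h
      · exact mRel_good (T := T) (by decide) [Lt.bi, Lt.bi, Lt.gi, Lt.b, Lt.g] [Lt.b] (pair_rel hinv hr (by decide +kernel)) h
      · exact mRel_good (T := T) (by decide) [Lt.b, Lt.gi, Lt.fi] [Lt.f, Lt.b, Lt.g, Lt.fi, Lt.bi, Lt.f, Lt.b, Lt.fi, Lt.g] (pair_rel hinv hr (by decide +kernel)) h
    · rcases brec_true h with h | h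
      · exact mRel_good (T := T) (by decide) [Lt.gi, Lt.fi, Lt.bi, Lt.fi] [Lt.f, Lt.gi, Lt.fi, Lt.bi, Lt.fi, Lt.gi, Lt.b, Lt.b] (pair_rel hinv hr (by decide +kernel)) h
      · rcases brec_true h with h | h
        · exact mRel_good (T := T) (by decide) [Lt.b, Lt.f, Lt.g] [Lt.fi, Lt.gi, Lt.b, Lt.b, Lt.f, Lt.b, Lt.f, Lt.g, Lt.f] (pair_rel hinv hr (by decide +kernel)) h
        · exact mRel_good (T := T) (by decide) [Lt.n, Lt.f, Lt.ni, Lt.f] [] (pair_rel hinv hr (by decide +kernel)) h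
  · rcases brec_true h with h | h
    · rcases brec_true h with h | h
      · exact mRel_good (T := T) (by decide) [Lt.bi, Lt.fi, Lt.b, Lt.gi] [Lt.g, Lt.fi, Lt.bi, Lt.f, Lt.b, Lt.fi, Lt.g, Lt.f] (pair_rel hinv hr (by decide +kernel)) h
      · rcases brec_true h with h | h
        · exact mRel_good (T := T) (by decide) [Lt.fi, Lt.bi, Lt.bi, Lt.fi, Lt.b, Lt.f, Lt.b, Lt.f] [Lt.b, Lt.b, Lt.f, Lt.bi] (pair_rel hinv hr (by decide +kernel)) h
        · exact mRel_good (T := T) (by decide) [Lt.gi, Lt.b, Lt.g, Lt.bi, Lt.bi] [Lt.b] (pair_rel hinv hr (by decide +kernel)) h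
    · rcases brec_true h with h | h
      · exact mRel_good (T := T) (by decide) [Lt.fi, Lt.gi, Lt.b, Lt.b, Lt.f, Lt.b, Lt.f, Lt.g, Lt.f] [Lt.b, Lt.f, Lt.g] (pair_rel hinv hr (by decide +kernel)) h
      · rcases brec_true h with h | h
        · exact mRel_good (T := T) (by decide) [Lt.f, Lt.b, Lt.b, Lt.f, Lt.bi, Lt.fi, Lt.bi] [Lt.bi, Lt.bi, Lt.fi, Lt.b, Lt.f] (pair_rel hinv hr (by decide +kernel)) h
        · exact mRel_good (T := T) (by decide) [Lt.bi, Lt.bi, Lt.g, Lt.f, Lt.b, Lt.f, Lt.g, Lt.fi, Lt.gi] [Lt.f, Lt.b, Lt.f] (pair_rel hinv hr (by decide +kernel)) h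
theorem dM_29_s (hinv : ∀ x, g (inv x) = (g x)⁻¹) (hr : ∀ r ∈ rels, (r.map g).prod = 1) (j z1 z2 u : ℕ) (h : dM_29 j z1 z2 u = true) : GoodM (fa g) T MG M (cP g H) u := by
  unfold dM_29 at h
  rcases brec_true h with h | h
  · exact dM_27_s hinv hr j z1 z2 u h
  · exact dM_28_s hinv hr j z1 z2 u h
theorem dM_30_s (hinv : ∀ x, g (inv x) = (g x)⁻¹) (hr : ∀ r ∈ rels, (r.map g).prod = 1) (j z1 z2 u : ℕ) (h : dM_30 j z1 z2 u = true) : GoodM (fa g) T MG M (cP g H) u := by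
  unfold dM_30 at h
  rcases brec_true h with h | h
  · exact dM_26_s hinv hr j z1 z2 u h
  · exact dM_29_s hinv hr j z1 z2 u h
theorem dM_31_s (hinv : ∀ x, g (inv x) = (g x)⁻¹) (hr : ∀ r ∈ rels, (r.map g).prod = 1) (j z1 z2 u : ℕ) (h : dM_31 j z1 z2 u = true) : GoodM (fa g) T MG M (cP g H) u := by
  unfold dM_31 at h
  rcases brec_true h with h | h
  · rcases brec_true h with h | h
    · rcases brec_true h with h | h
      · exact mRel_good (T := T) (by decide) [Lt.b, Lt.f, Lt.b, Lt.f, Lt.g, Lt.f, Lt.gi] [Lt.bi, Lt.g, Lt.f, Lt.b, Lt.f] (pair_rel hinv hr (by decide +kernel)) h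
      · exact mRel_good (T := T) (by decide) [Lt.bi, Lt.fi, Lt.bi, Lt.f, Lt.b, Lt.b, Lt.f] [Lt.f, Lt.b, Lt.fi, Lt.bi, Lt.bi] (pair_rel hinv hr (by decide +kernel)) h
    · rcases brec_true h with h | h
      · exact mRel_good (T := T) (by decide) [Lt.fi, Lt.gi, Lt.fi] [Lt.gi, Lt.fi, Lt.bi, Lt.fi, Lt.gi, Lt.b, Lt.b, Lt.f, Lt.b] (pair_rel hinv hr (by decide +kernel)) h
      · rcases brec_true h with h | h
        · exact mRel_good (T := T) (by decide) [Lt.g, Lt.bi, Lt.f, Lt.b] [Lt.fi, Lt.gi, Lt.f, Lt.bi, Lt.fi, Lt.b, Lt.f, Lt.gi] (pair_rel hinv hr (by decide +kernel)) h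
        · exact mRel_good (T := T) (by decide) [Lt.n, Lt.g, Lt.n] [Lt.gi, Lt.ni, Lt.gi] (pair_rel hinv hr (by decide +kernel)) h
  · rcases brec_true h with h | h
    · rcases brec_true h with h | h
      · exact mRel_good (T := T) (by decide) [Lt.ni, Lt.gi, Lt.ni] [Lt.g, Lt.n, Lt.g] (pair_rel hinv hr (by decide +kernel)) h
      · exact mRel_good (T := T) (by decide) [Lt.gi, Lt.bi, Lt.g, Lt.b, Lt.b] [Lt.bi] (pair_rel hinv hr (by decide +kernel)) h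
    · rcases brec_true h with h | h
      · exact mRel_good (T := T) (by decide) [Lt.bi, Lt.f, Lt.b, Lt.fi, Lt.g] [Lt.f, Lt.gi, Lt.bi, Lt.fi, Lt.b, Lt.gi, Lt.fi] (pair_rel hinv hr (by decide +kernel)) h
      · rcases brec_true h with h | h
        · exact mRel_good (T := T) (by decide) [Lt.f, Lt.f] [Lt.fi] (pair_rel hinv hr (by decide +kernel)) h
        · exact mRel_good (T := T) (by decide) [Lt.n, Lt.b, Lt.ni] [Lt.b] (pair_rel hinv hr (by decide +kernel)) h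
theorem dM_32_s (hinv : ∀ x, g (inv x) = (g x)⁻¹) (hr : ∀ r ∈ rels, (r.map g).prod = 1) (j z1 z2 u : ℕ) (h : dM_32 j z1 z2 u = true) : GoodM (fa g) T MG M (cP g H) u := by
  unfold dM_32 at h
  rcases brec_true h with h | h
  · rcases brec_true h with h | h
    · exact mRel_good (T := T) (by decide) [Lt.gi, Lt.fi, Lt.bi, Lt.fi] [Lt.fi, Lt.gi, Lt.fi, Lt.bi, Lt.fi, Lt.bi, Lt.bi, Lt.g] (pair_rel hinv hr (by decide +kernel)) h
    · exact mRel_good (T := T) (by decide) [Lt.gi, Lt.bi, Lt.fi, Lt.b, Lt.gi] [Lt.fi, Lt.bi, Lt.f, Lt.b, Lt.fi, Lt.g, Lt.f] (pair_rel hinv hr (by decide +kernel)) h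
  · rcases brec_true h with h | h
    · exact mRel_good (T := T) (by decide) [Lt.gi, Lt.fi] [Lt.f, Lt.gi, Lt.fi, Lt.bi, Lt.fi, Lt.gi, Lt.b, Lt.b, Lt.f, Lt.b] (pair_rel hinv hr (by decide +kernel)) h
    · rcases brec_true h with h | h
      · exact mRel_good (T := T) (by decide) [Lt.fi, Lt.ni, Lt.fi] [Lt.ni] (pair_rel hinv hr (by decide +kernel)) h
      · exact mRel_good (T := T) (by decide) [Lt.g, Lt.n] [Lt.ni, Lt.gi, Lt.ni, Lt.gi] (pair_rel hinv hr (by decide +kernel)) h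
theorem dM_33_s (hinv : ∀ x, g (inv x) = (g x)⁻¹) (hr : ∀ r ∈ rels, (r.map g).prod = 1) (j z1 z2 u : ℕ) (h : dM_33 j z1 z2 u = true) : GoodM (fa g) T MG M (cP g H) u := by
  unfold dM_33 at h
  rcases brec_true h with h | h
  · rcases brec_true h with h | h
    · exact mRel_good (T := T) (by decide) [Lt.n, Lt.g, Lt.n, Lt.g, Lt.n, Lt.g] [] (pair_rel hinv hr (by decide +kernel)) h
    · rcases brec_true h with h | h
      · exact mRel_good (T := T) (by decide) [Lt.gi, Lt.fi, Lt.gi, Lt.f, Lt.bi, Lt.fi] [Lt.bi, Lt.f, Lt.b, Lt.g, Lt.fi, Lt.bi] (pair_rel hinv hr (by decide +kernel)) h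
      · rcases brec_true h with h | h
        · exact mRel_good (T := T) (by decide) [Lt.g, Lt.f] [Lt.b, Lt.b, Lt.f, Lt.b, Lt.f, Lt.g, Lt.f, Lt.gi, Lt.fi, Lt.bi] (pair_rel hinv hr (by decide +kernel)) h
        · exact mRel_good (T := T) (by decide) [Lt.bi, Lt.bi, Lt.g, Lt.f, Lt.b, Lt.f, Lt.g, Lt.fi, Lt.gi, Lt.fi, Lt.bi, Lt.fi] [] (pair_rel hinv hr (by decide +kernel)) h
  · rcases brec_true h with h | h
    · rcases brec_true h with h | h
      · exact mRel_good (T := T) (by decide) [Lt.bi, Lt.g, Lt.b] [Lt.g, Lt.bi, Lt.bi] (pair_rel hinv hr (by decide +kernel)) h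
      · rcases brec_true h with h | h
        · exact mRel_good (T := T) (by decide) [Lt.g] [Lt.bi, Lt.fi, Lt.b, Lt.gi, Lt.fi, Lt.gi, Lt.f, Lt.bi, Lt.fi, Lt.b, Lt.f] (pair_rel hinv hr (by decide +kernel)) h
        · exact mRel_good (T := T) (by decide) [Lt.bi, Lt.bi, Lt.g] [Lt.f, Lt.b, Lt.f, Lt.g, Lt.f, Lt.gi, Lt.fi, Lt.bi, Lt.fi] (pair_rel hinv hr (by decide +kernel)) h
    · rcases brec_true h with h | h
      · exact mRel_good (T := T) (by decide) [Lt.f, Lt.bi, Lt.fi, Lt.bi, Lt.fi, Lt.bi, Lt.f, Lt.b, Lt.b] [Lt.bi, Lt.bi, Lt.fi] (pair_rel hinv hr (by decide +kernel)) h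
      · rcases brec_true h with h | h
        · exact mRel_good (T := T) (by decide) [Lt.b, Lt.f, Lt.b, Lt.f, Lt.b, Lt.fi, Lt.bi, Lt.bi, Lt.fi] [Lt.f, Lt.b, Lt.b] (pair_rel hinv hr (by decide +kernel)) h
        · exact mRel_good (T := T) (by decide) [Lt.b, Lt.f, Lt.g, Lt.f, Lt.gi, Lt.fi, Lt.bi, Lt.fi, Lt.gi, Lt.b, Lt.b] [Lt.fi] (pair_rel hinv hr (by decide +kernel)) h
theorem dM_34_s (hinv : ∀ x, g (inv x) = (g x)⁻¹) (hr : ∀ r ∈ rels, (r.map g).prod = 1) (j z1 z2 u : ℕ) (h : dM_34 j z1 z2 u = true) : GoodM (fa g) T MG M (cP g H) u := by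
  unfold dM_34 at h
  rcases brec_true h with h | h
  · exact dM_32_s hinv hr j z1 z2 u h
  · exact dM_33_s hinv hr j z1 z2 u h
theorem dM_35_s (hinv : ∀ x, g (inv x) = (g x)⁻¹) (hr : ∀ r ∈ rels, (r.map g).prod = 1) (j z1 z2 u : ℕ) (h : dM_35 j z1 z2 u = true) : GoodM (fa g) T MG M (cP g H) u := by
  unfold dM_35 at h
  rcases brec_true h with h | h
  · exact dM_31_s hinv hr j z1 z2 u h
  · exact dM_34_s hinv hr j z1 z2 u h
theorem dM_36_s (hinv : ∀ x, g (inv x) = (g x)⁻¹) (hr : ∀ r ∈ rels, (r.map g).prod = 1) (j z1 z2 u : ℕ) (h : dM_36 j z1 z2 u = true) : GoodM (fa g) T MG M (cP g H) u := by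
  unfold dM_36 at h
  rcases brec_true h with h | h
  · rcases brec_true h with h | h
    · rcases brec_true h with h | h
      · exact mRel_good (T := T) (by decide) [Lt.bi, Lt.fi, Lt.b, Lt.gi, Lt.fi, Lt.gi, Lt.f, Lt.bi, Lt.fi, Lt.b, Lt.f, Lt.gi] [] (pair_rel hinv hr (by decide +kernel)) h
      · exact mRel_good (T := T) (by decide) [Lt.f, Lt.b] [Lt.bi, Lt.bi, Lt.fi, Lt.b, Lt.f, Lt.b, Lt.f, Lt.b, Lt.fi, Lt.bi] (pair_rel hinv hr (by decide +kernel)) h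
    · rcases brec_true h with h | h
      · exact mRel_good (T := T) (by decide) [Lt.bi, Lt.fi] [Lt.f, Lt.b, Lt.fi, Lt.bi, Lt.bi, Lt.fi, Lt.bi, Lt.bi, Lt.fi, Lt.b] (pair_rel hinv hr (by decide +kernel)) h
      · rcases brec_true h with h | h
        · exact mRel_good (T := T) (by decide) [Lt.b, Lt.f, Lt.b, Lt.f, Lt.g, Lt.f] [Lt.bi, Lt.g, Lt.f, Lt.b, Lt.f, Lt.g] (pair_rel hinv hr (by decide +kernel)) h
        · exact mRel_good (T := T) (by decide) [Lt.bi, Lt.fi, Lt.b, Lt.f, Lt.gi, Lt.bi, Lt.fi, Lt.b, Lt.gi] [Lt.fi, Lt.g, Lt.f] (pair_rel hinv hr (by decide +kernel)) h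
  · rcases brec_true h with h | h
    · rcases brec_true h with h | h
      · exact mRel_good (T := T) (by decide) [Lt.bi, Lt.fi, Lt.b, Lt.gi, Lt.fi, Lt.gi] [Lt.g, Lt.fi, Lt.bi, Lt.f, Lt.b, Lt.fi] (pair_rel hinv hr (by decide +kernel)) h
      · exact mRel_good (T := T) (by decide) [Lt.b, Lt.g, Lt.fi, Lt.bi, Lt.f, Lt.b, Lt.fi, Lt.g, Lt.f] [Lt.fi, Lt.b, Lt.gi] (pair_rel hinv hr (by decide +kernel)) h
    · rcases brec_true h with h | h
      · exact mRel_good (T := T) (by decide) [Lt.b, Lt.f, Lt.gi, Lt.bi, Lt.fi, Lt.b] [Lt.f, Lt.b, Lt.fi, Lt.g, Lt.f, Lt.g] (pair_rel hinv hr (by decide +kernel)) h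
      · rcases brec_true h with h | h
        · exact mRel_good (T := T) (by decide) [Lt.gi, Lt.f, Lt.bi, Lt.fi, Lt.b, Lt.f, Lt.gi, Lt.bi, Lt.fi, Lt.b, Lt.gi, Lt.fi] [] (pair_rel hinv hr (by decide +kernel)) h
        · exact mRel_good (T := T) (by decide) [Lt.bi] [Lt.f, Lt.g, Lt.fi, Lt.gi, Lt.fi, Lt.bi, Lt.fi, Lt.bi, Lt.bi, Lt.g, Lt.f] (pair_rel hinv hr (by decide +kernel)) h
theorem dM_37_s (hinv : ∀ x, g (inv x) = (g x)⁻¹) (hr : ∀ r ∈ rels, (r.map g).prod = 1) (j z1 z2 u : ℕ) (h : dM_37 j z1 z2 u = true) : GoodM (fa g) T MG M (cP g H) u := by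
  unfold dM_37 at h
  rcases brec_true h with h | h
  · rcases brec_true h with h | h
    · rcases brec_true h with h | h
      · exact mRel_good (T := T) (by decide) [Lt.b, Lt.f, Lt.b, Lt.b, Lt.f, Lt.bi, Lt.fi, Lt.bi, Lt.fi, Lt.bi, Lt.f, Lt.b] [] (pair_rel hinv hr (by decide +kernel)) h
      · exact mRel_good (T := T) (by decide) [Lt.fi, Lt.bi, Lt.f, Lt.b, Lt.fi, Lt.g, Lt.f] [Lt.gi, Lt.bi, Lt.fi, Lt.b, Lt.gi] (pair_rel hinv hr (by decide +kernel)) h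
    · rcases brec_true h with h | h
      · exact mRel_good (T := T) (by decide) [Lt.f, Lt.b, Lt.b, Lt.f, Lt.b, Lt.b, Lt.f] [Lt.b, Lt.f, Lt.b, Lt.f, Lt.b] (pair_rel hinv hr (by decide +kernel)) h
      · rcases brec_true h with h | h
        · exact mRel_good (T := T) (by decide) [Lt.b, Lt.gi, Lt.fi, Lt.gi, Lt.f, Lt.bi, Lt.fi, Lt.b, Lt.f, Lt.gi, Lt.bi, Lt.fi] [] (pair_rel hinv hr (by decide +kernel)) h
        · exact mRel_good (T := T) (by decide) [Lt.f, Lt.bi] [Lt.bi, Lt.bi, Lt.fi, Lt.bi, Lt.bi, Lt.fi, Lt.b, Lt.f, Lt.b, Lt.f] (pair_rel hinv hr (by decide +kernel)) h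
  · rcases brec_true h with h | h
    · rcases brec_true h with h | h
      · exact mRel_good (T := T) (by decide) [Lt.bi, Lt.f, Lt.b, Lt.b, Lt.f, Lt.b, Lt.b, Lt.f, Lt.bi, Lt.fi, Lt.bi] [Lt.f] (pair_rel hinv hr (by decide +kernel)) h
      · rcases brec_true h with h | h
        · exact mRel_good (T := T) (by decide) [Lt.f, Lt.bi, Lt.fi, Lt.b, Lt.f, Lt.gi, Lt.bi, Lt.fi] [Lt.g, Lt.f, Lt.g, Lt.bi] (pair_rel hinv hr (by decide +kernel)) h
        · exact mRel_good (T := T) (by decide) [Lt.f, Lt.bi, Lt.fi, Lt.bi, Lt.fi, Lt.bi] [Lt.bi, Lt.bi, Lt.fi, Lt.bi, Lt.bi, Lt.fi] (pair_rel hinv hr (by decide +kernel)) h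
    · rcases brec_true h with h | h
      · exact mRel_good (T := T) (by decide) [Lt.fi, Lt.bi, Lt.fi, Lt.bi, Lt.bi, Lt.g] [Lt.g, Lt.f, Lt.gi, Lt.fi, Lt.bi, Lt.fi] (pair_rel hinv hr (by decide +kernel)) h
      · rcases brec_true h with h | h
        · exact mRel_good (T := T) (by decide) [Lt.b, Lt.g, Lt.fi, Lt.bi, Lt.f, Lt.b, Lt.fi, Lt.g, Lt.f, Lt.g, Lt.bi, Lt.f] [] (pair_rel hinv hr (by decide +kernel)) h
        · exact mRel_good (T := T) (by decide) [Lt.f, Lt.b, Lt.b, Lt.f] [Lt.bi, Lt.bi, Lt.fi, Lt.b, Lt.f, Lt.b, Lt.f, Lt.b] (pair_rel hinv hr (by decide +kernel)) h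
theorem dM_38_s (hinv : ∀ x, g (inv x) = (g x)⁻¹) (hr : ∀ r ∈ rels, (r.map g).prod = 1) (j z1 z2 u : ℕ) (h : dM_38 j z1 z2 u = true) : GoodM (fa g) T MG M (cP g H) u := by
  unfold dM_38 at h
  rcases brec_true h with h | h
  · exact dM_36_s hinv hr j z1 z2 u h
  · exact dM_37_s hinv hr j z1 z2 u h
theorem dM_39_s (hinv : ∀ x, g (inv x) = (g x)⁻¹) (hr : ∀ r ∈ rels, (r.map g).prod = 1) (j z1 z2 u : ℕ) (h : dM_39 j z1 z2 u = true) : GoodM (fa g) T MG M (cP g H) u := by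
  unfold dM_39 at h
  rcases brec_true h with h | h
  · rcases brec_true h with h | h
    · rcases brec_true h with h | h
      · exact mRel_good (T := T) (by decide) [Lt.fi, Lt.b, Lt.f, Lt.b, Lt.f, Lt.b, Lt.fi, Lt.bi] [Lt.b, Lt.b, Lt.f, Lt.b] (pair_rel hinv hr (by decide +kernel)) h
      · exact mRel_good (T := T) (by decide) [Lt.b, Lt.b, Lt.f, Lt.bi, Lt.fi] [Lt.fi, Lt.bi, Lt.bi, Lt.fi, Lt.b, Lt.f, Lt.b] (pair_rel hinv hr (by decide +kernel)) h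
    · rcases brec_true h with h | h
      · exact mRel_good (T := T) (by decide) [Lt.fi, Lt.bi, Lt.fi, Lt.bi] [Lt.b, Lt.fi, Lt.bi, Lt.bi, Lt.fi, Lt.bi, Lt.bi, Lt.fi] (pair_rel hinv hr (by decide +kernel)) h
      · rcases brec_true h with h | h
        · exact mRel_good (T := T) (by decide) [Lt.bi] [Lt.b, Lt.f, Lt.b, Lt.b, Lt.f, Lt.bi, Lt.fi, Lt.bi, Lt.fi, Lt.bi, Lt.f] (pair_rel hinv hr (by decide +kernel)) h
        · exact mRel_good (T := T) (by decide) [Lt.f, Lt.g, Lt.fi, Lt.gi, Lt.fi, Lt.bi, Lt.fi, Lt.bi, Lt.bi, Lt.g] [Lt.bi, Lt.fi] (pair_rel hinv hr (by decide +kernel)) h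
  · rcases brec_true h with h | h
    · rcases brec_true h with h | h
      · exact mRel_good (T := T) (by decide) [Lt.f, Lt.bi, Lt.fi, Lt.b, Lt.f] [Lt.g, Lt.f, Lt.g, Lt.bi, Lt.f, Lt.b, Lt.g] (pair_rel hinv hr (by decide +kernel)) h
      · exact mRel_good (T := T) (by decide) [Lt.bi, Lt.fi, Lt.bi, Lt.bi] [Lt.b, Lt.f, Lt.bi, Lt.fi, Lt.bi, Lt.fi, Lt.bi, Lt.f] (pair_rel hinv hr (by decide +kernel)) h
    · rcases brec_true h with h | h
      · exact mRel_good (T := T) (by decide) [Lt.f, Lt.b, Lt.f, Lt.b, Lt.fi, Lt.bi] [Lt.bi, Lt.f, Lt.b, Lt.b, Lt.f, Lt.b] (pair_rel hinv hr (by decide +kernel)) h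
      · rcases brec_true h with h | h
        · exact mRel_good (T := T) (by decide) [Lt.g, Lt.f, Lt.g, Lt.bi] [Lt.f, Lt.bi, Lt.fi, Lt.b, Lt.f, Lt.gi, Lt.bi, Lt.fi] (pair_rel hinv hr (by decide +kernel)) h
        · exact mRel_good (T := T) (by decide) [Lt.ni, Lt.ni] [Lt.zi] (pair_rel hinv hr (by decide +kernel)) h
theorem dM_40_s (hinv : ∀ x, g (inv x) = (g x)⁻¹) (hr : ∀ r ∈ rels, (r.map g).prod = 1) (j z1 z2 u : ℕ) (h : dM_40 j z1 z2 u = true) : GoodM (fa g) T MG M (cP g H) u := by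
  unfold dM_40 at h
  rcases brec_true h with h | h
  · rcases brec_true h with h | h
    · rcases brec_true h with h | h
      · exact mRel_good (T := T) (by decide) [Lt.bi, Lt.bi, Lt.g, Lt.f, Lt.b] [Lt.f, Lt.b, Lt.f, Lt.g, Lt.f, Lt.gi, Lt.fi] (pair_rel hinv hr (by decide +kernel)) h
      · exact mRel_good (T := T) (by decide) [Lt.bi, Lt.bi, Lt.fi, Lt.b, Lt.f, Lt.b] [Lt.f, Lt.b, Lt.b, Lt.f, Lt.bi, Lt.fi] (pair_rel hinv hr (by decide +kernel)) h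
    · rcases brec_true h with h | h
      · exact mRel_good (T := T) (by decide) [Lt.bi, Lt.f, Lt.b, Lt.b, Lt.f, Lt.b, Lt.b, Lt.f, Lt.bi] [Lt.f, Lt.b, Lt.f] (pair_rel hinv hr (by decide +kernel)) h
      · rcases brec_true h with h | h
        · exact mRel_good (T := T) (by decide) [Lt.bi, Lt.f, Lt.b, Lt.g, Lt.fi, Lt.bi] [Lt.gi, Lt.fi, Lt.gi, Lt.f, Lt.bi, Lt.fi] (pair_rel hinv hr (by decide +kernel)) h
        · exact mRel_good (T := T) (by decide) [Lt.gi, Lt.fi, Lt.bi, Lt.fi, Lt.bi, Lt.bi] [Lt.f, Lt.gi, Lt.fi, Lt.bi, Lt.fi, Lt.gi] (pair_rel hinv hr (by decide +kernel)) h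
  · rcases brec_true h with h | h
    · rcases brec_true h with h | h
      · exact mRel_good (T := T) (by decide) [Lt.b, Lt.f, Lt.g, Lt.fi, Lt.gi, Lt.fi, Lt.bi, Lt.fi, Lt.bi, Lt.bi] [Lt.fi, Lt.gi] (pair_rel hinv hr (by decide +kernel)) h
      · rcases brec_true h with h | h
        · exact mRel_good (T := T) (by decide) [Lt.bi] [Lt.b, Lt.b, Lt.gi, Lt.bi, Lt.g] (pair_rel hinv hr (by decide +kernel)) h
        · exact mRel_good (T := T) (by decide) [Lt.bi, Lt.f, Lt.b, Lt.b, Lt.f, Lt.b, Lt.b] [Lt.f, Lt.b, Lt.f, Lt.b, Lt.fi] (pair_rel hinv hr (by decide +kernel)) h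
    · rcases brec_true h with h | h
      · exact mRel_good (T := T) (by decide) [Lt.bi, Lt.fi, Lt.bi, Lt.f] [Lt.f, Lt.b, Lt.fi, Lt.bi, Lt.bi, Lt.fi, Lt.bi, Lt.bi] (pair_rel hinv hr (by decide +kernel)) h
      · rcases brec_true h with h | h
        · exact mRel_good (T := T) (by decide) [Lt.b, Lt.g, Lt.fi, Lt.bi, Lt.f, Lt.b, Lt.fi, Lt.g, Lt.f, Lt.g] [Lt.fi, Lt.b] (pair_rel hinv hr (by decide +kernel)) h
        · exact mRel_good (T := T) (by decide) [Lt.b] [Lt.fi, Lt.b, Lt.f, Lt.gi, Lt.bi, Lt.fi, Lt.b, Lt.gi, Lt.fi, Lt.gi, Lt.f] (pair_rel hinv hr (by decide +kernel)) h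
theorem dM_41_s (hinv : ∀ x, g (inv x) = (g x)⁻¹) (hr : ∀ r ∈ rels, (r.map g).prod = 1) (j z1 z2 u : ℕ) (h : dM_41 j z1 z2 u = true) : GoodM (fa g) T MG M (cP g H) u := by
  unfold dM_41 at h
  rcases brec_true h with h | h
  · exact dM_39_s hinv hr j z1 z2 u h
  · exact dM_40_s hinv hr j z1 z2 u h
theorem dM_42_s (hinv : ∀ x, g (inv x) = (g x)⁻¹) (hr : ∀ r ∈ rels, (r.map g).prod = 1) (j z1 z2 u : ℕ) (h : dM_42 j z1 z2 u = true) : GoodM (fa g) T MG M (cP g H) u := by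
  unfold dM_42 at h
  rcases brec_true h with h | h
  · exact dM_38_s hinv hr j z1 z2 u h
  · exact dM_41_s hinv hr j z1 z2 u h
theorem dM_43_s (hinv : ∀ x, g (inv x) = (g x)⁻¹) (hr : ∀ r ∈ rels, (r.map g).prod = 1) (j z1 z2 u : ℕ) (h : dM_43 j z1 z2 u = true) : GoodM (fa g) T MG M (cP g H) u := by
  unfold dM_43 at h
  rcases brec_true h with h | h
  · exact dM_35_s hinv hr j z1 z2 u h
  · exact dM_42_s hinv hr j z1 z2 u h
theorem dM_44_s (hinv : ∀ x, g (inv x) = (g x)⁻¹) (hr : ∀ r ∈ rels, (r.map g).prod = 1) (j z1 z2 u : ℕ) (h : dM_44 j z1 z2 u = true) : GoodM (fa g) T MG M (cP g H) u := by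
  unfold dM_44 at h
  rcases brec_true h with h | h
  · exact dM_30_s hinv hr j z1 z2 u h
  · exact dM_43_s hinv hr j z1 z2 u h
theorem dM_45_s (hinv : ∀ x, g (inv x) = (g x)⁻¹) (hr : ∀ r ∈ rels, (r.map g).prod = 1) (j z1 z2 u : ℕ) (h : dM_45 j z1 z2 u = true) : GoodM (fa g) T MG M (cP g H) u := by
  unfold dM_45 at h
  rcases brec_true h with h | h
  · rcases brec_true h with h | h
    · rcases brec_true h with h | h
      · exact mRel_good (T := T) (by decide) [Lt.bi, Lt.bi, Lt.fi] [Lt.f, Lt.b, Lt.b, Lt.f, Lt.bi, Lt.fi, Lt.bi, Lt.fi, Lt.bi] (pair_rel hinv hr (by decide +kernel)) h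
      · exact mRel_good (T := T) (by decide) [Lt.b, Lt.g, Lt.bi] [Lt.g, Lt.b, Lt.b] (pair_rel hinv hr (by decide +kernel)) h
    · rcases brec_true h with h | h
      · exact mRel_good (T := T) (by decide) [Lt.gi, Lt.f, Lt.bi, Lt.fi, Lt.b, Lt.f, Lt.gi, Lt.bi] [Lt.f, Lt.g, Lt.bi, Lt.f] (pair_rel hinv hr (by decide +kernel)) h
      · rcases brec_true h with h | h
        · exact mRel_good (T := T) (by decide) [Lt.bi, Lt.fi, Lt.bi, Lt.fi, Lt.bi, Lt.f, Lt.b] [Lt.fi, Lt.bi, Lt.bi, Lt.fi, Lt.bi] (pair_rel hinv hr (by decide +kernel)) h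
        · exact mRel_good (T := T) (by decide) [Lt.fi, Lt.gi, Lt.fi, Lt.bi, Lt.fi, Lt.bi, Lt.bi, Lt.g, Lt.f, Lt.b] [Lt.gi, Lt.fi] (pair_rel hinv hr (by decide +kernel)) h
  · rcases brec_true h with h | h
    · rcases brec_true h with h | h
      · exact mRel_good (T := T) (by decide) [Lt.fi, Lt.gi, Lt.b, Lt.b, Lt.f, Lt.b] [Lt.b, Lt.f, Lt.g, Lt.fi, Lt.gi, Lt.fi] (pair_rel hinv hr (by decide +kernel)) h
      · exact mRel_good (T := T) (by decide) [Lt.bi] [Lt.fi, Lt.bi, Lt.bi, Lt.fi, Lt.bi, Lt.bi, Lt.fi, Lt.b, Lt.f, Lt.b, Lt.f] (pair_rel hinv hr (by decide +kernel)) h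
    · rcases brec_true h with h | h
      · exact mRel_good (T := T) (by decide) [Lt.n, Lt.g, Lt.n, Lt.g, Lt.n] [Lt.gi] (pair_rel hinv hr (by decide +kernel)) h
      · rcases brec_true h with h | h
        · exact mRel_good (T := T) (by decide) [Lt.f, Lt.g, Lt.f, Lt.gi] [Lt.bi, Lt.fi, Lt.bi, Lt.bi, Lt.g, Lt.f, Lt.b, Lt.f] (pair_rel hinv hr (by decide +kernel)) h
        · exact mRel_good (T := T) (by decide) [Lt.fi, Lt.bi, Lt.fi, Lt.bi, Lt.f, Lt.b, Lt.b, Lt.f, Lt.b, Lt.b] [Lt.b, Lt.fi] (pair_rel hinv hr (by decide +kernel)) h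
theorem dM_46_s (hinv : ∀ x, g (inv x) = (g x)⁻¹) (hr : ∀ r ∈ rels, (r.map g).prod = 1) (j z1 z2 u : ℕ) (h : dM_46 j z1 z2 u = true) : GoodM (fa g) T MG M (cP g H) u := by
  unfold dM_46 at h
  rcases brec_true h with h | h
  · rcases brec_true h with h | h
    · rcases brec_true h with h | h
      · exact mRel_good (T := T) (by decide) [Lt.fi, Lt.bi, Lt.fi] [Lt.b, Lt.fi, Lt.bi, Lt.bi, Lt.fi, Lt.bi, Lt.bi, Lt.fi, Lt.b] (pair_rel hinv hr (by decide +kernel)) h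
      · exact mRel_good (T := T) (by decide) [Lt.fi, Lt.bi, Lt.bi, Lt.fi, Lt.bi, Lt.bi, Lt.fi] [Lt.bi, Lt.fi, Lt.bi, Lt.fi, Lt.bi] (pair_rel hinv hr (by decide +kernel)) h
    · rcases brec_true h with h | h
      · exact mRel_good (T := T) (by decide) [Lt.b, Lt.g, Lt.fi, Lt.bi, Lt.f] [Lt.fi, Lt.b, Lt.gi, Lt.fi, Lt.gi, Lt.f, Lt.bi] (pair_rel hinv hr (by decide +kernel)) h
      · rcases brec_true h with h | h
        · exact mRel_good (T := T) (by decide) [Lt.fi, Lt.b, Lt.f, Lt.b, Lt.f, Lt.b, Lt.fi] [Lt.b, Lt.b, Lt.f, Lt.b, Lt.b] (pair_rel hinv hr (by decide +kernel)) h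
        · exact mRel_good (T := T) (by decide) [Lt.b, Lt.b, Lt.f, Lt.b, Lt.b, Lt.f, Lt.bi] [Lt.fi, Lt.b, Lt.f, Lt.b, Lt.f] (pair_rel hinv hr (by decide +kernel)) h
  · rcases brec_true h with h | h
    · rcases brec_true h with h | h
      · exact mRel_good (T := T) (by decide) [Lt.g] [Lt.fi, Lt.bi, Lt.fi, Lt.bi, Lt.bi, Lt.g, Lt.f, Lt.b, Lt.f, Lt.g, Lt.fi] (pair_rel hinv hr (by decide +kernel)) h
      · exact mRel_good (T := T) (by decide) [Lt.bi, Lt.g, Lt.b, Lt.b] [Lt.g, Lt.bi] (pair_rel hinv hr (by decide +kernel)) h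
    · rcases brec_true h with h | h
      · exact mRel_good (T := T) (by decide) [Lt.g, Lt.f, Lt.g, Lt.bi, Lt.f, Lt.b, Lt.g, Lt.fi, Lt.bi] [Lt.f, Lt.bi, Lt.fi] (pair_rel hinv hr (by decide +kernel)) h
      · rcases brec_true h with h | h
        · exact mRel_good (T := T) (by decide) [Lt.b, Lt.f, Lt.b, Lt.fi, Lt.bi, Lt.bi] [Lt.fi, Lt.bi, Lt.f, Lt.b, Lt.b, Lt.f] (pair_rel hinv hr (by decide +kernel)) h
        · exact mRel_good (T := T) (by decide) [Lt.b, Lt.fi, Lt.bi, Lt.bi, Lt.fi, Lt.bi, Lt.bi] [Lt.fi, Lt.bi, Lt.fi, Lt.bi, Lt.f] (pair_rel hinv hr (by decide +kernel)) h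
theorem dM_47_s (hinv : ∀ x, g (inv x) = (g x)⁻¹) (hr : ∀ r ∈ rels, (r.map g).prod = 1) (j z1 z2 u : ℕ) (h : dM_47 j z1 z2 u = true) : GoodM (fa g) T MG M (cP g H) u := by
  unfold dM_47 at h
  rcases brec_true h with h | h
  · exact dM_45_s hinv hr j z1 z2 u h
  · exact dM_46_s hinv hr j z1 z2 u h
theorem dM_48_s (hinv : ∀ x, g (inv x) = (g x)⁻¹) (hr : ∀ r ∈ rels, (r.map g).prod = 1) (j z1 z2 u : ℕ) (h : dM_48 j z1 z2 u = true) : GoodM (fa g) T MG M (cP g H) u := by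
  unfold dM_48 at h
  rcases brec_true h with h | h
  · rcases brec_true h with h | h
    · rcases brec_true h with h | h
      · exact mRel_good (T := T) (by decide) [Lt.gi, Lt.b, Lt.b] [Lt.f, Lt.b, Lt.f, Lt.g, Lt.fi, Lt.gi, Lt.fi, Lt.bi, Lt.fi] (pair_rel hinv hr (by decide +kernel)) h
      · exact mRel_good (T := T) (by decide) [Lt.fi, Lt.bi, Lt.fi, Lt.bi, Lt.f, Lt.b] [Lt.b, Lt.fi, Lt.bi, Lt.bi, Lt.fi, Lt.bi] (pair_rel hinv hr (by decide +kernel)) h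
    · rcases brec_true h with h | h
      · exact mRel_good (T := T) (by decide) [Lt.b, Lt.f, Lt.b, Lt.f, Lt.b, Lt.fi, Lt.bi, Lt.bi, Lt.fi, Lt.bi, Lt.bi] [Lt.f] (pair_rel hinv hr (by decide +kernel)) h
      · rcases brec_true h with h | h
        · exact mRel_good (T := T) (by decide) [Lt.b, Lt.f, Lt.b, Lt.b, Lt.f, Lt.bi, Lt.fi] [Lt.bi, Lt.fi, Lt.b, Lt.f, Lt.b] (pair_rel hinv hr (by decide +kernel)) h
        · exact mRel_good (T := T) (by decide) [Lt.b, Lt.f, Lt.b, Lt.fi, Lt.bi, Lt.bi, Lt.fi, Lt.bi, Lt.bi, Lt.fi] [Lt.fi, Lt.bi] (pair_rel hinv hr (by decide +kernel)) h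
  · rcases brec_true h with h | h
    · rcases brec_true h with h | h
      · exact mRel_good (T := T) (by decide) [Lt.f] [Lt.gi, Lt.f, Lt.bi, Lt.fi, Lt.b, Lt.f, Lt.gi, Lt.bi, Lt.fi, Lt.b, Lt.gi] (pair_rel hinv hr (by decide +kernel)) h
      · exact mRel_good (T := T) (by decide) [Lt.b] [Lt.bi, Lt.fi, Lt.bi, Lt.bi, Lt.fi, Lt.b, Lt.f, Lt.b, Lt.f, Lt.b, Lt.fi] (pair_rel hinv hr (by decide +kernel)) h
    · rcases brec_true h with h | h
      · exact mRel_good (T := T) (by decide) [Lt.f, Lt.g, Lt.f, Lt.gi, Lt.fi, Lt.bi, Lt.fi, Lt.gi, Lt.b, Lt.b, Lt.f] [Lt.bi] (pair_rel hinv hr (by decide +kernel)) h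
      · rcases brec_true h with h | h
        · exact mRel_good (T := T) (by decide) [Lt.bi, Lt.bi, Lt.g, Lt.f] [Lt.f, Lt.b, Lt.f, Lt.g, Lt.f, Lt.gi, Lt.fi, Lt.bi] (pair_rel hinv hr (by decide +kernel)) h
        · exact mRel_good (T := T) (by decide) [Lt.b, Lt.gi] [Lt.f, Lt.b, Lt.g, Lt.fi, Lt.bi, Lt.f, Lt.b, Lt.fi, Lt.g, Lt.f] (pair_rel hinv hr (by decide +kernel)) h
theorem dM_49_s (hinv : ∀ x, g (inv x) = (g x)⁻¹) (hr : ∀ r ∈ rels, (r.map g).prod = 1) (j z1 z2 u : ℕ) (h : dM_49 j z1 z2 u = true) : GoodM (fa g) T MG M (cP g H) u := by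
  unfold dM_49 at h
  rcases brec_true h with h | h
  · rcases brec_true h with h | h
    · rcases brec_true h with h | h
      · exact mRel_good (T := T) (by decide) [Lt.fi, Lt.b] [Lt.b, Lt.b, Lt.f, Lt.b, Lt.b, Lt.f, Lt.bi, Lt.fi, Lt.bi, Lt.fi] (pair_rel hinv hr (by decide +kernel)) h
      · exact mRel_good (T := T) (by decide) [Lt.bi, Lt.fi, Lt.b, Lt.f, Lt.b, Lt.f, Lt.b, Lt.fi] [Lt.b, Lt.f, Lt.b, Lt.b] (pair_rel hinv hr (by decide +kernel)) h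
    · rcases brec_true h with h | h
      · exact mRel_good (T := T) (by decide) [Lt.bi, Lt.bi, Lt.g, Lt.f, Lt.b, Lt.f, Lt.g, Lt.fi, Lt.gi, Lt.fi, Lt.bi] [Lt.f] (pair_rel hinv hr (by decide +kernel)) h
      · rcases brec_true h with h | h
        · exact mRel_good (T := T) (by decide) [Lt.b, Lt.b] [Lt.fi, Lt.bi, Lt.bi, Lt.fi, Lt.b, Lt.f, Lt.b, Lt.f, Lt.b, Lt.fi] (pair_rel hinv hr (by decide +kernel)) h
        · exact mRel_good (T := T) (by decide) [Lt.n, Lt.b] [Lt.b, Lt.n] (pair_rel hinv hr (by decide +kernel)) h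
  · rcases brec_true h with h | h
    · rcases brec_true h with h | h
      · exact mRel_good (T := T) (by decide) [Lt.fi] [Lt.n, Lt.f, Lt.ni] (pair_rel hinv hr (by decide +kernel)) h
      · rcases brec_true h with h | h
        · exact mRel_good (T := T) (by decide) [Lt.fi] [Lt.gi, Lt.fi, Lt.bi, Lt.fi, Lt.gi, Lt.b, Lt.b, Lt.f, Lt.b, Lt.f, Lt.g] (pair_rel hinv hr (by decide +kernel)) h
        · exact mRel_good (T := T) (by decide) [Lt.b, Lt.f, Lt.g, Lt.fi, Lt.gi, Lt.fi] [Lt.fi, Lt.gi, Lt.b, Lt.b, Lt.f, Lt.b] (pair_rel hinv hr (by decide +kernel)) h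
    · rcases brec_true h with h | h
      · exact mRel_good (T := T) (by decide) [Lt.bi, Lt.f, Lt.b, Lt.fi, Lt.g, Lt.f, Lt.g, Lt.bi] [Lt.f, Lt.gi, Lt.bi, Lt.fi] (pair_rel hinv hr (by decide +kernel)) h
      · rcases brec_true h with h | h
        · exact mRel_good (T := T) (by decide) [Lt.gi, Lt.b, Lt.b, Lt.f, Lt.b, Lt.f, Lt.g, Lt.f, Lt.gi, Lt.fi] [Lt.f, Lt.b] (pair_rel hinv hr (by decide +kernel)) h
        · exact mRel_good (T := T) (by decide) [Lt.f, Lt.bi, Lt.fi] [Lt.bi, Lt.bi, Lt.fi, Lt.bi, Lt.bi, Lt.fi, Lt.b, Lt.f, Lt.b] (pair_rel hinv hr (by decide +kernel)) h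
theorem dM_50_s (hinv : ∀ x, g (inv x) = (g x)⁻¹) (hr : ∀ r ∈ rels, (r.map g).prod = 1) (j z1 z2 u : ℕ) (h : dM_50 j z1 z2 u = true) : GoodM (fa g) T MG M (cP g H) u := by
  unfold dM_50 at h
  rcases brec_true h with h | h
  · exact dM_48_s hinv hr j z1 z2 u h
  · exact dM_49_s hinv hr j z1 z2 u h
theorem dM_51_s (hinv : ∀ x, g (inv x) = (g x)⁻¹) (hr : ∀ r ∈ rels, (r.map g).prod = 1) (j z1 z2 u : ℕ) (h : dM_51 j z1 z2 u = true) : GoodM (fa g) T MG M (cP g H) u := by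
  unfold dM_51 at h
  rcases brec_true h with h | h
  · exact dM_47_s hinv hr j z1 z2 u h
  · exact dM_50_s hinv hr j z1 z2 u h
theorem dM_52_s (hinv : ∀ x, g (inv x) = (g x)⁻¹) (hr : ∀ r ∈ rels, (r.map g).prod = 1) (j z1 z2 u : ℕ) (h : dM_52 j z1 z2 u = true) : GoodM (fa g) T MG M (cP g H) u := by
  unfold dM_52 at h
  rcases brec_true h with h | h
  · rcases brec_true h with h | h
    · rcases brec_true h with h | h
      · exact mRel_good (T := T) (by decide) [Lt.bi, Lt.fi, Lt.bi, Lt.bi, Lt.g, Lt.f, Lt.b, Lt.f, Lt.g] [Lt.f, Lt.g, Lt.f] (pair_rel hinv hr (by decide +kernel)) h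
      · exact mRel_good (T := T) (by decide) [Lt.bi, Lt.gi, Lt.b, Lt.g, Lt.bi, Lt.bi] [] (pair_rel hinv hr (by decide +kernel)) h
    · rcases brec_true h with h | h
      · exact mRel_good (T := T) (by decide) [Lt.f] [Lt.b, Lt.gi, Lt.fi, Lt.gi, Lt.f, Lt.bi, Lt.fi, Lt.b, Lt.f, Lt.gi, Lt.bi] (pair_rel hinv hr (by decide +kernel)) h
      · rcases brec_true h with h | h
        · exact mRel_good (T := T) (by decide) [Lt.g] [Lt.fi, Lt.gi, Lt.f, Lt.bi, Lt.fi, Lt.b, Lt.f, Lt.gi, Lt.bi, Lt.fi, Lt.b] (pair_rel hinv hr (by decide +kernel)) h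
        · exact mRel_good (T := T) (by decide) [Lt.bi, Lt.f, Lt.b, Lt.g, Lt.fi, Lt.bi, Lt.f, Lt.b, Lt.fi, Lt.g, Lt.f] [Lt.gi] (pair_rel hinv hr (by decide +kernel)) h
  · rcases brec_true h with h | h
    · rcases brec_true h with h | h
      · exact mRel_good (T := T) (by decide) [Lt.bi, Lt.fi, Lt.gi, Lt.b, Lt.b, Lt.f, Lt.b, Lt.f, Lt.g, Lt.f, Lt.gi, Lt.fi] [] (pair_rel hinv hr (by decide +kernel)) h
      · exact mRel_good (T := T) (by decide) [Lt.g, Lt.bi, Lt.f] [Lt.fi, Lt.gi, Lt.f, Lt.bi, Lt.fi, Lt.b, Lt.f, Lt.gi, Lt.bi] (pair_rel hinv hr (by decide +kernel)) h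
    · rcases brec_true h with h | h
      · exact mRel_good (T := T) (by decide) [Lt.bi, Lt.f, Lt.b, Lt.b, Lt.f, Lt.b, Lt.b, Lt.f] [Lt.f, Lt.b, Lt.f, Lt.b] (pair_rel hinv hr (by decide +kernel)) h
      · rcases brec_true h with h | h
        · exact mRel_good (T := T) (by decide) [Lt.gi] [Lt.f, Lt.gi, Lt.fi, Lt.bi, Lt.fi, Lt.gi, Lt.b, Lt.b, Lt.f, Lt.b, Lt.f] (pair_rel hinv hr (by decide +kernel)) h
        · exact mRel_good (T := T) (by decide) [Lt.bi, Lt.gi, Lt.b, Lt.g, Lt.bi] [Lt.b] (pair_rel hinv hr (by decide +kernel)) h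
theorem dM_53_s (hinv : ∀ x, g (inv x) = (g x)⁻¹) (hr : ∀ r ∈ rels, (r.map g).prod = 1) (j z1 z2 u : ℕ) (h : dM_53 j z1 z2 u = true) : GoodM (fa g) T MG M (cP g H) u := by
  unfold dM_53 at h
  rcases brec_true h with h | h
  · rcases brec_true h with h | h
    · rcases brec_true h with h | h
      · exact mRel_good (T := T) (by decide) [Lt.fi, Lt.bi, Lt.bi, Lt.fi, Lt.bi, Lt.bi, Lt.fi, Lt.b, Lt.f] [Lt.bi, Lt.fi, Lt.bi] (pair_rel hinv hr (by decide +kernel)) h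
      · exact mRel_good (T := T) (by decide) [Lt.n, Lt.f] [Lt.fi, Lt.n] (pair_rel hinv hr (by decide +kernel)) h
    · rcases brec_true h with h | h
      · exact mRel_good (T := T) (by decide) [Lt.f, Lt.b, Lt.b, Lt.f, Lt.b, Lt.b, Lt.f, Lt.bi] [Lt.b, Lt.f, Lt.b, Lt.f] (pair_rel hinv hr (by decide +kernel)) h
      · rcases brec_true h with h | h
        · exact mRel_good (T := T) (by decide) [Lt.f, Lt.b, Lt.g, Lt.fi] [Lt.b, Lt.gi, Lt.fi, Lt.gi, Lt.f, Lt.bi, Lt.fi, Lt.b] (pair_rel hinv hr (by decide +kernel)) h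
        · exact mRel_good (T := T) (by decide) [Lt.bi, Lt.fi, Lt.b, Lt.f, Lt.gi, Lt.bi, Lt.fi, Lt.b] [Lt.fi, Lt.g, Lt.f, Lt.g] (pair_rel hinv hr (by decide +kernel)) h
  · rcases brec_true h with h | h
    · rcases brec_true h with h | h
      · exact mRel_good (T := T) (by decide) [Lt.b] [Lt.fi, Lt.b, Lt.gi, Lt.fi, Lt.gi, Lt.f, Lt.bi, Lt.fi, Lt.b, Lt.f, Lt.gi] (pair_rel hinv hr (by decide +kernel)) h
      · rcases brec_true h with h | h
        · exact mRel_good (T := T) (by decide) [Lt.f, Lt.b] [Lt.bi, Lt.fi, Lt.bi, Lt.f, Lt.b, Lt.b, Lt.f, Lt.b, Lt.b, Lt.f] (pair_rel hinv hr (by decide +kernel)) h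
        · exact mRel_good (T := T) (by decide) [Lt.gi] [Lt.fi, Lt.bi, Lt.f, Lt.b, Lt.fi, Lt.g, Lt.f, Lt.g, Lt.bi, Lt.f, Lt.b] (pair_rel hinv hr (by decide +kernel)) h
    · rcases brec_true h with h | h
      · exact mRel_good (T := T) (by decide) [Lt.f, Lt.b, Lt.f, Lt.g] [Lt.gi, Lt.b, Lt.b, Lt.f, Lt.b, Lt.f, Lt.g, Lt.f] (pair_rel hinv hr (by decide +kernel)) h
      · rcases brec_true h with h | h
        · exact mRel_good (T := T) (by decide) [Lt.fi] [Lt.b, Lt.g, Lt.fi, Lt.bi, Lt.f, Lt.b, Lt.fi, Lt.g, Lt.f, Lt.g, Lt.bi] (pair_rel hinv hr (by decide +kernel)) h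
        · exact mRel_good (T := T) (by decide) [Lt.f, Lt.g, Lt.f, Lt.gi, Lt.fi, Lt.bi, Lt.fi, Lt.gi, Lt.b] [Lt.bi, Lt.fi, Lt.bi] (pair_rel hinv hr (by decide +kernel)) h
theorem dM_54_s (hinv : ∀ x, g (inv x) = (g x)⁻¹) (hr : ∀ r ∈ rels, (r.map g).prod = 1) (j z1 z2 u : ℕ) (h : dM_54 j z1 z2 u = true) : GoodM (fa g) T MG M (cP g H) u := by
  unfold dM_54 at h
  rcases brec_true h with h | h
  · exact dM_52_s hinv hr j z1 z2 u h
  · exact dM_53_s hinv hr j z1 z2 u h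
theorem dM_55_s (hinv : ∀ x, g (inv x) = (g x)⁻¹) (hr : ∀ r ∈ rels, (r.map g).prod = 1) (j z1 z2 u : ℕ) (h : dM_55 j z1 z2 u = true) : GoodM (fa g) T MG M (cP g H) u := by
  unfold dM_55 at h
  rcases brec_true h with h | h
  · rcases brec_true h with h | h
    · rcases brec_true h with h | h
      · exact mRel_good (T := T) (by decide) [Lt.b] [Lt.fi, Lt.bi, Lt.fi, Lt.bi, Lt.f, Lt.b, Lt.b, Lt.f, Lt.b, Lt.b, Lt.f] (pair_rel hinv hr (by decide +kernel)) h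
      · exact mRel_good (T := T) (by decide) [Lt.ni, Lt.gi, Lt.ni, Lt.gi, Lt.ni, Lt.gi] [] (pair_rel hinv hr (by decide +kernel)) h
    · rcases brec_true h with h | h
      · exact mRel_good (T := T) (by decide) [Lt.bi, Lt.fi, Lt.bi, Lt.bi, Lt.g, Lt.f, Lt.b] [Lt.f, Lt.g, Lt.f, Lt.gi, Lt.fi] (pair_rel hinv hr (by decide +kernel)) h
      · rcases brec_true h with h | h
        · exact mRel_good (T := T) (by decide) [Lt.fi, Lt.bi] [Lt.g, Lt.fi, Lt.gi, Lt.fi, Lt.bi, Lt.fi, Lt.bi, Lt.bi, Lt.g, Lt.f] (pair_rel hinv hr (by decide +kernel)) h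
        · exact mRel_good (T := T) (by decide) [Lt.fi, Lt.bi, Lt.bi, Lt.g, Lt.f, Lt.b, Lt.f, Lt.g] [Lt.b, Lt.f, Lt.g, Lt.f] (pair_rel hinv hr (by decide +kernel)) h
  · rcases brec_true h with h | h
    · rcases brec_true h with h | h
      · exact mRel_good (T := T) (by decide) [Lt.bi, Lt.fi] [Lt.g, Lt.fi, Lt.bi, Lt.f, Lt.b, Lt.fi, Lt.g, Lt.f, Lt.g, Lt.bi] (pair_rel hinv hr (by decide +kernel)) h
      · exact mRel_good (T := T) (by decide) [Lt.bi, Lt.f, Lt.b, Lt.b] [Lt.f, Lt.b, Lt.f, Lt.b, Lt.fi, Lt.bi, Lt.bi, Lt.fi] (pair_rel hinv hr (by decide +kernel)) h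
    · rcases brec_true h with h | h
      · exact mRel_good (T := T) (by decide) [Lt.bi, Lt.bi, Lt.fi, Lt.b, Lt.f, Lt.b, Lt.f, Lt.b, Lt.fi] [Lt.f, Lt.b, Lt.b] (pair_rel hinv hr (by decide +kernel)) h
      · rcases brec_true h with h | h
        · exact mRel_good (T := T) (by decide) [Lt.bi, Lt.bi, Lt.fi, Lt.b, Lt.f, Lt.b, Lt.f] [Lt.f, Lt.b, Lt.b, Lt.f, Lt.bi] (pair_rel hinv hr (by decide +kernel)) h
        · exact mRel_good (T := T) (by decide) [Lt.f, Lt.g, Lt.fi, Lt.gi, Lt.fi] [Lt.bi, Lt.fi, Lt.gi, Lt.b, Lt.b, Lt.f, Lt.b] (pair_rel hinv hr (by decide +kernel)) h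
theorem dM_56_s (hinv : ∀ x, g (inv x) = (g x)⁻¹) (hr : ∀ r ∈ rels, (r.map g).prod = 1) (j z1 z2 u : ℕ) (h : dM_56 j z1 z2 u = true) : GoodM (fa g) T MG M (cP g H) u := by
  unfold dM_56 at h
  rcases brec_true h with h | h
  · rcases brec_true h with h | h
    · rcases brec_true h with h | h
      · exact mRel_good (T := T) (by decide) [Lt.g, Lt.b] [Lt.b, Lt.g, Lt.bi, Lt.bi] (pair_rel hinv hr (by decide +kernel)) h
      · exact mRel_good (T := T) (by decide) [Lt.bi] [Lt.f, Lt.gi, Lt.bi, Lt.fi, Lt.b, Lt.gi, Lt.fi, Lt.gi, Lt.f, Lt.bi, Lt.fi] (pair_rel hinv hr (by decide +kernel)) h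
    · rcases brec_true h with h | h
      · exact mRel_good (T := T) (by decide) [Lt.g, Lt.b, Lt.b] [Lt.b, Lt.g, Lt.bi] (pair_rel hinv hr (by decide +kernel)) h
      · rcases brec_true h with h | h
        · exact mRel_good (T := T) (by decide) [Lt.fi, Lt.bi] [Lt.g, Lt.f, Lt.gi, Lt.fi, Lt.bi, Lt.fi, Lt.gi, Lt.b, Lt.b, Lt.f] (pair_rel hinv hr (by decide +kernel)) h
        · exact mRel_good (T := T) (by decide) [Lt.bi, Lt.fi, Lt.bi, Lt.fi] [Lt.fi, Lt.bi, Lt.bi, Lt.fi, Lt.bi, Lt.bi, Lt.fi, Lt.b] (pair_rel hinv hr (by decide +kernel)) h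
  · rcases brec_true h with h | h
    · rcases brec_true h with h | h
      · exact mRel_good (T := T) (by decide) [Lt.g, Lt.bi, Lt.f, Lt.b, Lt.g, Lt.fi, Lt.bi, Lt.f, Lt.b, Lt.fi, Lt.g] [Lt.fi] (pair_rel hinv hr (by decide +kernel)) h
      · rcases brec_true h with h | h
        · exact mRel_good (T := T) (by decide) [Lt.f, Lt.g] [Lt.bi, Lt.fi, Lt.bi, Lt.bi, Lt.g, Lt.f, Lt.b, Lt.f, Lt.g, Lt.fi] (pair_rel hinv hr (by decide +kernel)) h
        · exact mRel_good (T := T) (by decide) [Lt.b, Lt.gi, Lt.fi, Lt.gi, Lt.f, Lt.bi, Lt.fi, Lt.b, Lt.f, Lt.gi, Lt.bi] [Lt.f] (pair_rel hinv hr (by decide +kernel)) h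
    · rcases brec_true h with h | h
      · exact mRel_good (T := T) (by decide) [Lt.b, Lt.g, Lt.fi, Lt.bi, Lt.f, Lt.b, Lt.fi, Lt.g] [Lt.fi, Lt.b, Lt.gi, Lt.fi] (pair_rel hinv hr (by decide +kernel)) h
      · rcases brec_true h with h | h
        · exact mRel_good (T := T) (by decide) [Lt.gi, Lt.b, Lt.b, Lt.f, Lt.b] [Lt.f, Lt.b, Lt.f, Lt.g, Lt.fi, Lt.gi, Lt.fi] (pair_rel hinv hr (by decide +kernel)) h
        · exact mRel_good (T := T) (by decide) [Lt.b, Lt.f, Lt.gi, Lt.bi, Lt.fi] [Lt.f, Lt.b, Lt.fi, Lt.g, Lt.f, Lt.g, Lt.bi] (pair_rel hinv hr (by decide +kernel)) h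
theorem dM_57_s (hinv : ∀ x, g (inv x) = (g x)⁻¹) (hr : ∀ r ∈ rels, (r.map g).prod = 1) (j z1 z2 u : ℕ) (h : dM_57 j z1 z2 u = true) : GoodM (fa g) T MG M (cP g H) u := by
  unfold dM_57 at h
  rcases brec_true h with h | h
  · exact dM_55_s hinv hr j z1 z2 u h
  · exact dM_56_s hinv hr j z1 z2 u h
theorem dM_58_s (hinv : ∀ x, g (inv x) = (g x)⁻¹) (hr : ∀ r ∈ rels, (r.map g).prod = 1) (j z1 z2 u : ℕ) (h : dM_58 j z1 z2 u = true) : GoodM (fa g) T MG M (cP g H) u := by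
  unfold dM_58 at h
  rcases brec_true h with h | h
  · exact dM_54_s hinv hr j z1 z2 u h
  · exact dM_57_s hinv hr j z1 z2 u h
theorem dM_59_s (hinv : ∀ x, g (inv x) = (g x)⁻¹) (hr : ∀ r ∈ rels, (r.map g).prod = 1) (j z1 z2 u : ℕ) (h : dM_59 j z1 z2 u = true) : GoodM (fa g) T MG M (cP g H) u := by
  unfold dM_59 at h
  rcases brec_true h with h | h
  · exact dM_51_s hinv hr j z1 z2 u h
  · exact dM_58_s hinv hr j z1 z2 u h
theorem dM_60_s (hinv : ∀ x, g (inv x) = (g x)⁻¹) (hr : ∀ r ∈ rels, (r.map g).prod = 1) (j z1 z2 u : ℕ) (h : dM_60 j z1 z2 u = true) : GoodM (fa g) T MG M (cP g H) u := by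
  unfold dM_60 at h
  rcases brec_true h with h | h
  · rcases brec_true h with h | h
    · rcases brec_true h with h | h
      · exact mRel_good (T := T) (by decide) [Lt.fi, Lt.bi, Lt.fi, Lt.bi, Lt.f, Lt.b, Lt.b, Lt.f, Lt.b, Lt.b, Lt.f] [Lt.b] (pair_rel hinv hr (by decide +kernel)) h
      · exact mRel_good (T := T) (by decide) [Lt.b, Lt.f] [Lt.fi, Lt.gi, Lt.b, Lt.b, Lt.f, Lt.b, Lt.f, Lt.g, Lt.f, Lt.gi] (pair_rel hinv hr (by decide +kernel)) h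
    · rcases brec_true h with h | h
      · exact mRel_good (T := T) (by decide) [Lt.b, Lt.b, Lt.f, Lt.b, Lt.b, Lt.f, Lt.bi, Lt.fi, Lt.bi, Lt.fi, Lt.bi] [Lt.fi] (pair_rel hinv hr (by decide +kernel)) h
      · rcases brec_true h with h | h
        · exact mRel_good (T := T) (by decide) [Lt.b, Lt.f, Lt.b, Lt.fi, Lt.bi, Lt.bi, Lt.fi, Lt.bi, Lt.bi] [Lt.fi, Lt.bi, Lt.f] (pair_rel hinv hr (by decide +kernel)) h
        · exact mRel_good (T := T) (by decide) [Lt.gi, Lt.b, Lt.b, Lt.f, Lt.b, Lt.f, Lt.g, Lt.f, Lt.gi, Lt.fi, Lt.bi] [Lt.f] (pair_rel hinv hr (by decide +kernel)) h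
  · rcases brec_true h with h | h
    · rcases brec_true h with h | h
      · exact mRel_good (T := T) (by decide) [Lt.g, Lt.fi, Lt.gi, Lt.fi, Lt.bi, Lt.fi, Lt.bi] [Lt.fi, Lt.bi, Lt.fi, Lt.gi, Lt.b] (pair_rel hinv hr (by decide +kernel)) h
      · exact mRel_good (T := T) (by decide) [Lt.b, Lt.fi, Lt.bi, Lt.bi, Lt.fi, Lt.bi, Lt.bi, Lt.fi] [Lt.fi, Lt.bi, Lt.fi, Lt.bi] (pair_rel hinv hr (by decide +kernel)) h
    · rcases brec_true h with h | h
      · exact mRel_good (T := T) (by decide) [Lt.bi] [Lt.n, Lt.bi, Lt.ni] (pair_rel hinv hr (by decide +kernel)) h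
      · rcases brec_true h with h | h
        · exact mRel_good (T := T) (by decide) [Lt.bi, Lt.fi, Lt.b, Lt.gi, Lt.fi] [Lt.g, Lt.fi, Lt.bi, Lt.f, Lt.b, Lt.fi, Lt.g] (pair_rel hinv hr (by decide +kernel)) h
        · exact mRel_good (T := T) (by decide) [Lt.g, Lt.f, Lt.gi, Lt.fi, Lt.bi] [Lt.fi, Lt.bi, Lt.fi, Lt.bi, Lt.bi, Lt.g, Lt.f] (pair_rel hinv hr (by decide +kernel)) h
theorem dM_61_s (hinv : ∀ x, g (inv x) = (g x)⁻¹) (hr : ∀ r ∈ rels, (r.map g).prod = 1) (j z1 z2 u : ℕ) (h : dM_61 j z1 z2 u = true) : GoodM (fa g) T MG M (cP g H) u := by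
  unfold dM_61 at h
  rcases brec_true h with h | h
  · rcases brec_true h with h | h
    · rcases brec_true h with h | h
      · exact mRel_good (T := T) (by decide) [Lt.f, Lt.g, Lt.bi, Lt.f] [Lt.gi, Lt.f, Lt.bi, Lt.fi, Lt.b, Lt.f, Lt.gi, Lt.bi] (pair_rel hinv hr (by decide +kernel)) h
      · exact mRel_good (T := T) (by decide) [Lt.b, Lt.f, Lt.b, Lt.f, Lt.b, Lt.fi] [Lt.f, Lt.b, Lt.b, Lt.f, Lt.b, Lt.b] (pair_rel hinv hr (by decide +kernel)) h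
    · rcases brec_true h with h | h
      · exact mRel_good (T := T) (by decide) [Lt.z, Lt.gi, Lt.zi] [Lt.gi] (pair_rel hinv hr (by decide +kernel)) h
      · rcases brec_true h with h | h
        · exact mRel_good (T := T) (by decide) [Lt.f, Lt.b, Lt.fi] [Lt.b, Lt.f, Lt.gi, Lt.bi, Lt.fi, Lt.b, Lt.gi, Lt.fi, Lt.gi] (pair_rel hinv hr (by decide +kernel)) h
        · exact mRel_good (T := T) (by decide) [Lt.bi, Lt.f, Lt.b, Lt.g, Lt.fi, Lt.bi, Lt.f, Lt.b, Lt.fi, Lt.g] [Lt.gi, Lt.fi] (pair_rel hinv hr (by decide +kernel)) h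
  · rcases brec_true h with h | h
    · rcases brec_true h with h | h
      · exact mRel_good (T := T) (by decide) [Lt.fi, Lt.bi, Lt.bi, Lt.fi, Lt.bi] [Lt.bi, Lt.fi, Lt.bi, Lt.fi, Lt.bi, Lt.f, Lt.b] (pair_rel hinv hr (by decide +kernel)) h
      · rcases brec_true h with h | h
        · exact mRel_good (T := T) (by decide) [Lt.f, Lt.b, Lt.f, Lt.g, Lt.fi, Lt.gi, Lt.fi] [Lt.gi, Lt.b, Lt.b, Lt.f, Lt.b] (pair_rel hinv hr (by decide +kernel)) h
        · exact mRel_good (T := T) (by decide) [Lt.bi, Lt.fi, Lt.bi, Lt.fi, Lt.bi] [Lt.fi, Lt.bi, Lt.bi, Lt.fi, Lt.bi, Lt.bi, Lt.fi] (pair_rel hinv hr (by decide +kernel)) h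
    · rcases brec_true h with h | h
      · exact mRel_good (T := T) (by decide) [Lt.g, Lt.fi, Lt.bi, Lt.f, Lt.b] [Lt.bi, Lt.fi, Lt.b, Lt.gi, Lt.fi, Lt.gi, Lt.f] (pair_rel hinv hr (by decide +kernel)) h
      · rcases brec_true h with h | h
        · exact mRel_good (T := T) (by decide) [Lt.bi, Lt.fi, Lt.bi] [Lt.f, Lt.b, Lt.fi, Lt.bi, Lt.bi, Lt.fi, Lt.bi, Lt.bi, Lt.fi] (pair_rel hinv hr (by decide +kernel)) h
        · exact mRel_good (T := T) (by decide) [Lt.bi, Lt.fi, Lt.b, Lt.f, Lt.gi, Lt.bi, Lt.fi, Lt.b, Lt.gi, Lt.fi] [Lt.fi, Lt.g] (pair_rel hinv hr (by decide +kernel)) h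
theorem dM_62_s (hinv : ∀ x, g (inv x) = (g x)⁻¹) (hr : ∀ r ∈ rels, (r.map g).prod = 1) (j z1 z2 u : ℕ) (h : dM_62 j z1 z2 u = true) : GoodM (fa g) T MG M (cP g H) u := by
  unfold dM_62 at h
  rcases brec_true h with h | h
  · exact dM_60_s hinv hr j z1 z2 u h
  · exact dM_61_s hinv hr j z1 z2 u h
theorem dM_63_s (hinv : ∀ x, g (inv x) = (g x)⁻¹) (hr : ∀ r ∈ rels, (r.map g).prod = 1) (j z1 z2 u : ℕ) (h : dM_63 j z1 z2 u = true) : GoodM (fa g) T MG M (cP g H) u := by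
  unfold dM_63 at h
  rcases brec_true h with h | h
  · rcases brec_true h with h | h
    · rcases brec_true h with h | h
      · exact mRel_good (T := T) (by decide) [Lt.fi, Lt.b, Lt.gi, Lt.fi] [Lt.b, Lt.g, Lt.fi, Lt.bi, Lt.f, Lt.b, Lt.fi, Lt.g] (pair_rel hinv hr (by decide +kernel)) h
      · exact mRel_good (T := T) (by decide) [Lt.g, Lt.f, Lt.gi, Lt.fi, Lt.bi, Lt.fi, Lt.gi, Lt.b, Lt.b] [Lt.fi, Lt.bi, Lt.fi] (pair_rel hinv hr (by decide +kernel)) h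
    · rcases brec_true h with h | h
      · exact mRel_good (T := T) (by decide) [Lt.f, Lt.b, Lt.fi, Lt.g] [Lt.b, Lt.f, Lt.gi, Lt.bi, Lt.fi, Lt.b, Lt.gi, Lt.fi] (pair_rel hinv hr (by decide +kernel)) h
      · rcases brec_true h with h | h
        · exact mRel_good (T := T) (by decide) [Lt.b, Lt.f, Lt.gi, Lt.bi, Lt.fi, Lt.b, Lt.gi, Lt.fi, Lt.gi, Lt.f] [Lt.f, Lt.b] (pair_rel hinv hr (by decide +kernel)) h
        · exact mRel_good (T := T) (by decide) [Lt.fi] [Lt.bi, Lt.fi, Lt.b, Lt.f, Lt.gi, Lt.bi, Lt.fi, Lt.b, Lt.gi, Lt.fi, Lt.gi] (pair_rel hinv hr (by decide +kernel)) h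
  · rcases brec_true h with h | h
    · rcases brec_true h with h | h
      · exact mRel_good (T := T) (by decide) [Lt.bi, Lt.fi, Lt.b, Lt.gi, Lt.fi, Lt.gi, Lt.f, Lt.bi] [Lt.g, Lt.fi, Lt.bi, Lt.f] (pair_rel hinv hr (by decide +kernel)) h
      · exact mRel_good (T := T) (by decide) [Lt.b, Lt.fi, Lt.bi, Lt.bi, Lt.fi, Lt.bi, Lt.bi, Lt.fi, Lt.b, Lt.f] [Lt.fi, Lt.bi] (pair_rel hinv hr (by decide +kernel)) h
    · rcases brec_true h with h | h
      · exact mRel_good (T := T) (by decide) [Lt.b, Lt.f, Lt.g, Lt.f, Lt.gi, Lt.fi, Lt.bi, Lt.fi, Lt.gi] [Lt.fi, Lt.bi, Lt.bi] (pair_rel hinv hr (by decide +kernel)) h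
      · rcases brec_true h with h | h
        · exact mRel_good (T := T) (by decide) [Lt.fi, Lt.g] [Lt.bi, Lt.fi, Lt.b, Lt.f, Lt.gi, Lt.bi, Lt.fi, Lt.b, Lt.gi, Lt.fi] (pair_rel hinv hr (by decide +kernel)) h
        · exact mRel_good (T := T) (by decide) [Lt.b, Lt.b, Lt.f] [Lt.g, Lt.f, Lt.b, Lt.f, Lt.g, Lt.fi, Lt.gi, Lt.fi, Lt.bi] (pair_rel hinv hr (by decide +kernel)) h
theorem dM_64_s (hinv : ∀ x, g (inv x) = (g x)⁻¹) (hr : ∀ r ∈ rels, (r.map g).prod = 1) (j z1 z2 u : ℕ) (h : dM_64 j z1 z2 u = true) : GoodM (fa g) T MG M (cP g H) u := by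
  unfold dM_64 at h
  rcases brec_true h with h | h
  · rcases brec_true h with h | h
    · rcases brec_true h with h | h
      · exact mRel_good (T := T) (by decide) [Lt.bi, Lt.bi, Lt.fi, Lt.bi, Lt.bi, Lt.fi, Lt.b, Lt.f] [Lt.f, Lt.bi, Lt.fi, Lt.bi] (pair_rel hinv hr (by decide +kernel)) h
      · exact mRel_good (T := T) (by decide) [Lt.b, Lt.fi, Lt.bi, Lt.bi, Lt.fi, Lt.bi, Lt.bi, Lt.fi, Lt.b, Lt.f, Lt.b, Lt.f] [] (pair_rel hinv hr (by decide +kernel)) h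
    · rcases brec_true h with h | h
      · exact mRel_good (T := T) (by decide) [Lt.b, Lt.f, Lt.g] [Lt.fi, Lt.bi, Lt.bi, Lt.g, Lt.f, Lt.b, Lt.f, Lt.g, Lt.fi] (pair_rel hinv hr (by decide +kernel)) h
      · rcases brec_true h with h | h
        · exact mRel_good (T := T) (by decide) [Lt.g, Lt.f, Lt.g, Lt.bi, Lt.f, Lt.b, Lt.g] [Lt.f, Lt.bi, Lt.fi, Lt.b, Lt.f] (pair_rel hinv hr (by decide +kernel)) h
        · exact mRel_good (T := T) (by decide) [Lt.f, Lt.gi, Lt.bi, Lt.fi, Lt.b, Lt.gi, Lt.fi, Lt.gi] [Lt.bi, Lt.f, Lt.b, Lt.fi] (pair_rel hinv hr (by decide +kernel)) h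
  · rcases brec_true h with h | h
    · rcases brec_true h with h | h
      · exact mRel_good (T := T) (by decide) [Lt.bi, Lt.f, Lt.b, Lt.g, Lt.fi, Lt.bi, Lt.f, Lt.b, Lt.fi] [Lt.gi, Lt.fi, Lt.gi] (pair_rel hinv hr (by decide +kernel)) h
      · rcases brec_true h with h | h
        · exact mRel_good (T := T) (by decide) [Lt.f, Lt.bi] [Lt.g, Lt.f, Lt.g, Lt.bi, Lt.f, Lt.b, Lt.g, Lt.fi, Lt.bi, Lt.f] (pair_rel hinv hr (by decide +kernel)) h
        · exact mRel_good (T := T) (by decide) [Lt.fi, Lt.bi, Lt.bi] [Lt.bi, Lt.fi, Lt.bi, Lt.fi, Lt.bi, Lt.f, Lt.b, Lt.b, Lt.f] (pair_rel hinv hr (by decide +kernel)) h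
    · rcases brec_true h with h | h
      · exact mRel_good (T := T) (by decide) [Lt.g, Lt.bi, Lt.f, Lt.b, Lt.g] [Lt.fi, Lt.gi, Lt.f, Lt.bi, Lt.fi, Lt.b, Lt.f] (pair_rel hinv hr (by decide +kernel)) h
      · rcases brec_true h with h | h
        · exact mRel_good (T := T) (by decide) [Lt.gi, Lt.fi] [Lt.bi, Lt.f, Lt.b, Lt.g, Lt.fi, Lt.bi, Lt.f, Lt.b, Lt.fi, Lt.g] (pair_rel hinv hr (by decide +kernel)) h
        · exact mRel_good (T := T) (by decide) [Lt.ni, Lt.f] [Lt.fi, Lt.ni] (pair_rel hinv hr (by decide +kernel)) h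
theorem dM_65_s (hinv : ∀ x, g (inv x) = (g x)⁻¹) (hr : ∀ r ∈ rels, (r.map g).prod = 1) (j z1 z2 u : ℕ) (h : dM_65 j z1 z2 u = true) : GoodM (fa g) T MG M (cP g H) u := by
  unfold dM_65 at h
  rcases brec_true h with h | h
  · exact dM_63_s hinv hr j z1 z2 u h
  · exact dM_64_s hinv hr j z1 z2 u h
theorem dM_66_s (hinv : ∀ x, g (inv x) = (g x)⁻¹) (hr : ∀ r ∈ rels, (r.map g).prod = 1) (j z1 z2 u : ℕ) (h : dM_66 j z1 z2 u = true) : GoodM (fa g) T MG M (cP g H) u := by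
  unfold dM_66 at h
  rcases brec_true h with h | h
  · exact dM_62_s hinv hr j z1 z2 u h
  · exact dM_65_s hinv hr j z1 z2 u h
theorem dM_67_s (hinv : ∀ x, g (inv x) = (g x)⁻¹) (hr : ∀ r ∈ rels, (r.map g).prod = 1) (j z1 z2 u : ℕ) (h : dM_67 j z1 z2 u = true) : GoodM (fa g) T MG M (cP g H) u := by
  unfold dM_67 at h
  rcases brec_true h with h | h
  · rcases brec_true h with h | h
    · rcases brec_true h with h | h
      · exact mRel_good (T := T) (by decide) [Lt.g, Lt.fi, Lt.gi, Lt.fi, Lt.bi, Lt.fi, Lt.bi, Lt.bi, Lt.g, Lt.f, Lt.b] [Lt.fi] (pair_rel hinv hr (by decide +kernel)) h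
      · exact mRel_good (T := T) (by decide) [Lt.b, Lt.b, Lt.f, Lt.b, Lt.f, Lt.g, Lt.f, Lt.gi, Lt.fi] [Lt.g, Lt.f, Lt.b] (pair_rel hinv hr (by decide +kernel)) h
    · rcases brec_true h with h | h
      · exact mRel_good (T := T) (by decide) [Lt.fi, Lt.bi, Lt.fi, Lt.bi, Lt.bi, Lt.g, Lt.f] [Lt.g, Lt.f, Lt.gi, Lt.fi, Lt.bi] (pair_rel hinv hr (by decide +kernel)) h
      · rcases brec_true h with h | h
        · exact mRel_good (T := T) (by decide) [Lt.g, Lt.f, Lt.gi, Lt.fi] [Lt.fi, Lt.bi, Lt.fi, Lt.bi, Lt.bi, Lt.g, Lt.f, Lt.b] (pair_rel hinv hr (by decide +kernel)) h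
        · exact mRel_good (T := T) (by decide) [Lt.g, Lt.f, Lt.b] [Lt.b, Lt.b, Lt.f, Lt.b, Lt.f, Lt.g, Lt.f, Lt.gi, Lt.fi] (pair_rel hinv hr (by decide +kernel)) h
  · rcases brec_true h with h | h
    · rcases brec_true h with h | h
      · exact mRel_good (T := T) (by decide) [Lt.bi, Lt.fi, Lt.bi, Lt.fi, Lt.bi, Lt.f, Lt.b, Lt.b, Lt.f] [Lt.fi, Lt.bi, Lt.bi] (pair_rel hinv hr (by decide +kernel)) h
      · exact mRel_good (T := T) (by decide) [Lt.bi, Lt.f, Lt.b] [Lt.f, Lt.b, Lt.f, Lt.b, Lt.fi, Lt.bi, Lt.bi, Lt.fi, Lt.bi] (pair_rel hinv hr (by decide +kernel)) h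
    · rcases brec_true h with h | h
      · exact mRel_good (T := T) (by decide) [Lt.fi, Lt.bi, Lt.bi, Lt.fi, Lt.b, Lt.f] [Lt.b, Lt.b, Lt.f, Lt.bi, Lt.fi, Lt.bi] (pair_rel hinv hr (by decide +kernel)) h
      · rcases brec_true h with h | h
        · exact mRel_good (T := T) (by decide) [Lt.b, Lt.b, Lt.f, Lt.b, Lt.f, Lt.g, Lt.f, Lt.gi, Lt.fi, Lt.bi, Lt.fi] [Lt.g] (pair_rel hinv hr (by decide +kernel)) h
        · exact mRel_good (T := T) (by decide) [Lt.g, Lt.bi, Lt.f, Lt.b, Lt.g, Lt.fi, Lt.bi, Lt.f, Lt.b, Lt.fi] [Lt.fi, Lt.gi] (pair_rel hinv hr (by decide +kernel)) h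
theorem dM_68_s (hinv : ∀ x, g (inv x) = (g x)⁻¹) (hr : ∀ r ∈ rels, (r.map g).prod = 1) (j z1 z2 u : ℕ) (h : dM_68 j z1 z2 u = true) : GoodM (fa g) T MG M (cP g H) u := by
  unfold dM_68 at h
  rcases brec_true h with h | h
  · rcases brec_true h with h | h
    · rcases brec_true h with h | h
      · exact mRel_good (T := T) (by decide) [Lt.b, Lt.b, Lt.f, Lt.bi, Lt.fi, Lt.bi, Lt.fi, Lt.bi, Lt.f] [Lt.fi, Lt.bi, Lt.bi] (pair_rel hinv hr (by decide +kernel)) h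
      · exact mRel_good (T := T) (by decide) [Lt.bi, Lt.fi, Lt.bi, Lt.fi, Lt.bi, Lt.f, Lt.b, Lt.b, Lt.f, Lt.b, Lt.b] [Lt.fi] (pair_rel hinv hr (by decide +kernel)) h
    · rcases brec_true h with h | h
      · exact mRel_good (T := T) (by decide) [Lt.b, Lt.f, Lt.g, Lt.fi] [Lt.fi, Lt.gi, Lt.b, Lt.b, Lt.f, Lt.b, Lt.f, Lt.g] (pair_rel hinv hr (by decide +kernel)) h
      · rcases brec_true h with h | h
        · exact mRel_good (T := T) (by decide) [Lt.b, Lt.b, Lt.f, Lt.b, Lt.b, Lt.f, Lt.bi, Lt.fi] [Lt.fi, Lt.b, Lt.f, Lt.b] (pair_rel hinv hr (by decide +kernel)) h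
        · exact mRel_good (T := T) (by decide) [Lt.f, Lt.b, Lt.b] [Lt.bi, Lt.bi, Lt.fi, Lt.b, Lt.f, Lt.b, Lt.f, Lt.b, Lt.fi] (pair_rel hinv hr (by decide +kernel)) h
  · rcases brec_true h with h | h
    · rcases brec_true h with h | h
      · exact mRel_good (T := T) (by decide) [Lt.f, Lt.b, Lt.f, Lt.b, Lt.fi] [Lt.bi, Lt.f, Lt.b, Lt.b, Lt.f, Lt.b, Lt.b] (pair_rel hinv hr (by decide +kernel)) h
      · rcases brec_true h with h | h
        · exact mRel_good (T := T) (by decide) [Lt.g] [Lt.fi, Lt.bi, Lt.fi, Lt.gi, Lt.b, Lt.b, Lt.f, Lt.b, Lt.f, Lt.g, Lt.f] (pair_rel hinv hr (by decide +kernel)) h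
        · exact mRel_good (T := T) (by decide) [Lt.fi, Lt.bi, Lt.fi, Lt.gi, Lt.b, Lt.b, Lt.f, Lt.b, Lt.f] [Lt.g, Lt.fi, Lt.gi] (pair_rel hinv hr (by decide +kernel)) h
    · rcases brec_true h with h | h
      · exact mRel_good (T := T) (by decide) [Lt.f, Lt.g, Lt.bi, Lt.f, Lt.b, Lt.g, Lt.fi, Lt.bi, Lt.f, Lt.b, Lt.fi, Lt.g] [] (pair_rel hinv hr (by decide +kernel)) h
      · rcases brec_true h with h | h
        · exact mRel_good (T := T) (by decide) [Lt.gi, Lt.fi, Lt.bi, Lt.fi, Lt.gi, Lt.b, Lt.b, Lt.f, Lt.b, Lt.f] [Lt.fi, Lt.gi] (pair_rel hinv hr (by decide +kernel)) h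
        · exact mRel_good (T := T) (by decide) [Lt.bi, Lt.fi, Lt.gi, Lt.b, Lt.b, Lt.f, Lt.b, Lt.f, Lt.g, Lt.f] [Lt.f, Lt.g] (pair_rel hinv hr (by decide +kernel)) h
theorem dM_69_s (hinv : ∀ x, g (inv x) = (g x)⁻¹) (hr : ∀ r ∈ rels, (r.map g).prod = 1) (j z1 z2 u : ℕ) (h : dM_69 j z1 z2 u = true) : GoodM (fa g) T MG M (cP g H) u := by
  unfold dM_69 at h
  rcases brec_true h with h | h
  · exact dM_67_s hinv hr j z1 z2 u h
  · exact dM_68_s hinv hr j z1 z2 u h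
theorem dM_70_s (hinv : ∀ x, g (inv x) = (g x)⁻¹) (hr : ∀ r ∈ rels, (r.map g).prod = 1) (j z1 z2 u : ℕ) (h : dM_70 j z1 z2 u = true) : GoodM (fa g) T MG M (cP g H) u := by
  unfold dM_70 at h
  rcases brec_true h with h | h
  · rcases brec_true h with h | h
    · rcases brec_true h with h | h
      · exact mRel_good (T := T) (by decide) [Lt.gi, Lt.f, Lt.bi, Lt.fi, Lt.b, Lt.f, Lt.gi, Lt.bi, Lt.fi] [Lt.f, Lt.g, Lt.bi] (pair_rel hinv hr (by decide +kernel)) h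
      · exact mRel_good (T := T) (by decide) [Lt.gi, Lt.fi, Lt.bi, Lt.fi, Lt.gi] [Lt.fi, Lt.gi, Lt.fi, Lt.bi, Lt.fi, Lt.bi, Lt.bi] (pair_rel hinv hr (by decide +kernel)) h
    · rcases brec_true h with h | h
      · exact mRel_good (T := T) (by decide) [Lt.f, Lt.b] [Lt.b, Lt.gi, Lt.fi, Lt.gi, Lt.f, Lt.bi, Lt.fi, Lt.b, Lt.f, Lt.gi] (pair_rel hinv hr (by decide +kernel)) h
      · rcases brec_true h with h | h
        · exact mRel_good (T := T) (by decide) [Lt.ni, Lt.f, Lt.n] [Lt.fi] (pair_rel hinv hr (by decide +kernel)) h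
        · exact mRel_good (T := T) (by decide) [Lt.ni, Lt.b] [Lt.b, Lt.ni] (pair_rel hinv hr (by decide +kernel)) h
  · rcases brec_true h with h | h
    · rcases brec_true h with h | h
      · exact mRel_good (T := T) (by decide) [Lt.gi, Lt.ni, Lt.gi, Lt.ni] [Lt.n, Lt.g] (pair_rel hinv hr (by decide +kernel)) h
      · exact mRel_good (T := T) (by decide) [Lt.ni, Lt.fi] [Lt.f, Lt.ni] (pair_rel hinv hr (by decide +kernel)) h
    · rcases brec_true h with h | h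
      · exact mRel_good (T := T) (by decide) [Lt.n, Lt.fi] [Lt.f, Lt.n] (pair_rel hinv hr (by decide +kernel)) h
      · rcases brec_true h with h | h
        · exact mRel_good (T := T) (by decide) [Lt.bi, Lt.bi] [Lt.f, Lt.bi, Lt.fi, Lt.bi, Lt.fi, Lt.bi, Lt.f, Lt.b, Lt.b, Lt.f] (pair_rel hinv hr (by decide +kernel)) h
        · exact mRel_good (T := T) (by decide) [Lt.gi, Lt.fi, Lt.bi, Lt.fi, Lt.bi, Lt.bi, Lt.g, Lt.f] [Lt.f, Lt.gi, Lt.fi, Lt.bi] (pair_rel hinv hr (by decide +kernel)) h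
theorem dM_71_s (hinv : ∀ x, g (inv x) = (g x)⁻¹) (hr : ∀ r ∈ rels, (r.map g).prod = 1) (j z1 z2 u : ℕ) (h : dM_71 j z1 z2 u = true) : GoodM (fa g) T MG M (cP g H) u := by
  unfold dM_71 at h
  rcases brec_true h with h | h
  · rcases brec_true h with h | h
    · rcases brec_true h with h | h
      · exact mRel_good (T := T) (by decide) [Lt.fi, Lt.b, Lt.gi] [Lt.b, Lt.g, Lt.fi, Lt.bi, Lt.f, Lt.b, Lt.fi, Lt.g, Lt.f] (pair_rel hinv hr (by decide +kernel)) h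
      · exact mRel_good (T := T) (by decide) [Lt.b, Lt.f, Lt.b, Lt.f] [Lt.f, Lt.b, Lt.b, Lt.f, Lt.b, Lt.b, Lt.f, Lt.bi] (pair_rel hinv hr (by decide +kernel)) h
    · rcases brec_true h with h | h
      · exact mRel_good (T := T) (by decide) [Lt.fi, Lt.b, Lt.f, Lt.gi, Lt.bi, Lt.fi] [Lt.b, Lt.fi, Lt.g, Lt.f, Lt.g, Lt.bi] (pair_rel hinv hr (by decide +kernel)) h
      · rcases brec_true h with h | h
        · exact mRel_good (T := T) (by decide) [Lt.g, Lt.fi, Lt.gi, Lt.fi] [Lt.fi, Lt.bi, Lt.fi, Lt.gi, Lt.b, Lt.b, Lt.f, Lt.b] (pair_rel hinv hr (by decide +kernel)) h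
        · exact mRel_good (T := T) (by decide) [Lt.n, Lt.bi] [Lt.bi, Lt.n] (pair_rel hinv hr (by decide +kernel)) h
  · rcases brec_true h with h | h
    · rcases brec_true h with h | h
      · exact mRel_good (T := T) (by decide) [Lt.bi, Lt.f, Lt.b, Lt.b, Lt.f] [Lt.f, Lt.b, Lt.f, Lt.b, Lt.fi, Lt.bi, Lt.bi] (pair_rel hinv hr (by decide +kernel)) h
      · rcases brec_true h with h | h
        · exact mRel_good (T := T) (by decide) [Lt.f, Lt.gi, Lt.bi, Lt.fi, Lt.b, Lt.gi, Lt.fi] [Lt.bi, Lt.f, Lt.b, Lt.fi, Lt.g] (pair_rel hinv hr (by decide +kernel)) h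
        · exact mRel_good (T := T) (by decide) [Lt.g, Lt.fi, Lt.bi, Lt.f, Lt.b, Lt.fi] [Lt.bi, Lt.fi, Lt.b, Lt.gi, Lt.fi, Lt.gi] (pair_rel hinv hr (by decide +kernel)) h
    · rcases brec_true h with h | h
      · exact mRel_good (T := T) (by decide) [Lt.bi, Lt.bi, Lt.fi, Lt.bi, Lt.bi, Lt.fi, Lt.b, Lt.f, Lt.b, Lt.f] [Lt.f, Lt.bi] (pair_rel hinv hr (by decide +kernel)) h
      · rcases brec_true h with h | h
        · exact mRel_good (T := T) (by decide) [Lt.g, Lt.fi] [Lt.fi, Lt.bi, Lt.fi, Lt.gi, Lt.b, Lt.b, Lt.f, Lt.b, Lt.f, Lt.g] (pair_rel hinv hr (by decide +kernel)) h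
        · exact mRel_good (T := T) (by decide) [Lt.f, Lt.gi, Lt.fi, Lt.bi] [Lt.gi, Lt.fi, Lt.bi, Lt.fi, Lt.bi, Lt.bi, Lt.g, Lt.f] (pair_rel hinv hr (by decide +kernel)) h
theorem dM_72_s (hinv : ∀ x, g (inv x) = (g x)⁻¹) (hr : ∀ r ∈ rels, (r.map g).prod = 1) (j z1 z2 u : ℕ) (h : dM_72 j z1 z2 u = true) : GoodM (fa g) T MG M (cP g H) u := by
  unfold dM_72 at h
  rcases brec_true h with h | h
  · exact dM_70_s hinv hr j z1 z2 u h
  · exact dM_71_s hinv hr j z1 z2 u h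
theorem dM_73_s (hinv : ∀ x, g (inv x) = (g x)⁻¹) (hr : ∀ r ∈ rels, (r.map g).prod = 1) (j z1 z2 u : ℕ) (h : dM_73 j z1 z2 u = true) : GoodM (fa g) T MG M (cP g H) u := by
  unfold dM_73 at h
  rcases brec_true h with h | h
  · exact dM_69_s hinv hr j z1 z2 u h
  · exact dM_72_s hinv hr j z1 z2 u h
theorem dM_74_s (hinv : ∀ x, g (inv x) = (g x)⁻¹) (hr : ∀ r ∈ rels, (r.map g).prod = 1) (j z1 z2 u : ℕ) (h : dM_74 j z1 z2 u = true) : GoodM (fa g) T MG M (cP g H) u := by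
  unfold dM_74 at h
  rcases brec_true h with h | h
  · exact dM_66_s hinv hr j z1 z2 u h
  · exact dM_73_s hinv hr j z1 z2 u h
theorem dM_75_s (hinv : ∀ x, g (inv x) = (g x)⁻¹) (hr : ∀ r ∈ rels, (r.map g).prod = 1) (j z1 z2 u : ℕ) (h : dM_75 j z1 z2 u = true) : GoodM (fa g) T MG M (cP g H) u := by
  unfold dM_75 at h
  rcases brec_true h with h | h
  · exact dM_59_s hinv hr j z1 z2 u h
  · exact dM_74_s hinv hr j z1 z2 u h
theorem dM_76_s (hinv : ∀ x, g (inv x) = (g x)⁻¹) (hr : ∀ r ∈ rels, (r.map g).prod = 1) (j z1 z2 u : ℕ) (h : dM_76 j z1 z2 u = true) : GoodM (fa g) T MG M (cP g H) u := by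
  unfold dM_76 at h
  rcases brec_true h with h | h
  · exact dM_44_s hinv hr j z1 z2 u h
  · exact dM_75_s hinv hr j z1 z2 u h
theorem dM_77_s (hinv : ∀ x, g (inv x) = (g x)⁻¹) (hr : ∀ r ∈ rels, (r.map g).prod = 1) (j z1 z2 u : ℕ) (h : dM_77 j z1 z2 u = true) : GoodM (fa g) T MG M (cP g H) u := by
  unfold dM_77 at h
  rcases brec_true h with h | h
  · exact dM_23_s hinv hr j z1 z2 u h
  · exact dM_76_s hinv hr j z1 z2 u h
theorem dM_78_s (hinv : ∀ x, g (inv x) = (g x)⁻¹) (hr : ∀ r ∈ rels, (r.map g).prod = 1) (j z1 z2 u : ℕ) (h : dM_78 j z1 z2 u = true) : GoodM (fa g) T MG M (cP g H) u := by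
  unfold dM_78 at h
  rcases brec_true h with h | h
  · exact dM_6_s hinv hr j z1 z2 u h
  · exact dM_77_s hinv hr j z1 z2 u h
theorem dM_79_s (hinv : ∀ x, g (inv x) = (g x)⁻¹) (hr : ∀ r ∈ rels, (r.map g).prod = 1) (j z1 z2 u : ℕ) (h : dM_79 j z1 z2 u = true) : GoodM (fa g) T MG M (cP g H) u := by
  unfold dM_79 at h
  rcases brec_true h with h | h
  · exact dM_1_s hinv hr j z1 z2 u h
  · exact dM_78_s hinv hr j z1 z2 u h
theorem dM_80_s (hinv : ∀ x, g (inv x) = (g x)⁻¹) (hr : ∀ r ∈ rels, (r.map g).prod = 1) (j z1 z2 u : ℕ) (h : dM_80 j z1 z2 u = true) : GoodM (fa g) T MG M (cP g H) u := by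
  unfold dM_80 at h
  rcases brec_true h with h | h
  · exact dM_0_s hinv hr j z1 z2 u h
  · exact dM_79_s hinv hr j z1 z2 u h
theorem sndM (hinv : ∀ x, g (inv x) = (g x)⁻¹) (hr : ∀ r ∈ rels, (r.map g).prod = 1) (u : ℕ) (h : chkM u = true) :
    MG u < A → MG u % M < u ∧ GoodM (fa g) T MG M (cP g H) u := by
  intro hA
  unfold chkM at h
  cases hb : Nat.ble A (MG u) with
  | true => exact absurd (le_of_ble hb) (by omega)
  | false =>
    rw [hb] at h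
    obtain ⟨h1, h2⟩ := band_eq_true.1 h
    exact ⟨le_of_ble h1, dM_80_s hinv hr _ _ _ _ h2⟩
theorem sndN (hinv : ∀ x, g (inv x) = (g x)⁻¹) (hr : ∀ r ∈ rels, (r.map g).prod = 1) (hH : ∀ r ∈ subs, (r.map g).prod ∈ H)
    (u : ℕ) (hu : u < M) (h : chkP u = true) : (∀ x, (T x u < A ∧ Good (fa g) T MG M (cP g H) x u) ∨ (A ≤ T x u ∧ MG u < A)) ∧ (MG u < A → MG u % M < u ∧ GoodM (fa g) T MG M (cP g H) u) := by
  unfold chkP at h
  cases hb : Nat.ble M u with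
  | true => exact absurd (le_of_ble hb) (by omega)
  | false =>
    rw [hb] at h
    change chkN u = true at h
    unfold chkN at h
    obtain ⟨h0, h⟩ := band_eq_true.1 h
    obtain ⟨h1, h⟩ := band_eq_true.1 h
    obtain ⟨h2, h⟩ := band_eq_true.1 h
    obtain ⟨h3, h⟩ := band_eq_true.1 h
    obtain ⟨h4, h⟩ := band_eq_true.1 h
    obtain ⟨h5, h⟩ := band_eq_true.1 h
    obtain ⟨h6, h⟩ := band_eq_true.1 h
    obtain ⟨h7, h⟩ := band_eq_true.1 h
    obtain ⟨h8, h⟩ := band_eq_true.1 h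
    obtain ⟨h9, h⟩ := band_eq_true.1 h
    refine ⟨?_, sndM hinv hr u h⟩
    intro x
    cases x
    · exact snc_b hinv hr hH _ u hu h0
    · exact snc_bi hinv hr hH _ u hu h1
    · exact snc_g hinv hr hH _ u hu h2
    · exact snc_gi hinv hr hH _ u hu h3
    · exact snc_f hinv hr hH _ u hu h4
    · exact snc_fi hinv hr hH _ u hu h5
    · exact snc_n hinv hr hH _ u hu h6
    · exact snc_ni hinv hr hH _ u hu h7
    · exact snc_z hinv hr hH _ u hu h8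
    · exact snc_zi hinv hr hH _ u hu h9
theorem final (hinv : ∀ x, g (inv x) = (g x)⁻¹) (hr : ∀ r ∈ rels, (r.map g).prod = 1) (hH : ∀ r ∈ subs, (r.map g).prod ∈ H)
    (hall : ∀ u, u < M → chkP u = true) (hc : cntB liveP 15 0 = 16240) :
    H.relIndex (Subgroup.closure (Set.range g)) ≤ 16240 ∧ H.relIndex (Subgroup.closure (Set.range g)) ≠ 0 := by
  have hn := fun u hu => sndN hinv hr hH u hu (hall u hu)
  have h1 : ∀ x u, u < M → T x u < A → Good (fa g) T MG M (cP g H) x u := by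
    intro x u hu hx
    rcases (hn u hu).1 x with h | h
    · exact h.2
    · exact absurd h.1 (by omega)
  have h2 : ∀ u, u < M → MG u < A → GoodM (fa g) T MG M (cP g H) u := fun u hu h => ((hn u hu).2 h).2
  refine relIndex_le (M := M) (A := A) (T := T) (MG := MG) (c := cP g H) (by decide) cc_zero (sound_of_good h1 h2) ?_ ?_ ?_
  · intro u hu h
    exact ((hn u hu).2 h).1
  · intro x u hu h
    rcases (hn u hu).1 x with h' | h'
    · exact h'.1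
    · exact absurd h'.2 (by omega)
  · rw [← hc, ← cntB_spec]
    apply Finset.card_le_card
    intro u
    simp only [Finset.mem_filter, Finset.mem_Ico]
    rintro ⟨⟨_, h3⟩, h4⟩
    refine ⟨⟨Nat.zero_le _, lt_of_lt_of_le h3 (by decide)⟩, ?_⟩
    unfold liveP
    cases hb : Nat.ble M u with
    | true => exact absurd (le_of_ble hb) (by omega)
    | false => exact h4
end
end H94.TCRuA
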